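import Cfsg.Agent.MinU.Step3b

/-!
# Passage to `PSU`
-/

set_option autoImplicit false
set_option linter.unusedSectionVars false

namespace Cfsg.Agent.MinU

open Cfsg.Agent.Uni Finset

variable {F : Type*} [Field F] [Fintype F] {q n m : ℕ}

theorem center_le_PP (hF : Fintype.card F = q ^ 2) (hn : 2 ≤ n) (u : Fin n → F) :
    Subgroup.center (SU n F q) ≤ PP u := by
  intro g hg
  obtain ⟨c, hc⟩ := (mem_center_SU_iff hF hn g).1 hg
  have h1 : ∀ x, act g x = c • x := by
    intro x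
    rw [act_def, hc]
    funext i
    rw [Matrix.mulVec_diagonal]; rfl
  refine ⟨c, ?_, h1 u⟩
  rintro rfl
  have h2 : (Pi.single ⟨0, by omega⟩ 1 : Fin n → F) ≠ 0 := by
    rw [Ne, Pi.single_eq_zero_iff]; exact one_ne_zero
  apply act_ne_zero (g := g) h2
  rw [h1, zero_smul]

theorem psu_of_su (b : ℕ) (h1 : ∀ M : Subgroup (SU n F q), M ≠ ⊤ → b ≤ M.index)
    (h2 : ∃ M : Subgroup (SU n F q), Subgroup.center (SU n F q) ≤ M ∧ M.index = b) :
    (∀ H : Subgroup (Cfsg.PSU n F q), H ≠ ⊤ → b ≤ H.index) ∧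
      (∃ H : Subgroup (Cfsg.PSU n F q), H.index = b) := by
  constructor
  · intro H hH
    let K := H.comap (QuotientGroup.mk' (Subgroup.center (SU n F q)))
    have hK : K.index = H.index :=
      Subgroup.index_comap_of_surjective H (QuotientGroup.mk'_surjective _)
    have hKt : K ≠ ⊤ := by
      intro h
      apply hH
      rw [← Subgroup.index_eq_one, ← hK, h, Subgroup.index_top]
    rw [← hK]
    exact h1 K hKt
  · obtain ⟨M, hM, hMi⟩ := h2
    refine ⟨M.map (QuotientGroup.mk' (Subgroup.center (SU n F q))), ?_⟩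
    rw [Subgroup.index_map, QuotientGroup.ker_mk', sup_eq_left.2 hM]
    rw [(MonoidHom.range_eq_top (f := QuotientGroup.mk' _)).2 (QuotientGroup.mk'_surjective _),
      Subgroup.index_top, mul_one]
    exact hMi

/-- Comparison of the two bounds. -/
theorem cmp (q Q e : ℤ) (hq : 2 ≤ q) (hQ : 2 ≤ Q) (he : e = 1 ∨ e = -1)
    (h : 3 ≤ q ∨ e = -1) : (q * Q - e) * (Q + e) ≤ (q - 1) * (Q * (q * Q - e)) := by
  have hp : 0 ≤ q * Q - e := by
    have : 4 ≤ q * Q := by nlinarith
    rcases he with rfl | rfl <;> linarith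
  have h1 : Q + e ≤ (q - 1) * Q := by
    rcases h with h | h
    · rcases he with rfl | rfl <;> nlinarith
    · rw [h]; nlinarith
  calc (q * Q - e) * (Q + e) ≤ (q * Q - e) * ((q - 1) * Q) := mul_le_mul_of_nonneg_left h1 hp
    _ = _ := by ring

/-- Isotropic points are optimal. -/
theorem bound_iso (hF : Fintype.card F = q ^ 2) (hm : 4 ≤ m) (hcase : 3 ≤ q ∨ Odd m)
    (M : Subgroup (SU (m + 2) F q)) (hM : M ≠ ⊤) {u : Fin (m + 2) → F} (hu0 : u ≠ 0)
    (hu : hermForm (m + 2) F q u u = 0) : (PP (q := q) u).index ≤ M.index := by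
  have hq := two_le_q hF
  have hqz : (2 : ℤ) ≤ q := by exact_mod_cast hq
  have h1 := index_PP_iso hF (by omega) hu0 hu
  have hpow : ((-1 : ℤ)) ^ (m + 2) = (-1) ^ m := by rw [pow_add]; norm_num
  rw [hpow, show m + 2 - 1 = m + 1 by omega] at h1
  have hq2 : (0 : ℤ) < (q : ℤ) ^ 2 - 1 := by nlinarith
  have key : ((q : ℤ) ^ (m + 2) - (-1) ^ m) * ((q : ℤ) ^ (m + 1) + (-1) ^ m) ≤
      (M.index : ℤ) * ((q : ℤ) ^ 2 - 1) := by
    rcases main hF hm M hM with h | h
    · exact h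
    · have hc := cmp q ((q : ℤ) ^ (m + 1)) ((-1) ^ m) hqz (by
        calc (2 : ℤ) ≤ q := hqz
          _ = (q : ℤ) ^ 1 := (pow_one _).symm
          _ ≤ (q : ℤ) ^ (m + 1) := pow_le_pow_right₀ (by linarith) (by omega))
        (neg_one_pow_eq_or ℤ m) (by
        rcases hcase with h | h
        · left; exact_mod_cast h
        · right; exact h.neg_one_pow)
      have e1 : (q : ℤ) * (q : ℤ) ^ (m + 1) = (q : ℤ) ^ (m + 2) := by rw [← pow_succ']
      rw [e1] at hc
      refine hc.trans ?_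
      have h2 := mul_le_mul_of_nonneg_left h (by linarith : (0 : ℤ) ≤ q - 1)
      refine h2.trans (le_of_eq ?_)
      ring
  rw [← h1] at key
  have := le_of_mul_le_mul_right key hq2
  exact_mod_cast this

/-- Nonisotropic points are optimal for `q = 2`, `n` even. -/
theorem bound_ani (hF : Fintype.card F = 2 ^ 2) (hm : 4 ≤ m) (hev : Even m)
    (M : Subgroup (SU (m + 2) F 2)) (hM : M ≠ ⊤) {u : Fin (m + 2) → F}
    (hu : hermForm (m + 2) F 2 u u ≠ 0) : (PP (q := 2) u).index ≤ M.index := by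
  have h1 := index_PP_ani hF (by omega) hu
  have hpow : ((-1 : ℤ)) ^ (m + 2) = (-1) ^ m := by rw [pow_add]; norm_num
  rw [hpow, show m + 2 - 1 = m + 1 by omega, hev.neg_one_pow] at h1
  have h2 := main hF hm M hM
  rw [hev.neg_one_pow] at h2
  push_cast at h1 h2
  have e1 : (2 : ℤ) ^ (m + 2) = 2 * 2 ^ (m + 1) := by rw [← pow_succ']
  have hP : (2 : ℤ) ≤ 2 ^ (m + 1) := by
    calc (2 : ℤ) = 2 ^ 1 := by norm_num
      _ ≤ 2 ^ (m + 1) := pow_le_pow_right₀ (by norm_num) (by omega)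
  rw [e1] at h1 h2
  have key : ((PP (q := 2) u).index : ℤ) * 3 ≤ (M.index : ℤ) * 3 := by
    rcases h2 with h | h
    · nlinarith
    · linarith
  have : ((PP (q := 2) u).index : ℤ) ≤ M.index := by linarith
  exact_mod_cast this

end Cfsg.Agent.MinU
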