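import Cfsg.Agent.MinU.Step3

/-!
# Step 3, second part: `M` fixes a point
-/

set_option autoImplicit false
set_option linter.unusedSectionVars false

namespace Cfsg.Agent.MinU

open Cfsg.Agent.Uni Finset

variable {F : Type*} [Field F] [Fintype F] {q n m : ℕ}

local notation "⟪" x ", " y "⟫" => hermForm _ _ q x y

/-- Solving a trace equation to make `a + β r` isotropic. -/
theorem exists_iso_add (hF : Fintype.card F = q ^ 2) {a r : Fin n → F} (hr : ⟪r, r⟫ = 0)
    (har : ⟪a, r⟫ ≠ 0) : ∃ β : F, ⟪a + β • r, a + β • r⟫ = 0 := by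
  obtain ⟨x, hx⟩ := exists_trace_eq hF (c := -⟪a, a⟫) (by
    rw [neg_pow_q hF, hermForm_self_pow_q hF])
  refine ⟨(x / ⟪a, r⟫) ^ q, ?_⟩
  have hra : ⟪r, a⟫ ≠ 0 := fun h => har ((hermForm_eq_zero_comm hF).1 h)
  rw [hermForm_add_left, hermForm_add_right hF, hermForm_add_right hF, hermForm_smul_left,
    hermForm_smul_left, hermForm_smul_right, hermForm_smul_right, hr, pow_q_pow_q hF, div_pow,
    hermForm_symm hF, div_mul_cancel₀ _ har, div_mul_cancel₀ _ hra]
  linear_combination hx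

theorem orth_of_iso (hF : Fintype.card F = q ^ 2) (hm : 2 ≤ m) {w' : Fin m → F}
    (h : ∀ w : Fin m → F, ⟪w, w⟫ = 0 → ⟪w, w'⟫ = 0) : w' = 0 := by
  by_contra h0
  obtain ⟨r, -, hr, hr'⟩ := exists_iso_ne hF (nd_top hF)
    (by rw [finrank_top, Module.finrank_fin_fun]; exact hm) (Submodule.mem_top (x := w')) h0
  exact hr' ((hermForm_eq_zero_comm hF).1 (h r hr))

/-- The final analysis. -/
theorem fixes_point (hF : Fintype.card F = q ^ 2) (hm : 2 ≤ m) {e e' : Fin 2 → F}
    (hee : Hyp q e e') {M : Subgroup (SU (m + 2) F q)} (hG : Good hF M) (hL : Lines hF M)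
    (hCe : ¬ Cc hF M (kp e 0)) (hC : ∀ w : Fin m → F, ⟪w, w⟫ = 0 → C0 hF M (kp 0 w)) :
    (∃ r : Fin (m + 2) → F, r ≠ 0 ∧ ⟪r, r⟫ = 0 ∧ M ≤ PP r) ∨
      (∃ r : Fin (m + 2) → F, ⟪r, r⟫ ≠ 0 ∧ M ≤ PP r) := by
  have he0 : e ≠ 0 := hee.left_ne
  have he := hee.1
  -- isotropy of `kp a w`
  have hkiso : ∀ (a : Fin 2 → F) (w : Fin m → F), ⟪a, a⟫ = 0 → ⟪w, w⟫ = 0 →
      ⟪kp a w, kp a w⟫ = 0 := by
    intro a w ha hw
    rw [kp_form, ha, hw, add_zero]
  have hsmiso : ∀ {k : ℕ} (x : Fin k → F) (c : F), ⟪x, x⟫ = 0 → ⟪c • x, c • x⟫ = 0 := by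
    intro k x c hx
    rw [hermForm_smul_left, hermForm_smul_right, hx, mul_zero, mul_zero]
  by_cases hA : ∃ r : Fin 2 → F, r ≠ 0 ∧ Cc hF M (kp r 0)
  · -- case A
    left
    obtain ⟨r, hr0, hr⟩ := hA
    have hrr : ⟪r, r⟫ = 0 := by
      have := hr.2.1
      rwa [kp_form, hermForm_zero_left, add_zero] at this
    refine ⟨kp r 0, kp_ne_zero_left hr0 0, hr.2.1, ?_⟩
    have horth : ∀ x, Cc hF M x → ⟪x, kp r 0⟫ = 0 := by
      intro x hx
      by_contra hne
      obtain ⟨a, w, rfl⟩ := kp_surj x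
      rw [kp_form, hermForm_zero_right hF, add_zero] at hne
      have hxx := hx.2.1
      rw [kp_form] at hxx
      -- `w1`
      obtain ⟨w₁, hw₁, hww₁⟩ : ∃ w₁ : Fin m → F, ⟪w₁, w₁⟫ = 0 ∧ ⟪w + w₁, w + w₁⟫ = 0 := by
        by_cases hw : ⟪w, w⟫ = 0
        · exact ⟨0, hermForm_zero_left _, by rw [add_zero]; exact hw⟩
        · have hw0 : w ≠ 0 := by rintro rfl; exact hw (hermForm_zero_left _)
          obtain ⟨r', -, hr', hwr'⟩ := exists_iso_ne hF (nd_top hF)
            (by rw [finrank_top, Module.finrank_fin_fun]; exact hm)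
            (Submodule.mem_top (x := w)) hw0
          obtain ⟨β, hβ⟩ := exists_iso_add hF hr' hwr'
          exact ⟨β • r', hsmiso _ _ hr', hβ⟩
      obtain ⟨β, hβ⟩ := exists_iso_add hF hrr hne
      have s1 : C0 hF M (kp (β • r) w₁) := by
        have h1 := C0_add hF hG (C0_smul hF (Or.inr hr) β) (hC w₁ hw₁) (by
          rw [← kp_smul, ← kp_add, smul_zero, add_zero, zero_add]
          exact hkiso _ _ (hsmiso _ _ hrr) hw₁)
        rwa [← kp_smul, ← kp_add, smul_zero, add_zero, zero_add] at h1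
      have s2 : C0 hF M (kp (a + β • r) (w + w₁)) := by
        have h1 := C0_add hF hG (Or.inr hx) s1 (by
          rw [← kp_add]
          exact hkiso _ _ hβ hww₁)
        rwa [← kp_add] at h1
      have s3 : C0 hF M (kp (a + β • r) 0) := by
        have h1 := C0_add hF hG s2 (C0_smul hF (hC _ hww₁) (-1)) (by
          rw [← kp_smul, ← kp_add, smul_zero, add_zero, neg_one_smul, add_neg_cancel]
          exact hkiso _ _ hβ (hermForm_zero_left _))
        rwa [← kp_smul, ← kp_add, smul_zero, add_zero, neg_one_smul, add_neg_cancel] at h1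
      set r' := a + β • r with hr'
      have hr'r : ⟪r', r⟫ ≠ 0 := by
        rw [hr', hermForm_add_left, hermForm_smul_left, hrr, mul_zero, add_zero]
        exact hne
      have hrr' : ⟪r, r'⟫ ≠ 0 := fun h => hr'r ((hermForm_eq_zero_comm hF).1 h)
      set c := ((⟪r, r'⟫)⁻¹) ^ q with hc
      have hH : Hyp q r (c • r') := by
        refine ⟨hrr, hsmiso _ _ hβ, ?_⟩
        rw [hermForm_smul_right, hc, pow_q_pow_q hF, inv_mul_cancel₀ hrr']
      have h2 := hyp2_coord hF hH e
      have s4 : C0 hF M (kp e 0) := by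
        have h1 := C0_add hF hG (C0_smul hF (Or.inr hr) ⟪e, c • r'⟫)
          (C0_smul hF (C0_smul hF s3 c) ⟪e, r⟫) (by
          simp only [← kp_smul, ← kp_add, smul_zero, add_zero]
          rw [← h2]
          exact kp_iso_left he)
        simp only [← kp_smul, ← kp_add, smul_zero, add_zero] at h1
        rw [← h2] at h1
        exact h1
      rcases s4 with s4 | s4
      · exact kp_ne_zero_left he0 _ s4
      · exact hCe s4
    intro g hg
    obtain ⟨a', w', haw⟩ := kp_surj (act g (kp r 0))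
    have key : ∀ x, C0 hF M x → ⟪x, act g (kp r 0)⟫ = 0 := by
      intro x hx
      rcases hx with rfl | hx
      · exact hermForm_zero_left _
      · have h1 := horth _ (Cc_act hF (M.inv_mem hg) hx)
        rwa [act_form_left, inv_inv] at h1
    have hw' : w' = 0 := by
      apply orth_of_iso hF hm
      intro w hw
      have := key _ (hC w hw)
      rwa [haw, kp_form, hermForm_zero_left, zero_add] at this
    have ha' : ⟪r, a'⟫ = 0 := by
      have := key _ (Or.inr hr)
      rwa [haw, kp_form, hermForm_zero_left, add_zero] at this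
    obtain ⟨c, rfl⟩ := eq_smul_of_perp2 hF hr0 hrr ha'
    rw [hw', kp_smul_left] at haw
    refine ⟨c, ?_, haw⟩
    rintro rfl
    rw [zero_smul] at haw
    exact act_ne_zero (kp_ne_zero_left hr0 (0 : Fin m → F)) haw
  · -- case B
    push Not at hA
    right
    have hnoiso : ∀ (a : Fin 2 → F) (w : Fin m → F), a ≠ 0 → ⟪a, a⟫ = 0 → ¬ Cc hF M (kp a w) := by
      intro a w ha0 ha hx
      have hw : ⟪w, w⟫ = 0 := by
        have := hx.2.1
        rwa [kp_form, ha, zero_add] at this
      have h1 := C0_add hF hG (Or.inr hx) (C0_smul hF (hC w hw) (-1)) (by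
        rw [← kp_smul, ← kp_add, smul_zero, add_zero, neg_one_smul, add_neg_cancel]
        exact hkiso _ _ ha (hermForm_zero_left _))
      rw [← kp_smul, ← kp_add, smul_zero, add_zero, neg_one_smul, add_neg_cancel] at h1
      rcases h1 with h1 | h1
      · exact kp_ne_zero_left ha0 _ h1
      · exact hA a ha0 h1
    -- the embedding `F^2 → F^m` reversing the sign of the form
    obtain ⟨σ, hσ⟩ := exists_norm_neg_one hF
    obtain ⟨m', rfl⟩ : ∃ m', m = m' + 2 := ⟨m - 2, by omega⟩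
    set ι : (Fin 2 → F) → (Fin (m' + 2) → F) := fun x => σ • kp x 0 with hι
    have hιf : ∀ x y, ⟪ι x, ι y⟫ = -⟪x, y⟫ := by
      intro x y
      simp only [hι]
      rw [hermForm_smul_left, hermForm_smul_right, kp_form, hermForm_zero_left, add_zero,
        ← mul_assoc, ← pow_succ', hσ, neg_one_mul]
    have hιadd : ∀ x y, ι (x + y) = ι x + ι y := by
      intro x y
      simp only [hι]
      rw [← smul_add, ← kp_add, add_zero]
    have hιsmul : ∀ (c : F) x, ι (c • x) = c • ι x := by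
      intro c x
      simp only [hι]
      rw [kp_smul_left, smul_comm]
    -- there are points outside `F^m`
    obtain ⟨a₀, w₀, ha₀, hx₀⟩ : ∃ (a₀ : Fin 2 → F) (w₀ : Fin (m' + 2) → F), a₀ ≠ 0 ∧
        Cc hF M (kp a₀ w₀) := by
      by_contra hcon
      push Not at hcon
      have he'0 : e' ≠ 0 := (hee.symm hF).left_ne
      obtain ⟨a, b, hab⟩ := hL (kp e (ι e)) (kp e' (ι e')) (by
        rw [LinearIndependent.pair_iff]
        intro a b hab
        rw [← kp_smul, ← kp_smul, ← kp_add, kp_eq_zero] at hab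
        exact LinearIndependent.pair_iff.1 (Hyp.li hF hee) a b hab.1)
        (by rw [kp_form, hιf]; ring) (by rw [kp_form, hιf]; ring) (by rw [kp_form, hιf]; ring)
      rw [← kp_smul, ← kp_smul, ← kp_add, ← hιsmul, ← hιsmul, ← hιadd] at hab
      by_cases h0 : a • e + b • e' = 0
      · apply hab.1
        rw [h0]
        have : ι 0 = 0 := by
          have := hιsmul 0 0
          rwa [zero_smul, zero_smul] at this
        rw [this, kp_zero]
      · exact hcon _ _ h0 hab
    have ha₀a₀ : ⟪a₀, a₀⟫ ≠ 0 := fun h => hnoiso a₀ w₀ ha₀ h hx₀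
    -- moving within norm classes
    have hmove : ∀ (a : Fin 2 → F) (w : Fin (m' + 2) → F), a ≠ 0 → Cc hF M (kp a w) →
        Cc hF M (kp a (ι a)) := by
      intro a w ha0 hx
      have haa : ⟪a, a⟫ ≠ 0 := fun h => hnoiso a w ha0 h hx
      have hw : ⟪w, w⟫ = -⟪a, a⟫ := by
        have := hx.2.1
        rw [kp_form] at this
        linear_combination this
      refine conn hF (by omega) (neg_ne_zero.2 haa) (fun w => Cc hF M (kp a w)) ?_ hw
        (by rw [hιf]) hx
      intro w r hw hr hwr h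
      have h1 := C0_add hF hG (Or.inr h) (hC r hr) (by
        rw [← kp_add, add_zero, kp_form, hwr, add_neg_cancel])
      rw [← kp_add, add_zero] at h1
      rcases h1 with h1 | h1
      · exact absurd h1 (kp_ne_zero_left ha0 _)
      · exact h1
    have hline : ∀ (a : Fin 2 → F) (w : Fin (m' + 2) → F), Cc hF M (kp a w) →
        ∃ c : F, a = c • a₀ := by
      intro a w hx
      by_contra hne
      push Not at hne
      have ha0 : a ≠ 0 := by
        rintro rfl
        exact hne 0 (by rw [zero_smul])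
      have hli : LinearIndependent F ![a₀, a] := by
        rw [LinearIndependent.pair_iff' ha₀]
        intro c hc
        exact hne c hc.symm
      have hspan : e ∈ Submodule.span F {a₀, a} := by
        have h1 : Submodule.span F {a₀, a} = ⊤ := by
          apply Submodule.eq_top_of_finrank_eq
          have := finrank_span_eq_card hli
          rw [Fintype.card_fin, Matrix.range_cons, Matrix.range_cons, Matrix.range_empty,
            Set.union_empty, Set.singleton_union] at this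
          rw [this, Module.finrank_fin_fun]
        rw [h1]; exact Submodule.mem_top
      obtain ⟨α, β, hαβ⟩ := Submodule.mem_span_pair.1 hspan
      have h1 := C0_add hF hG (C0_smul hF (Or.inr (hmove a₀ w₀ ha₀ hx₀)) α)
        (C0_smul hF (Or.inr (hmove a w ha0 hx)) β) (by
        rw [← kp_smul, ← kp_smul, ← kp_add, ← hιsmul, ← hιsmul, ← hιadd, hαβ, kp_form, hιf]
        ring)
      rw [← kp_smul, ← kp_smul, ← kp_add, ← hιsmul, ← hιsmul, ← hιadd, hαβ] at h1
      rcases h1 with h1 | h1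
      · exact kp_ne_zero_left he0 _ h1
      · exact hnoiso e _ he0 he h1
    -- the orthogonal vector
    obtain ⟨z, hz0, hz⟩ : ∃ z : Fin 2 → F, z ≠ 0 ∧ ⟪a₀, z⟫ = 0 := by
      have h1 := finrank_vp hF ha₀
      have h2 : vp q a₀ ≠ ⊥ := by
        intro h
        rw [h, finrank_bot] at h1
        omega
      obtain ⟨z, hz, hz0⟩ := (Submodule.ne_bot_iff _).1 h2
      exact ⟨z, hz0, (mem_vp' hF).1 hz⟩
    have hza : ⟪z, a₀⟫ = 0 := (hermForm_eq_zero_comm hF).1 hz
    have hzz : ⟪z, z⟫ ≠ 0 := by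
      intro h
      obtain ⟨c, hc⟩ := eq_smul_of_perp2 hF hz0 h hza
      apply ha₀a₀
      rw [hc]
      exact hsmiso _ _ h
    refine ⟨kp z 0, by rw [kp_form, hermForm_zero_left, add_zero]; exact hzz, ?_⟩
    have horth : ∀ x, Cc hF M x → ⟪x, kp z 0⟫ = 0 := by
      intro x hx
      obtain ⟨a, w, rfl⟩ := kp_surj x
      obtain ⟨c, rfl⟩ := hline a w hx
      rw [kp_form, hermForm_zero_right hF, add_zero, hermForm_smul_left, hz, mul_zero]
    intro g hg
    obtain ⟨a', w', haw⟩ := kp_surj (act g (kp z (0 : Fin (m' + 2) → F)))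
    have key : ∀ x, C0 hF M x → ⟪x, act g (kp z 0)⟫ = 0 := by
      intro x hx
      rcases hx with rfl | hx
      · exact hermForm_zero_left _
      · have h1 := horth _ (Cc_act hF (M.inv_mem hg) hx)
        rwa [act_form_left, inv_inv] at h1
    have hw' : w' = 0 := by
      apply orth_of_iso hF hm
      intro w hw
      have := key _ (hC w hw)
      rwa [haw, kp_form, hermForm_zero_left, zero_add] at this
    have ha' : ⟪a₀, a'⟫ = 0 := by
      have := key _ (Or.inr hx₀)
      rwa [haw, kp_form, hw', hermForm_zero_right hF, add_zero] at this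
    -- `a' ∈ F z`
    have hspan : Submodule.span F {z} = vp q a₀ := by
      apply Submodule.eq_of_le_of_finrank_eq
      · rw [Submodule.span_singleton_le_iff_mem, mem_vp' hF]; exact hz
      · rw [finrank_vp hF ha₀, finrank_span_singleton hz0]
    have h3 : a' ∈ Submodule.span F {z} := by rw [hspan, mem_vp' hF]; exact ha'
    obtain ⟨c, hc⟩ := Submodule.mem_span_singleton.1 h3
    rw [hw', ← hc, kp_smul_left] at haw
    refine ⟨c, ?_, haw⟩
    rintro rfl
    rw [zero_smul] at haw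
    exact act_ne_zero (kp_ne_zero_left hz0 (0 : Fin (m' + 2) → F)) haw

/-! ### Indices of the point stabilisers -/

theorem relIndex_fixs_PP_iso (hF : Fintype.card F = q ^ 2) (hn : 3 ≤ n) {u : Fin n → F}
    (hu0 : u ≠ 0) (hu : ⟪u, u⟫ = 0) : (fixs (q := q) u).relIndex (PP u) = q ^ 2 - 1 := by
  classical
  rw [relIndex_fixs]
  have e : {c : F // c ≠ 0} ≃ {v : Fin n → F // ∃ g ∈ PP (q := q) u, act g u = v} := by
    refine Equiv.ofBijective (fun c => ⟨c.1 • u, ?_⟩) ⟨?_, ?_⟩
    · obtain ⟨g, hg⟩ := exists_SU_single hF hn hu0 (smul_ne_zero c.2 hu0) (by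
        rw [hermForm_smul_left, hermForm_smul_right, hu, mul_zero, mul_zero])
      exact ⟨g, ⟨c.1, c.2, hg⟩, hg⟩
    · intro c c' h
      have h1 : c.1 • u = c'.1 • u := congrArg Subtype.val h
      have h2 : (c.1 - c'.1) • u = 0 := by rw [sub_smul, h1, sub_self]
      rcases smul_eq_zero.1 h2 with h3 | h3
      · exact Subtype.ext (sub_eq_zero.1 h3)
      · exact absurd h3 hu0
    · rintro ⟨v, g, ⟨c, hc, hgc⟩, hg⟩
      refine ⟨⟨c, hc⟩, Subtype.ext ?_⟩
      change c • u = v
      rw [← hg, hgc]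
  rw [← Nat.card_congr e, Nat.card_eq_fintype_card, Fintype.card_subtype_compl]
  simp [hF]

theorem relIndex_fixs_PP_ani (hF : Fintype.card F = q ^ 2) (hn : 3 ≤ n) {u : Fin n → F}
    (hu : ⟪u, u⟫ ≠ 0) : (fixs (q := q) u).relIndex (PP u) = q + 1 := by
  classical
  have hu0 : u ≠ 0 := by rintro rfl; exact hu (hermForm_zero_left _)
  rw [relIndex_fixs]
  have hnorm : ∀ c : F, ⟪c • u, c • u⟫ = ⟪u, u⟫ ↔ c ^ (q + 1) = 1 := by
    intro c
    rw [hermForm_smul_left, hermForm_smul_right, ← mul_assoc, ← pow_succ']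
    constructor
    · intro h
      exact mul_right_cancel₀ hu (by rw [h, one_mul])
    · intro h
      rw [h, one_mul]
  have hne : ∀ c : {c : F // c ^ (q + 1) = 1}, c.1 ≠ 0 := by
    rintro ⟨c, hc⟩ rfl
    rw [zero_pow (by omega)] at hc
    exact zero_ne_one hc
  have e : {c : F // c ^ (q + 1) = 1} ≃
      {v : Fin n → F // ∃ g ∈ PP (q := q) u, act g u = v} := by
    refine Equiv.ofBijective (fun c => ⟨c.1 • u, ?_⟩) ⟨?_, ?_⟩
    · obtain ⟨g, hg⟩ := exists_SU_single hF hn hu0 (smul_ne_zero (hne c) hu0)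
        ((hnorm c.1).2 c.2).symm
      exact ⟨g, ⟨c.1, hne c, hg⟩, hg⟩
    · intro c c' h
      have h1 : c.1 • u = c'.1 • u := congrArg Subtype.val h
      have h2 : (c.1 - c'.1) • u = 0 := by rw [sub_smul, h1, sub_self]
      rcases smul_eq_zero.1 h2 with h3 | h3
      · exact Subtype.ext (sub_eq_zero.1 h3)
      · exact absurd h3 hu0
    · rintro ⟨v, g, ⟨c, hc, hgc⟩, hg⟩
      have hc1 : c ^ (q + 1) = 1 := by
        rw [← hnorm, ← hgc, act_form]
      refine ⟨⟨c, hc1⟩, Subtype.ext ?_⟩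
      change c • u = v
      rw [← hg, hgc]
  rw [← Nat.card_congr e]
  exact card_norm_eq hF (one_pow q) one_ne_zero

theorem index_PP_iso (hF : Fintype.card F = q ^ 2) (hn : 3 ≤ n) {u : Fin n → F}
    (hu0 : u ≠ 0) (hu : ⟪u, u⟫ = 0) :
    ((PP (q := q) u).index : ℤ) * ((q : ℤ) ^ 2 - 1) =
      ((q : ℤ) ^ n - (-1) ^ n) * ((q : ℤ) ^ (n - 1) + (-1) ^ n) := by
  have h1 := Subgroup.relIndex_mul_index (fixs_le_PP (q := q) u)
  rw [relIndex_fixs_PP_iso hF hn hu0 hu, index_fixs_iso hF hn hu0 hu] at h1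
  have h2 := cnt_zero_sub_one hF (F := F) (q := q) (n - 1)
  rw [show n - 1 + 1 = n by omega, ← h1] at h2
  rw [← h2]
  have hq := two_le_q hF
  have h3 : 1 ≤ q ^ 2 := Nat.one_le_pow _ _ (by omega)
  push_cast [Nat.cast_sub h3]
  ring

theorem index_PP_ani (hF : Fintype.card F = q ^ 2) (hn : 3 ≤ n) {u : Fin n → F}
    (hu : ⟪u, u⟫ ≠ 0) :
    ((PP (q := q) u).index : ℤ) * ((q : ℤ) + 1) =
      (q : ℤ) ^ (n - 1) * ((q : ℤ) ^ n - (-1) ^ n) := by
  have h1 := Subgroup.relIndex_mul_index (fixs_le_PP (q := q) u)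
  rw [relIndex_fixs_PP_ani hF hn hu, index_fixs_ani hF hn hu] at h1
  have h2 := (cnt_closed hF (F := F) (q := q) n).2
  rw [← h1] at h2
  have hq := two_le_q hF
  have hq0 : (q : ℤ) ≠ 0 := by
    have : (q : ℤ) ≠ 0 := by exact_mod_cast (by omega : q ≠ 0)
    exact this
  apply mul_left_cancel₀ hq0
  push_cast at h2
  have h3 : (q : ℤ) ^ n = q * (q : ℤ) ^ (n - 1) := by
    rw [← pow_succ']; congr 1; omega
  linear_combination h2 + ((q : ℤ) ^ n - (-1) ^ n) * h3

/-- The main theorem for `SU_n`, `n = m + 2 ≥ 6`. -/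
theorem main (hF : Fintype.card F = q ^ 2) (hm : 4 ≤ m) (M : Subgroup (SU (m + 2) F q))
    (hM : M ≠ ⊤) :
    ((q : ℤ) ^ (m + 2) - (-1) ^ m) * ((q : ℤ) ^ (m + 1) + (-1) ^ m) ≤
      (M.index : ℤ) * ((q : ℤ) ^ 2 - 1) ∨
    (q : ℤ) ^ (m + 1) * ((q : ℤ) ^ (m + 2) - (-1) ^ m) ≤ (M.index : ℤ) * ((q : ℤ) + 1) := by
  by_contra hcon
  push Not at hcon
  obtain ⟨hA, hB⟩ := hcon
  have hGood : ∀ k, Good hF (cj k M) := by
    intro k u hu0 hu hX
    exact step1 hF hm (cj k M) (by rw [index_cj]; exact hA) hu0 hu hX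
  have hLines : ∀ k, Lines hF (cj k M) := by
    intro k u y hli hu hy huy
    exact step2 hF (by omega) (hGood k) hli hu hy huy
  obtain ⟨e, e', hee⟩ := exists_e2 hF
  obtain ⟨k, hk1, hk2⟩ := normalise hF (by omega) hee.left_ne hee.1 (by omega) hM
    (fun k => ⟨hGood k, hLines k⟩)
  have hpow : ((-1 : ℤ)) ^ (m + 2) = (-1) ^ m := by rw [pow_add]; norm_num
  have hqpos : (0 : ℤ) < q := by
    have := two_le_q hF
    exact_mod_cast (by omega : 0 < q)
  have hq2 : (0 : ℤ) ≤ (q : ℤ) ^ 2 - 1 := by nlinarith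
  rcases fixes_point hF (by omega) hee (hGood k) (hLines k) hk1 hk2 with
    ⟨r, hr0, hr, hle⟩ | ⟨r, hr, hle⟩
  · have h1 : (PP (q := q) r).index ≤ M.index := by
      rw [← index_cj k M]
      exact Subgroup.index_antitone hle
    have h2 := index_PP_iso hF (by omega) hr0 hr
    rw [hpow, show m + 2 - 1 = m + 1 by omega] at h2
    have h3 : ((PP (q := q) r).index : ℤ) * ((q : ℤ) ^ 2 - 1) ≤
        (M.index : ℤ) * ((q : ℤ) ^ 2 - 1) := mul_le_mul_of_nonneg_right (by exact_mod_cast h1) hq2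
    linarith
  · have h1 : (PP (q := q) r).index ≤ M.index := by
      rw [← index_cj k M]
      exact Subgroup.index_antitone hle
    have h2 := index_PP_ani hF (by omega) hr
    rw [hpow, show m + 2 - 1 = m + 1 by omega] at h2
    have h3 : ((PP (q := q) r).index : ℤ) * ((q : ℤ) + 1) ≤
        (M.index : ℤ) * ((q : ℤ) + 1) :=
      mul_le_mul_of_nonneg_right (by exact_mod_cast h1) (by linarith)
    linarith

end Cfsg.Agent.MinU
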