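import Cfsg.Agent.MinU.LemA3
import Cfsg.Agent.MinU.Step3b

/-!
# The additive subgroup lemma in dimension three, conclusion
-/

set_option autoImplicit false
set_option linter.unusedSectionVars false
set_option maxHeartbeats 1000000

namespace Cfsg.Agent.MinU

open Cfsg.Agent.Uni Finset

section num
variable (q I b j c w : ℤ)

theorem nA (hq : 2 ≤ q) (hI0 : 0 ≤ I) (hb0 : 1 ≤ b) (hI : I * q ^ 7 < (q ^ 5 + 1) * (q ^ 2 + 1) * b)
    (hb : 2 * b ≤ q ^ 3) (hc : (q ^ 3 + 1) * (q ^ 2 - 1) ≤ c) (hj : j * c ≤ I * (b - 1)) :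
    j < q := by
  by_contra hcon
  push Not at hcon
  have hq7 : 0 < q ^ 7 := by positivity
  have hc0 : 0 < c := lt_of_lt_of_le (mul_pos (by positivity) (by nlinarith)) hc
  have e1 : q * c ≤ I * b := by
    have h1 : q * c ≤ j * c := mul_le_mul_of_nonneg_right hcon hc0.le
    have h2 : I * (b - 1) ≤ I * b := mul_le_mul_of_nonneg_left (by linarith) hI0
    linarith
  have e2 : q * c * q ^ 7 < (q ^ 5 + 1) * (q ^ 2 + 1) * b * b := by
    calc q * c * q ^ 7 ≤ I * b * q ^ 7 := mul_le_mul_of_nonneg_right e1 hq7.le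
      _ = I * q ^ 7 * b := by ring
      _ < _ := mul_lt_mul_of_pos_right hI (by linarith)
  have e3 : (2 * b) * (2 * b) ≤ q ^ 3 * q ^ 3 := mul_le_mul hb hb (by linarith) (by positivity)
  have e4 : 4 * (q * c * q ^ 7) < (q ^ 5 + 1) * (q ^ 2 + 1) * (q ^ 3 * q ^ 3) := by
    have h1 : (q ^ 5 + 1) * (q ^ 2 + 1) * ((2 * b) * (2 * b)) ≤
      (q ^ 5 + 1) * (q ^ 2 + 1) * (q ^ 3 * q ^ 3) := mul_le_mul_of_nonneg_left e3 (by positivity)
    nlinarith
  have e5 : 4 * q ^ 8 * ((q ^ 3 + 1) * (q ^ 2 - 1)) ≤ 4 * q ^ 8 * c :=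
    mul_le_mul_of_nonneg_left hc (by positivity)
  have e6 : (q ^ 5 + 1) * (q ^ 2 + 1) * (q ^ 3 * q ^ 3) ≤
      4 * q ^ 8 * ((q ^ 3 + 1) * (q ^ 2 - 1)) := by
    obtain ⟨a, rfl⟩ : ∃ a, q = 2 + a := ⟨q - 2, by ring⟩
    have ha : 0 ≤ a := by linarith
    rw [← sub_nonneg]; ring_nf; positivity
  nlinarith

theorem nB (hq : 2 ≤ q) (hb0 : 1 ≤ b) (hI : I * q ^ 7 < (q ^ 5 + 1) * (q ^ 2 + 1) * b)
    (hb : b ≤ q ^ 2) (hc : (q ^ 3 + 1) * (q ^ 2 - 1) ≤ c) (hI0 : 0 ≤ I)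
    (hj : c ≤ I * (b - 1)) : False := by
  have h1 : I * (b - 1) ≤ I * (q ^ 2 - 1) := mul_le_mul_of_nonneg_left (by linarith) hI0
  have hp : 0 < q ^ 2 - 1 := by nlinarith
  have h2 : q ^ 3 + 1 ≤ I := le_of_mul_le_mul_right (by linarith) hp
  have h3 : (q ^ 5 + 1) * (q ^ 2 + 1) * b ≤ (q ^ 5 + 1) * (q ^ 2 + 1) * q ^ 2 :=
    mul_le_mul_of_nonneg_left hb (by positivity)
  have h4 : (q ^ 3 + 1) * q ^ 7 ≤ I * q ^ 7 := mul_le_mul_of_nonneg_right h2 (by positivity)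
  have h5 : (q ^ 5 + 1) * (q ^ 2 + 1) * q ^ 2 ≤ (q ^ 3 + 1) * q ^ 7 := by
    obtain ⟨a, rfl⟩ : ∃ a, q = 2 + a := ⟨q - 2, by ring⟩
    have ha : 0 ≤ a := by linarith
    rw [← sub_nonneg]; ring_nf; positivity
  linarith

theorem nC (hq : 2 ≤ q) (hI : I * q ^ 7 < (q ^ 5 + 1) * (q ^ 2 + 1) * b)
    (hb : 2 * b ≤ q ^ 3) (hI0 : q ^ 3 + 1 ≤ I) : False := by
  have h3 : (q ^ 5 + 1) * (q ^ 2 + 1) * (2 * b) ≤ (q ^ 5 + 1) * (q ^ 2 + 1) * q ^ 3 :=
    mul_le_mul_of_nonneg_left hb (by positivity)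
  have h4 : (q ^ 3 + 1) * q ^ 7 ≤ I * q ^ 7 := mul_le_mul_of_nonneg_right hI0 (by positivity)
  have h5 : (q ^ 5 + 1) * (q ^ 2 + 1) * q ^ 3 ≤ 2 * ((q ^ 3 + 1) * q ^ 7) := by
    obtain ⟨a, rfl⟩ : ∃ a, q = 2 + a := ⟨q - 2, by ring⟩
    have ha : 0 ≤ a := by linarith
    rw [← sub_nonneg]; ring_nf; positivity
  nlinarith

theorem nD (hq : 2 ≤ q) (hI : I * q ^ 7 < (q ^ 5 + 1) * (q ^ 2 + 1) * q ^ 3) :
    I ≤ q ^ 3 + q := by
  by_contra hcon
  push Not at hcon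
  have h1 : q ^ 3 + q + 1 ≤ I := hcon
  have h2 : (q ^ 3 + q + 1) * q ^ 7 ≤ I * q ^ 7 := mul_le_mul_of_nonneg_right h1 (by positivity)
  have h5 : (q ^ 5 + 1) * (q ^ 2 + 1) * q ^ 3 ≤ (q ^ 3 + q + 1) * q ^ 7 := by
    obtain ⟨a, rfl⟩ : ∃ a, q = 2 + a := ⟨q - 2, by ring⟩
    have ha : 0 ≤ a := by linarith
    rw [← sub_nonneg]; ring_nf; positivity
  linarith

theorem nE (hq : 2 ≤ q) (hI : I ≤ q ^ 3 + q) (hc : (q ^ 3 + 1) * (q ^ 2 - 1) ≤ c)
    (hj : j * c ≤ I * (q ^ 3 - 1)) : j ≤ q := by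
  by_contra hcon
  push Not at hcon
  have hc0 : 0 < c := lt_of_lt_of_le (mul_pos (by positivity) (by nlinarith)) hc
  have hq3 : 0 < q ^ 3 - 1 := by
    have : (2 : ℤ) ^ 3 ≤ q ^ 3 := pow_le_pow_left₀ (by norm_num) hq 3
    linarith
  have h1 : (q + 1) * c ≤ j * c := mul_le_mul_of_nonneg_right (by linarith) hc0.le
  have h2 : I * (q ^ 3 - 1) ≤ (q ^ 3 + q) * (q ^ 3 - 1) := mul_le_mul_of_nonneg_right hI hq3.le
  have h3 : (q + 1) * ((q ^ 3 + 1) * (q ^ 2 - 1)) ≤ (q + 1) * c :=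
    mul_le_mul_of_nonneg_left hc (by linarith)
  have h5 : (q ^ 3 + q) * (q ^ 3 - 1) < (q + 1) * ((q ^ 3 + 1) * (q ^ 2 - 1)) := by
    obtain ⟨a, rfl⟩ : ∃ a, q = 2 + a := ⟨q - 2, by ring⟩
    have ha : 0 ≤ a := by linarith
    rw [← sub_pos]; ring_nf; positivity
  linarith

theorem nF (hq : 2 ≤ q) (hI : I ≤ q ^ 3 + q)
    (h : q * ((q ^ 3 + 1) * (q ^ 2 - 1)) + q ^ 2 * (q ^ 3 + 1) ≤ I * (q ^ 3 - 1)) : False := by
  have hq3 : 0 < q ^ 3 - 1 := by
    have : (2 : ℤ) ^ 3 ≤ q ^ 3 := pow_le_pow_left₀ (by norm_num) hq 3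
    linarith
  have h2 : I * (q ^ 3 - 1) ≤ (q ^ 3 + q) * (q ^ 3 - 1) := mul_le_mul_of_nonneg_right hI hq3.le
  have h5 : (q ^ 3 + q) * (q ^ 3 - 1) < q * ((q ^ 3 + 1) * (q ^ 2 - 1)) + q ^ 2 * (q ^ 3 + 1) := by
    obtain ⟨a, rfl⟩ : ∃ a, q = 2 + a := ⟨q - 2, by ring⟩
    have ha : 0 ≤ a := by linarith
    rw [← sub_pos]; ring_nf; positivity
  linarith

theorem nG (hq : 2 ≤ q) (hI : I ≤ q ^ 3 + q)
    (h : 2 * (q * ((q ^ 3 + 1) * (q ^ 2 - 1))) ≤ I * (q ^ 3 - 1)) : False := by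
  have hq3 : 0 < q ^ 3 - 1 := by
    have : (2 : ℤ) ^ 3 ≤ q ^ 3 := pow_le_pow_left₀ (by norm_num) hq 3
    linarith
  have h2 : I * (q ^ 3 - 1) ≤ (q ^ 3 + q) * (q ^ 3 - 1) := mul_le_mul_of_nonneg_right hI hq3.le
  have h5 : (q ^ 3 + q) * (q ^ 3 - 1) < 2 * (q * ((q ^ 3 + 1) * (q ^ 2 - 1))) := by
    obtain ⟨a, rfl⟩ : ∃ a, q = 2 + a := ⟨q - 2, by ring⟩
    have ha : 0 ≤ a := by linarith
    rw [← sub_pos]; ring_nf; positivity
  linarith

theorem nI (hq : 2 ≤ q) (hI : I ≤ q ^ 3 + q)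
    (h : 2 * (q * (q ^ 2 * (q ^ 3 + 1))) ≤ I * (q ^ 3 - 1)) : False := by
  have hq3 : 0 < q ^ 3 - 1 := by
    have : (2 : ℤ) ^ 3 ≤ q ^ 3 := pow_le_pow_left₀ (by norm_num) hq 3
    linarith
  have h2 : I * (q ^ 3 - 1) ≤ (q ^ 3 + q) * (q ^ 3 - 1) := mul_le_mul_of_nonneg_right hI hq3.le
  have h5 : (q ^ 3 + q) * (q ^ 3 - 1) < 2 * (q * (q ^ 2 * (q ^ 3 + 1))) := by
    obtain ⟨a, rfl⟩ : ∃ a, q = 2 + a := ⟨q - 2, by ring⟩
    have ha : 0 ≤ a := by linarith
    rw [← sub_pos]; ring_nf; positivity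
  linarith

theorem nH (hq : 2 ≤ q) (h : I * (q ^ 3 - 1) = q * ((q ^ 3 + 1) * (q ^ 2 - 1))) : False := by
  have h1 : (q - 1) * ((q ^ 3 - q + 2 - I) * (q ^ 2 + q + 1) - 2) = 0 := by
    linear_combination -h
  have h2 : (q ^ 3 - q + 2 - I) * (q ^ 2 + q + 1) = 2 := by
    rcases mul_eq_zero.1 h1 with h | h
    · linarith
    · linarith
  have h7 : 7 ≤ q ^ 2 + q + 1 := by nlinarith
  have h8 : 0 < q ^ 3 - q + 2 - I := by
    by_contra hc
    push Not at hc
    nlinarith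
  nlinarith

theorem nJ (hq : 2 ≤ q) (h : I * (q ^ 3 - 1) = q * (q ^ 2 * (q ^ 3 + 1))) : False := by
  have h2 : (I - q ^ 3 - 2) * (q ^ 3 - 1) = 2 := by linear_combination h
  have h7 : 7 ≤ q ^ 3 - 1 := by
    have : (2 : ℤ) ^ 3 ≤ q ^ 3 := pow_le_pow_left₀ (by norm_num) hq 3
    linarith
  have h8 : 0 < I - q ^ 3 - 2 := by
    by_contra hc
    push Not at hc
    nlinarith
  nlinarith

end num

variable {F : Type*} [Field F] [Fintype F] {q n : ℕ}

local notation "⟪" x ", " y "⟫" => hermForm _ _ q x y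

/-- Orders of additive subgroups. -/
theorem card_pow (hF : Fintype.card F = q ^ 2) (B : AddSubgroup (Fin 3 → F))
    (hB : Nat.card B ≤ q ^ 3) : Nat.card B = q ^ 3 ∨ 2 * Nat.card B ≤ q ^ 3 := by
  obtain ⟨p, f, hp, -, hf, rfl⟩ := q_prime_pow hF
  have h1 : Nat.card B ∣ (p ^ f) ^ (2 * 3) := by
    rw [← card_vec hF]
    exact AddSubgroup.card_addSubgroup_dvd_card B
  rw [← pow_mul] at h1
  obtain ⟨i, hi, hbi⟩ := (Nat.dvd_prime_pow hp).1 h1
  rw [hbi, ← pow_mul] at hB ⊢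
  have h2 : i ≤ f * 3 := (Nat.pow_le_pow_iff_right hp.one_lt).1 hB
  rcases Nat.lt_or_ge i (f * 3) with h | h
  · right
    calc 2 * p ^ i ≤ p * p ^ i := Nat.mul_le_mul_right _ hp.two_le
      _ = p ^ (i + 1) := by rw [pow_succ']
      _ ≤ p ^ (f * 3) := Nat.pow_le_pow_right hp.pos h
  · left
    rw [le_antisymm h2 h]

/-- If `N` has small relative index then all elements are in the span. -/
theorem ani_span (hF : Fintype.card F = q ^ 2) {B : AddSubgroup (Fin 3 → F)}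
    (hno : ∀ x ∈ B, x ≠ 0 → ⟪x, x⟫ ≠ 0) {a : Fin 3 → F} (haa : ⟪a, a⟫ ≠ 0)
    (hj : (stabB q B).relIndex (fixs a) < q) : ∀ y ∈ B, y ∈ Submodule.span F {a} := by
  intro y hy
  by_contra hya
  have ha0 : a ≠ 0 := by rintro rfl; exact haa (hermForm_zero_left _)
  set c := ⟪y, a⟫ / ⟪a, a⟫ with hc
  set y' := y - c • a with hy'
  have hy'a : ⟪y', a⟫ = 0 := by
    rw [hy', hermForm_sub_left, hermForm_smul_left, hc, div_mul_cancel₀ _ haa, sub_self]
  have hy'0 : y' ≠ 0 := by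
    intro h
    apply hya
    rw [sub_eq_zero.1 h]
    exact Submodule.smul_mem _ _ (Submodule.mem_span_singleton_self a)
  obtain ⟨r, hr, hrr, hyr⟩ := exists_iso_ne hF (nd_vp hF haa)
    (by rw [finrank_vp hF ha0]) ((mem_vp hF).2 hy'a) hy'0
  have hr0 : r ≠ 0 := by rintro rfl; exact hyr (hermForm_zero_right hF _)
  have hra : ⟪r, a⟫ = 0 := (mem_vp hF).1 hr
  have har : ⟪a, r⟫ = 0 := (hermForm_eq_zero_comm hF).1 hra
  set N := stabB q B with hN
  -- a nontrivial transvection in `N`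
  have h1 : N.relIndex (Xs hF r hrr) < q :=
    lt_of_le_of_lt (Subgroup.relIndex_le_of_le_right (Xs_le_fixs hF hrr hra)
      (rel_ne_zero _ _)) hj
  have h2 := card_eq_relIndex_mul N (Xs hF r hrr)
  rw [card_Xs hF hr0 hrr] at h2
  have h3 : N ⊓ Xs hF r hrr ≠ ⊥ := by
    intro h
    rw [h, Subgroup.card_bot, mul_one] at h2
    omega
  obtain ⟨g, hg, hg1⟩ := (Subgroup.ne_bot_iff_exists_ne_one.1 h3 : ∃ g : ↥(N ⊓ Xs hF r hrr), g ≠ 1)
    |>.elim fun g h => (⟨g.1, g.2, fun h' => h (Subtype.ext h')⟩ :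
      ∃ g ∈ N ⊓ Xs hF r hrr, g ≠ 1)
  obtain ⟨s, hs, hga⟩ := mem_Xs_act hF hg.2
  have hs0 : s ≠ 0 := by
    rintro rfl
    apply hg1
    apply act_ext
    intro x
    rw [hga, act_one]; module
  have h4 : act g y ∈ B := hg.1 y hy
  have hyr' : ⟪y, r⟫ = ⟪y', r⟫ := by
    rw [hy', hermForm_sub_left, hermForm_smul_left, har, mul_zero, sub_zero]
  have h5 : (s * ⟪y, r⟫) • r ∈ B := by
    have : (s * ⟪y, r⟫) • r = act g y - y := by rw [hga]; abel
    rw [this]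
    exact B.sub_mem h4 hy
  have hs1 : s * ⟪y, r⟫ ≠ 0 := mul_ne_zero hs0 (by rw [hyr']; exact hyr)
  exact hno _ h5 (smul_ne_zero hs1 hr0)
    (by rw [hermForm_smul_left, hermForm_smul_right, hrr, mul_zero, mul_zero])

/-- If an isotropic `a ∈ B` is orthogonal to `B` then `N` fixes `⟨a⟩` and does not contain the
whole point stabiliser. -/
theorem iso_perp (hF : Fintype.card F = q ^ 2) {Y : AddSubgroup F} {s₀ : F}
    (hs₀ : s₀ ^ q = -s₀) (hY : s₀ ∉ Y)
    {B : AddSubgroup (Fin 3 → F)} (hBY : ∀ x ∈ B, ∀ y ∈ B, ⟪x, y⟫ - ⟪y, x⟫ ∈ Y)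
    {a : Fin 3 → F} (ha : a ∈ B) (ha0 : a ≠ 0) (haa : ⟪a, a⟫ = 0) (hperp : ∀ y ∈ B, ⟪y, a⟫ = 0) :
    stabB q B ≤ PP a ∧ (PP (q := q) a ≤ stabB q B → ∀ y ∈ B, y ∈ Submodule.span F {a}) := by
  classical
  obtain ⟨b, hb⟩ := exists_hyp' hF ha0 haa
  have hnd := (hb.nd hF).perp hF
  obtain ⟨z, hz, hz1⟩ := hnd.exists_unit hF (by
    intro h0
    have h1 := hb.finrank_perp hF
    rw [h0, finrank_bot] at h1
    omega)
  rw [Uni.Hyp.mem_perp_iff hF] at hz
  have haz : ⟪a, z⟫ = 0 := (hermForm_eq_zero_comm hF).1 hz.1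
  have hz0 : z ≠ 0 := by
    rintro rfl
    rw [hermForm_zero_left] at hz1
    exact zero_ne_one hz1
  -- decomposition of `a^⊥`
  have hdec : ∀ y, ⟪y, a⟫ = 0 → ∃ α β : F, y = α • a + β • z := by
    intro y hy
    have h1 : Submodule.span F {a, z} = vp q a := by
      apply Submodule.eq_of_le_of_finrank_eq
      · rw [Submodule.span_le]
        rintro x (rfl | rfl)
        · exact (mem_vp hF).2 haa
        · exact (mem_vp hF).2 hz.1
      · have hli : LinearIndependent F ![a, z] := by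
          rw [LinearIndependent.pair_iff' ha0]
          intro c hc
          rw [← hc, hermForm_smul_left, hermForm_smul_right, haa, mul_zero, mul_zero] at hz1
          exact zero_ne_one hz1
        have := finrank_span_eq_card hli
        rw [Fintype.card_fin, Matrix.range_cons, Matrix.range_cons, Matrix.range_empty,
          Set.union_empty, Set.singleton_union] at this
        rw [this, finrank_vp hF ha0]
    have h2 : y ∈ Submodule.span F {a, z} := by rw [h1]; exact (mem_vp hF).2 hy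
    obtain ⟨α, β, h⟩ := Submodule.mem_span_pair.1 h2
    exact ⟨α, β, h.symm⟩
  have hiso : ∀ y, ⟪y, a⟫ = 0 → ⟪y, y⟫ = 0 → ∃ α : F, y = α • a := by
    intro y hy hyy
    obtain ⟨α, β, rfl⟩ := hdec y hy
    simp only [hermForm_add_left, hermForm_add_right hF, hermForm_smul_left,
      hermForm_smul_right, haa, haz, hz.1, hz1] at hyy
    have h1 : β * β ^ q = 0 := by linear_combination hyy
    have h2 : β = 0 := by
      rcases mul_eq_zero.1 h1 with h | h
      · exact h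
      · exact (pow_q_eq_zero hF).1 h
    exact ⟨α, by rw [h2, zero_smul, add_zero]⟩
  constructor
  · intro g hg
    have h1 : act g a ∈ B := hg a ha
    obtain ⟨α, hα⟩ := hiso _ (hperp _ h1) (by rw [act_form, haa])
    refine ⟨α, ?_, hα⟩
    rintro rfl
    rw [zero_smul] at hα
    exact act_ne_zero ha0 hα
  · intro hPN y hy
    by_contra hya
    obtain ⟨α, β, hyab⟩ := hdec y (hperp y hy)
    have hβ : β ≠ 0 := by
      rintro rfl
      apply hya
      rw [hyab, zero_smul, add_zero]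
      exact Submodule.smul_mem _ _ (Submodule.mem_span_singleton_self a)
    let C : AddSubgroup (Fin 3 → F) := B ⊔ (Submodule.span F {a}).toAddSubgroup
    have hCmem : ∀ x, x ∈ C ↔ ∃ b ∈ B, ∃ c : F, x = b + c • a := by
      intro x
      rw [AddSubgroup.mem_sup]
      constructor
      · rintro ⟨b, hb, z, hz, rfl⟩
        obtain ⟨c, rfl⟩ := Submodule.mem_span_singleton.1 hz
        exact ⟨b, hb, c, rfl⟩
      · rintro ⟨b, hb, c, rfl⟩
        exact ⟨b, hb, c • a,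
          Submodule.smul_mem _ _ (Submodule.mem_span_singleton_self a), rfl⟩
    have hCcard : Nat.card C ≤ q ^ 3 := by
      have h4 := ti_bound hF Y hs₀ hY (vp q a) C (by
        intro x hx
        obtain ⟨b, hb, c, rfl⟩ := (hCmem x).1 hx
        rw [mem_vp hF, hermForm_add_left, hermForm_smul_left, haa, hperp b hb, mul_zero,
          add_zero]) (by
        intro x hx z hz
        obtain ⟨b, hb, c, rfl⟩ := (hCmem x).1 hx
        obtain ⟨b', hb', c', rfl⟩ := (hCmem z).1 hz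
        have e1 : ⟪a, b⟫ = 0 := (hermForm_eq_zero_comm hF).1 (hperp b hb)
        have e2 : ⟪a, b'⟫ = 0 := (hermForm_eq_zero_comm hF).1 (hperp b' hb')
        have e3 : ⟪b + c • a, b' + c' • a⟫ - ⟪b' + c' • a, b + c • a⟫ = ⟪b, b'⟫ - ⟪b', b⟫ := by
          simp only [hermForm_add_left, hermForm_add_right hF, hermForm_smul_left,
            hermForm_smul_right, hperp b hb, hperp b' hb', e1, e2, haa]
          ring
        rw [e3]
        exact hBY b hb b' hb')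
      rw [vp_inf_perp hF haa, card_vp hF ha0, card_span_one hF ha0, ← pow_add] at h4
      apply le_of_sq_le
      rw [← pow_add]
      exact h4
    have hmem : ∀ (p : F × {μ : F // μ ^ (q + 1) = 1}), p.1 • a + (p.2.1 * β) • z ∈ C := by
      rintro ⟨κ, μ, hμ⟩
      obtain ⟨t, l, hl0, hta, htz⟩ := exists_torus3 hF hb hz1 hz.1 hz.2 hμ
      have h1 : act t y ∈ B := hPN ⟨l, hl0, hta⟩ y hy
      rw [hCmem]
      refine ⟨act t y, h1, κ - α * l, ?_⟩
      rw [hyab, act_add, act_smul, act_smul, hta, htz]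
      module
    let f : F × {μ : F // μ ^ (q + 1) = 1} → C := fun p => ⟨_, hmem p⟩
    have hf : Function.Injective f := by
      rintro ⟨κ, μ⟩ ⟨κ', μ'⟩ h
      have h1 : κ • a + (μ.1 * β) • z = κ' • a + (μ'.1 * β) • z :=
        congrArg (fun x : C => (x : Fin 3 → F)) h
      have h2 := congrArg (fun x => ⟪x, z⟫) h1
      simp only [hermForm_add_left, hermForm_smul_left, haz, hz1] at h2
      have h3 : μ.1 = μ'.1 := by
        apply mul_right_cancel₀ hβ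
        linear_combination h2
      have h4 : (κ - κ') • a = 0 := by
        have : (κ - κ') • a = (κ • a + (μ.1 * β) • z) - (κ' • a + (μ.1 * β) • z) := by module
        rw [this, h1, h3, sub_self]
      rcases smul_eq_zero.1 h4 with h5 | h5
      · exact Prod.ext (sub_eq_zero.1 h5) (Subtype.ext h3)
      · exact absurd h5 ha0
    have h1 := Nat.card_le_card_of_injective f hf
    rw [Nat.card_prod, Nat.card_eq_fintype_card, hF, card_norm_eq hF (one_pow q) one_ne_zero] at h1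
    have h2 := h1.trans hCcard
    have h3 : q ^ 3 = q ^ 2 * q := by ring
    rw [h3] at h2
    have := Nat.le_of_mul_le_mul_left h2 (pow_pos (q_pos hF) 2)
    omega

/-- The additive subgroup lemma in dimension three. -/
theorem lemA3 (hF : Fintype.card F = q ^ 2) {Y : AddSubgroup F} {s₀ : F}
    (hs₀ : s₀ ^ q = -s₀) (hY : s₀ ∉ Y) {B : AddSubgroup (Fin 3 → F)} (hB : B ≠ ⊥)
    (hBY : ∀ x ∈ B, ∀ y ∈ B, ⟪x, y⟫ - ⟪y, x⟫ ∈ Y) :
    ((q : ℤ) ^ (3 + 2) - (-1) ^ 3) * ((q : ℤ) ^ (3 + 1) + (-1) ^ 3) * Nat.card B ≤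
      ((stabB q B).index : ℤ) * q ^ (2 * 3 + 1) * ((q : ℤ) ^ 2 - 1) := by
  by_contra hcon
  push Not at hcon
  have hq := two_le_q hF
  have hqz : (2 : ℤ) ≤ q := by exact_mod_cast hq
  obtain ⟨N, hN⟩ : ∃ N, N = stabB q B := ⟨_, rfl⟩
  rw [← hN] at hcon
  obtain ⟨I, hIdef⟩ : ∃ I : ℤ, I = (N.index : ℤ) := ⟨_, rfl⟩
  obtain ⟨b, hbdef⟩ : ∃ b : ℤ, b = (Nat.card B : ℤ) := ⟨_, rfl⟩
  rw [← hIdef, ← hbdef] at hcon
  have hq2 : 0 < (q : ℤ) ^ 2 - 1 := by nlinarith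
  have hI : I * (q : ℤ) ^ 7 < ((q : ℤ) ^ 5 + 1) * ((q : ℤ) ^ 2 + 1) * b := by
    have e1 : (I * (q : ℤ) ^ 7) * ((q : ℤ) ^ 2 - 1) <
        (((q : ℤ) ^ 5 + 1) * ((q : ℤ) ^ 2 + 1) * b) * ((q : ℤ) ^ 2 - 1) := by
      norm_num at hcon
      linarith
    exact lt_of_mul_lt_mul_right e1 hq2.le
  have hI0 : 0 ≤ I := by rw [hIdef]; positivity
  have hBle : Nat.card B ≤ q ^ 3 := by
    have h := ti_bound hF Y hs₀ hY ⊤ B (fun x _ => Submodule.mem_top) hBY
    have h1 : Nat.card (⊤ : Submodule F (Fin 3 → F)) = q ^ (2 * 3) := by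
      rw [card_submod hF, finrank_top, Module.finrank_fin_fun]
    have h2 : (⊤ : Submodule F (Fin 3 → F)) ⊓ perp q ⊤ = ⊥ := (nd_iff_inf ⊤).1 (nd_top hF)
    rw [h1, h2] at h
    have h3 : Nat.card (⊥ : Submodule F (Fin 3 → F)) = 1 := by
      rw [card_submod hF, finrank_bot]; rfl
    rw [h3, mul_one] at h
    apply le_of_sq_le
    rw [← pow_add]
    exact h
  have hb1 : (1 : ℤ) ≤ b := by
    have : 0 < Nat.card B := Nat.card_pos
    rw [hbdef]
    exact_mod_cast this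
  have hci : ∀ a : Fin 3 → F, a ≠ 0 → ⟪a, a⟫ = 0 → ((fixs (q := q) a).index : ℤ) =
      ((q : ℤ) ^ 3 + 1) * ((q : ℤ) ^ 2 - 1) := by
    intro a ha0 haa
    rw [index_fixs_iso hF le_rfl ha0 haa]
    have h4 := cnt_zero_sub_one hF (F := F) (q := q) 2
    rw [h4]; ring
  have hca : ∀ a : Fin 3 → F, ⟪a, a⟫ ≠ 0 → ((fixs (q := q) a).index : ℤ) =
      (q : ℤ) ^ 2 * ((q : ℤ) ^ 3 + 1) := by
    intro a haa
    rw [index_fixs_ani hF le_rfl haa]
    have h4 := (cnt_closed hF (F := F) (q := q) 3).2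
    have hq0 : (q : ℤ) ≠ 0 := by linarith
    apply mul_left_cancel₀ hq0
    rw [h4]; ring
  have hidx : ∀ a : Fin 3 → F, (N.relIndex (fixs a) : ℤ) * ((fixs (q := q) a).index : ℤ) =
      ((fixs (q := q) a).relIndex N : ℤ) * I := by
    intro a
    rw [hIdef]
    exact_mod_cast inf_index N (fixs a)
  have hw : ∀ a ∈ B, a ≠ 0 → ((fixs (q := q) a).relIndex N : ℤ) + 1 ≤ b := by
    intro a ha ha0
    rw [hbdef, hN]
    exact_mod_cast relIndex_fixs_le (q := q) ha ha0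
  have hcge : ∀ a ∈ B, a ≠ 0 → ((q : ℤ) ^ 3 + 1) * ((q : ℤ) ^ 2 - 1) ≤
      ((fixs (q := q) a).index : ℤ) := by
    intro a _ ha0
    by_cases haa : ⟪a, a⟫ = 0
    · rw [hci a ha0 haa]
    · rw [hca a haa]; nlinarith [pow_pos (by linarith : (0 : ℤ) < q) 3]
  have hjc : ∀ a ∈ B, a ≠ 0 → (N.relIndex (fixs a) : ℤ) * ((fixs (q := q) a).index : ℤ) ≤
      I * (b - 1) := by
    intro a ha ha0
    rw [hidx, mul_comm]
    exact mul_le_mul_of_nonneg_left (by linarith [hw a ha ha0]) hI0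
  have hsmall : ∀ a ∈ B, a ≠ 0 → (∀ y ∈ B, y ∈ Submodule.span F {a}) → False := by
    intro a ha ha0 hs
    have h1 : Nat.card B ≤ q ^ 2 := by
      rw [← card_span_one hF ha0]
      have : B ≤ (Submodule.span F {a}).toAddSubgroup := fun y hy => hs y hy
      exact AddSubgroup.card_le_of_le this
    have h2 : (1 : ℤ) ≤ N.relIndex (fixs a) := by
      have : 0 < N.relIndex (fixs a) := Nat.pos_of_ne_zero (rel_ne_zero _ _)
      exact_mod_cast this
    have h1' : b ≤ (q : ℤ) ^ 2 := by rw [hbdef]; exact_mod_cast h1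
    refine nB q I b _ hqz hb1 hI h1' (hcge a ha ha0) hI0 ?_
    refine le_trans ?_ (hjc a ha ha0)
    have h3 : (0 : ℤ) ≤ ((fixs (q := q) a).index : ℤ) := by positivity
    nlinarith
  have hbq : b = (q : ℤ) ^ 3 ∨ 2 * b ≤ (q : ℤ) ^ 3 := by
    rw [hbdef]
    rcases card_pow hF B hBle with h | h
    · left; exact_mod_cast h
    · right; exact_mod_cast h
  -- isotropic elements orthogonal to `B` do not exist
  have hnoperp : ∀ a ∈ B, a ≠ 0 → ⟪a, a⟫ = 0 → ∃ y ∈ B, ⟪y, a⟫ ≠ 0 := by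
    intro a ha ha0 haa
    by_contra hno
    push Not at hno
    obtain ⟨h1, h2⟩ := iso_perp hF hs₀ hY hBY ha ha0 haa hno
    rw [← hN] at h1 h2
    have h3 := index_PP_iso hF le_rfl ha0 haa
    have h4 : ((PP (q := q) a).index : ℤ) = (q : ℤ) ^ 3 + 1 := by
      apply mul_right_cancel₀ hq2.ne'
      rw [h3]; norm_num
      left; ring
    have h5 := Subgroup.relIndex_mul_index h1
    have h5' : (N.relIndex (PP (q := q) a) : ℤ) * ((q : ℤ) ^ 3 + 1) = I := by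
      rw [← h4, hIdef]; exact_mod_cast h5
    have h6 : 0 < N.relIndex (PP (q := q) a) := Nat.pos_of_ne_zero (rel_ne_zero _ _)
    have hq3 : 0 < (q : ℤ) ^ 3 + 1 := by positivity
    have h6' : (1 : ℤ) ≤ (N.relIndex (PP (q := q) a) : ℤ) := by exact_mod_cast h6
    have h7 : (q : ℤ) ^ 3 + 1 ≤ I := by nlinarith
    rcases hbq with hb | hb
    · have h8 : I ≤ (q : ℤ) ^ 3 + q := nD q I hqz (by rw [← hb]; exact hI)
      have h9 : (N.relIndex (PP (q := q) a) : ℤ) < 2 := by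
        by_contra hc
        push Not at hc
        have : 2 * ((q : ℤ) ^ 3 + 1) ≤ I := by
          rw [← h5']; exact mul_le_mul_of_nonneg_right hc hq3.le
        nlinarith [pow_pos (by linarith : (0 : ℤ) < q) 3, mul_self_nonneg ((q : ℤ) - 2)]
      have h10 : N.relIndex (PP (q := q) a) = 1 := by
        have : N.relIndex (PP (q := q) a) < 2 := by exact_mod_cast h9
        omega
      exact hsmall a ha ha0 (h2 (Subgroup.relIndex_eq_one.1 h10))
    · exact nC q I b hqz hI hb h7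
  have hisoj : ∀ a ∈ B, a ≠ 0 → ⟪a, a⟫ = 0 → (q : ℤ) ≤ N.relIndex (fixs a) := by
    intro a ha ha0 haa
    obtain ⟨y, hy, hya⟩ := hnoperp a ha ha0 haa
    have h1 := iso_idx hF (by omega) hs₀ hY hBY ha0 haa hy hya
    rw [← hN] at h1
    norm_num at h1
    exact_mod_cast h1
  -- all anisotropic
  obtain ⟨a, ha, ha0⟩ : ∃ a ∈ B, a ≠ 0 := by
    by_contra hc
    push Not at hc
    exact hB ((AddSubgroup.eq_bot_iff_forall _).2 hc)
  have hspan : (∀ x ∈ B, x ≠ 0 → ⟪x, x⟫ ≠ 0) → (N.relIndex (fixs a) : ℤ) < q → False := by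
    intro hall hj
    apply hsmall a ha ha0
    apply ani_span hF hall (hall a ha ha0)
    rw [← hN]
    exact_mod_cast hj
  rcases hbq with hb | hb
  swap
  · have hj : ∀ x ∈ B, x ≠ 0 → (N.relIndex (fixs x) : ℤ) < q := by
      intro x hx hx0
      exact nA q I b _ _ hqz hI0 hb1 hI hb (hcge x hx hx0) (hjc x hx hx0)
    have hall : ∀ x ∈ B, x ≠ 0 → ⟪x, x⟫ ≠ 0 := by
      intro x hx hx0 hxx
      have h1 := hisoj x hx hx0 hxx
      have h2 := hj x hx hx0
      linarith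
    exact hspan hall (hj a ha ha0)
  · have hI2 : I ≤ (q : ℤ) ^ 3 + q := nD q I hqz (by rw [← hb]; exact hI)
    have hj : ∀ x ∈ B, x ≠ 0 → (N.relIndex (fixs x) : ℤ) ≤ q := by
      intro x hx hx0
      have h1 := hjc x hx hx0
      rw [hb] at h1
      exact nE q I _ _ hqz hI2 (hcge x hx hx0) h1
    have hqI : 0 ≤ I * (b - 1) := mul_nonneg hI0 (by linarith)
    have hor2 : ∀ x ∈ B, x ≠ 0 → ∀ y ∈ B, y ≠ 0 → (∀ g ∈ stabB q B, act g x ≠ y) →
        (N.relIndex (fixs x) : ℤ) * ((fixs (q := q) x).index : ℤ) +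
        (N.relIndex (fixs y) : ℤ) * ((fixs (q := q) y).index : ℤ) ≤ I * ((q : ℤ) ^ 3 - 1) := by
      intro x hx hx0 y hy hy0 hxy
      have h1 := orb2 hx hx0 hy hy0 hxy
      rw [← hN] at h1
      have h2 : ((fixs (q := q) x).relIndex N : ℤ) + ((fixs (q := q) y).relIndex N : ℤ) ≤
          (q : ℤ) ^ 3 - 1 := by
        rw [← hb, hbdef]
        have : ((fixs (q := q) x).relIndex N : ℤ) + ((fixs (q := q) y).relIndex N : ℤ) + 1 ≤
          (Nat.card B : ℤ) := by exact_mod_cast h1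
        linarith
      rw [hidx, hidx, ← add_mul, mul_comm]
      exact mul_le_mul_of_nonneg_left h2 hI0
    have hor1 : (∀ y ∈ B, y ≠ 0 → ∃ g ∈ stabB q B, act g a = y) →
        (N.relIndex (fixs a) : ℤ) * ((fixs (q := q) a).index : ℤ) = I * ((q : ℤ) ^ 3 - 1) := by
      intro h
      have h1 := orb1 h
      have h2 := relIndex_fixs_le (q := q) ha ha0
      rw [← hN] at h1 h2
      have h3 : ((fixs (q := q) a).relIndex N : ℤ) = (q : ℤ) ^ 3 - 1 := by
        have h4 : (fixs (q := q) a).relIndex N + 1 = Nat.card B := le_antisymm h2 h1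
        have h5 : ((fixs (q := q) a).relIndex N : ℤ) + 1 = (Nat.card B : ℤ) := by
          exact_mod_cast h4
        rw [← hbdef, hb] at h5
        linarith
      rw [hidx, h3]; ring
    by_cases hex : ∃ x ∈ B, x ≠ 0 ∧ ⟪x, x⟫ = 0
    · obtain ⟨x, hx, hx0, hxx⟩ := hex
      have hjx : (N.relIndex (fixs x) : ℤ) = q := le_antisymm (hj x hx hx0) (hisoj x hx hx0 hxx)
      by_cases hex2 : ∃ y ∈ B, ⟪y, y⟫ ≠ 0
      · obtain ⟨y, hy, hyy⟩ := hex2
        have hy0 : y ≠ 0 := by rintro rfl; exact hyy (hermForm_zero_left _)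
        have h1 := hor2 x hx hx0 y hy hy0 (by
          intro g _ hgx
          apply hyy
          rw [← hgx, act_form, hxx])
        rw [hjx, hci x hx0 hxx, hca y hyy] at h1
        apply nF q I hqz hI2
        refine le_trans ?_ h1
        have h2 : (1 : ℤ) ≤ N.relIndex (fixs y) := by
          have : 0 < N.relIndex (fixs y) := Nat.pos_of_ne_zero (rel_ne_zero _ _)
          exact_mod_cast this
        have h3 : 0 ≤ (q : ℤ) ^ 2 * ((q : ℤ) ^ 3 + 1) := by positivity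
        nlinarith
      · push Not at hex2
        have haa := hex2 a ha
        have hja : (N.relIndex (fixs a) : ℤ) = q := le_antisymm (hj a ha ha0) (hisoj a ha ha0 haa)
        by_cases ho : ∀ y ∈ B, y ≠ 0 → ∃ g ∈ stabB q B, act g a = y
        · have h1 := hor1 ho
          rw [hja, hci a ha0 haa] at h1
          exact nH q I hqz h1.symm
        · push Not at ho
          obtain ⟨y, hy, hy0, hay⟩ := ho
          have hyy := hex2 y hy
          have hjy : (N.relIndex (fixs y) : ℤ) = q :=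
            le_antisymm (hj y hy hy0) (hisoj y hy hy0 hyy)
          have h1 := hor2 a ha ha0 y hy hy0 hay
          rw [hja, hjy, hci a ha0 haa, hci y hy0 hyy] at h1
          exact nG q I hqz hI2 (by linarith)
    · push Not at hex
      have hall : ∀ x ∈ B, x ≠ 0 → ⟪x, x⟫ ≠ 0 := hex
      have hjl : ∀ x ∈ B, x ≠ 0 → (N.relIndex (fixs x) : ℤ) = q := by
        intro x hx hx0
        refine le_antisymm (hj x hx hx0) ?_
        by_contra hc
        push Not at hc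
        apply hsmall x hx hx0
        apply ani_span hF hall (hall x hx hx0)
        rw [← hN]
        exact_mod_cast hc
      have haa := hall a ha ha0
      by_cases ho : ∀ y ∈ B, y ≠ 0 → ∃ g ∈ stabB q B, act g a = y
      · have h1 := hor1 ho
        rw [hjl a ha ha0, hca a haa] at h1
        exact nJ q I hqz h1.symm
      · push Not at ho
        obtain ⟨y, hy, hy0, hay⟩ := ho
        have h1 := hor2 a ha ha0 y hy hy0 hay
        rw [hjl a ha ha0, hjl y hy hy0, hca a haa, hca y (hall y hy hy0)] at h1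
        exact nI q I hqz hI2 (by linarith)

end Cfsg.Agent.MinU
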