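import Cfsg.Agent.MinU.Orb
import Cfsg.Agent.Uni.Gen2

/-!
# Connectivity of norm classes, linearity of partial functionals on isotropic vectors
-/

set_option autoImplicit false
set_option linter.unusedSectionVars false

namespace Cfsg.Agent.MinU

open Cfsg.Agent.Uni Finset

variable {F : Type*} [Field F] [Fintype F] {q n m : ℕ}

local notation "⟪" x ", " y "⟫" => hermForm _ _ q x y

/-- Coordinates in a hyperbolic plane. -/
theorem hyp2_coord (hF : Fintype.card F = q ^ 2) {e f : Fin 2 → F} (h : Hyp q e f)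
    (x : Fin 2 → F) : x = ⟪x, f⟫ • e + ⟪x, e⟫ • f := by
  have h1 := h.finrank_perp hF
  have h2 : perp q (Submodule.span F {e, f}) = ⊥ := Submodule.finrank_eq_zero.1 (by rw [h1])
  have h3 : x - (⟪x, f⟫ • e + ⟪x, e⟫ • f) ∈ perp q (Submodule.span F {e, f}) := by
    rw [Uni.Hyp.mem_perp_iff hF]
    have hfe := (h.symm hF).2.2
    constructor
    · rw [hermForm_sub_left, hermForm_add_left, hermForm_smul_left, hermForm_smul_left, h.1, hfe]
      ring
    · rw [hermForm_sub_left, hermForm_add_left, hermForm_smul_left, hermForm_smul_left, h.2.2,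
        h.2.1]
      ring
  rw [h2, Submodule.mem_bot] at h3
  exact sub_eq_zero.1 h3

theorem inT_two (hF : Fintype.card F = q ^ 2) {u w : Fin 2 → F} (hu0 : u ≠ 0)
    (hu : ⟪u, u⟫ = 0) (huw : ⟪u, w⟫ = 0) : InT q u w := by
  obtain ⟨v, hv⟩ := exists_hyp' hF hu0 hu
  have h1 := hyp2_coord hF hv w
  rw [(hermForm_eq_zero_comm hF).1 huw, zero_smul, add_zero] at h1
  rw [h1]
  exact inT_smul_self hF hu _

/-- Invariance under `TT`. -/
theorem conn_TT (hF : Fintype.card F = q ^ 2) {c : F} (R : (Fin n → F) → Prop)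
    (hR : ∀ w r, ⟪w, w⟫ = c → ⟪r, r⟫ = 0 → ⟪w + r, w + r⟫ = c → R w → R (w + r))
    {t : SU n F q} (ht : t ∈ TT n F q) : ∀ z, ⟪z, z⟫ = c → (R z ↔ R (act t z)) := by
  induction ht using Subgroup.closure_induction with
  | mem g hg =>
    obtain ⟨v, d, hv, hvd⟩ := hg
    have h1 := (isEich_zero_iff hF g v d).1 ((isEich_zero_iff_matrix hF g v d).2 hvd)
    intro z hz
    have h2 : ⟪act g z, act g z⟫ = c := by rw [act_form, hz]
    have hr : ∀ k : F, ⟪k • v, k • v⟫ = 0 := by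
      intro k
      rw [hermForm_smul_left, hermForm_smul_right, hv, mul_zero, mul_zero]
    constructor
    · intro h
      rw [h1]
      apply hR z _ hz (hr _) _ h
      rw [← h1, h2]
    · intro h
      have h3 : z = act g z + (-(d * ⟪z, v⟫)) • v := by rw [h1]; module
      rw [h3]
      apply hR _ _ h2 (hr _) _ h
      rw [← h3, hz]
  | one => intro z _; rw [act_one]
  | mul a b _ _ ha hb =>
    intro z hz
    rw [act_mul, hb z hz, ha (act b z) (by rw [act_form, hz])]
  | inv a _ ha =>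
    intro z hz
    rw [ha (act a⁻¹ z) (by rw [act_form, hz]), act_act_inv]

/-- The exceptional case `n = 3`, `q = 2`. -/
theorem conn_three_two (hF : Fintype.card F = q ^ 2) (hq : q = 2) {c : F} (hc : c ≠ 0)
    (R : (Fin 3 → F) → Prop)
    (hR : ∀ w r, ⟪w, w⟫ = c → ⟪r, r⟫ = 0 → ⟪w + r, w + r⟫ = c → R w → R (w + r))
    {z z' : Fin 3 → F} (hz : ⟪z, z⟫ = c) (hz' : ⟪z', z'⟫ = c) (h : R z) : R z' := by
  classical
  have hN : ∀ x : F, x ≠ 0 → x * x ^ q = 1 := by
    intro x hx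
    rw [← pow_succ']
    have h1 := FiniteField.pow_card_sub_one_eq_one x hx
    rw [hF, hq] at h1
    rw [hq]; exact h1
  have h2 : (2 : F) = 0 := by
    have hp := FiniteField.cast_card_eq_zero F
    rw [hF, hq] at hp
    have h3 : (2 : F) * 2 = 0 := by
      have : ((2 ^ 2 : ℕ) : F) = 2 * 2 := by norm_num
      rw [← this]; exact hp
    rcases mul_eq_zero.1 h3 with h | h <;> exact h
  have hq0 : (0 : F) ^ q = 0 := zero_pow_q hF
  have hform : ∀ a b d : F, ⟪(![a, b, d] : Fin 3 → F), ![a, b, d]⟫ =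
      a * a ^ q + b * b ^ q + d * d ^ q := by
    intro a b d
    rw [hermForm_def, Fin.sum_univ_three]; rfl
  have hc1 : c = 1 := by
    have e1 := hermForm_self_pow_q hF z
    rw [hz, hq, sq] at e1
    exact mul_left_cancel₀ hc (by rw [e1, mul_one])
  subst hc1
  -- one step
  have step : ∀ a b d a' b' d' : F, a * a ^ q + b * b ^ q + d * d ^ q = 1 →
      a' * a' ^ q + b' * b' ^ q + d' * d' ^ q = 1 →
      (a' - a) * (a' - a) ^ q + (b' - b) * (b' - b) ^ q + (d' - d) * (d' - d) ^ q = 0 →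
      R ![a, b, d] → R ![a', b', d'] := by
    intro a b d a' b' d' e1 e2 e3 e4
    have h5 : (![a', b', d'] : Fin 3 → F) = ![a, b, d] + ![a' - a, b' - b, d' - d] := by
      funext i; fin_cases i <;> simp
    rw [h5]
    apply hR _ _ _ _ _ e4
    · rw [hform]; exact e1
    · rw [hform]; exact e3
    · rw [← h5, hform]; exact e2
  have hneg : ∀ a : F, -a = a := by
    intro a
    have : a + a = 0 := by rw [← two_mul, h2, zero_mul]
    exact neg_eq_of_add_eq_zero_left this
  have w3 : ∀ a b d : F, a ≠ 0 → b ≠ 0 → d ≠ 0 → a * a ^ q + b * b ^ q + d * d ^ q = 1 := by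
    intro a b d ha hb hd
    rw [hN a ha, hN b hb, hN d hd]
    linear_combination h2
  have h11 : (1 : F) + 1 = 0 := by linear_combination h2
  -- moves
  have A1 : ∀ a b d : F, a ≠ 0 → b ≠ 0 → d ≠ 0 → (R ![a, b, d] ↔ R ![a, 0, 0]) := by
    intro a b d ha hb hd
    constructor
    · apply step _ _ _ _ _ _ (w3 a b d ha hb hd)
      · rw [hN a ha, hq0]; ring
      · rw [sub_self, zero_sub, zero_sub, hneg, hneg, hN b hb, hN d hd, hq0]
        linear_combination h11
    · apply step _ _ _ _ _ _ _ (w3 a b d ha hb hd)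
      · rw [sub_self, sub_zero, sub_zero, hN b hb, hN d hd, hq0]
        linear_combination h11
      · rw [hN a ha, hq0]; ring
  have A2 : ∀ a b d : F, a ≠ 0 → b ≠ 0 → d ≠ 0 → (R ![a, b, d] ↔ R ![0, b, 0]) := by
    intro a b d ha hb hd
    constructor
    · apply step _ _ _ _ _ _ (w3 a b d ha hb hd)
      · rw [hN b hb, hq0]; ring
      · rw [sub_self, zero_sub, zero_sub, hneg, hneg, hN a ha, hN d hd, hq0]
        linear_combination h11
    · apply step _ _ _ _ _ _ _ (w3 a b d ha hb hd)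
      · rw [sub_self, sub_zero, sub_zero, hN a ha, hN d hd, hq0]
        linear_combination h11
      · rw [hN b hb, hq0]; ring
  have A3 : ∀ a b d : F, a ≠ 0 → b ≠ 0 → d ≠ 0 → (R ![a, b, d] ↔ R ![0, 0, d]) := by
    intro a b d ha hb hd
    constructor
    · apply step _ _ _ _ _ _ (w3 a b d ha hb hd)
      · rw [hN d hd, hq0]; ring
      · rw [sub_self, zero_sub, zero_sub, hneg, hneg, hN a ha, hN b hb, hq0]
        linear_combination h11
    · apply step _ _ _ _ _ _ _ (w3 a b d ha hb hd)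
      · rw [sub_self, sub_zero, sub_zero, hN a ha, hN b hb, hq0]
        linear_combination h11
      · rw [hN d hd, hq0]; ring
  have o1 : (1 : F) ≠ 0 := one_ne_zero
  have B1 : ∀ a : F, a ≠ 0 → (R ![a, 0, 0] ↔ R ![1, 1, 1]) := by
    intro a ha
    rw [← A1 a 1 1 ha o1 o1, A2 a 1 1 ha o1 o1, ← A2 1 1 1 o1 o1 o1]
  have B2 : ∀ b : F, b ≠ 0 → (R ![0, b, 0] ↔ R ![1, 1, 1]) := by
    intro b hb
    rw [← A2 1 b 1 o1 hb o1, A1 1 b 1 o1 hb o1, ← A1 1 1 1 o1 o1 o1]
  have B3 : ∀ d : F, d ≠ 0 → (R ![0, 0, d] ↔ R ![1, 1, 1]) := by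
    intro d hd
    rw [← A3 1 1 d o1 o1 hd, A1 1 1 d o1 o1 hd, ← A1 1 1 1 o1 o1 o1]
  have key : ∀ y : Fin 3 → F, ⟪y, y⟫ = 1 → (R y ↔ R ![1, 1, 1]) := by
    intro y hy
    have e2 : (![y 0, y 1, y 2] : Fin 3 → F) = y := by
      funext i; fin_cases i <;> rfl
    have e1 := hform (y 0) (y 1) (y 2)
    rw [e2, hy] at e1
    rw [← e2]
    by_cases h0 : y 0 = 0 <;> by_cases h1 : y 1 = 0 <;> by_cases h3 : y 2 = 0
    · exfalso
      rw [h0, h1, h3, hq0] at e1
      apply o1; rw [e1]; ring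
    · rw [h0, h1]; exact B3 _ h3
    · rw [h0, h3]; exact B2 _ h1
    · exfalso
      rw [h0, hN _ h1, hN _ h3, hq0] at e1
      apply o1; linear_combination e1 + h11
    · rw [h1, h3]; exact B1 _ h0
    · exfalso
      rw [h1, hN _ h0, hN _ h3, hq0] at e1
      apply o1; linear_combination e1 + h11
    · exfalso
      rw [h3, hN _ h0, hN _ h1, hq0] at e1
      apply o1; linear_combination e1 + h11
    · rw [A1 _ _ _ h0 h1 h3]; exact B1 _ h0
  exact (key z' hz').2 ((key z hz).1 h)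

/-- Connectivity of the norm classes. -/
theorem conn (hF : Fintype.card F = q ^ 2) (hn : 2 ≤ n) {c : F} (hc : c ≠ 0)
    (R : (Fin n → F) → Prop)
    (hR : ∀ w r, ⟪w, w⟫ = c → ⟪r, r⟫ = 0 → ⟪w + r, w + r⟫ = c → R w → R (w + r))
    {z z' : Fin n → F} (hz : ⟪z, z⟫ = c) (hz' : ⟪z', z'⟫ = c) (h : R z) : R z' := by
  by_cases h32 : n = 3 ∧ q = 2
  · obtain ⟨rfl, h2⟩ := h32
    exact conn_three_two hF h2 hc R hR hz hz' h
  · have hall : ∀ u w : Fin n → F, u ≠ 0 → ⟪u, u⟫ = 0 → ⟪u, w⟫ = 0 → InT q u w := by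
      intro u w hu0 hu huw
      by_cases h3 : 3 ≤ n
      · exact inT_all hF h3 h32 hu0 hu huw
      · obtain rfl : n = 2 := by omega
        exact inT_two hF hu0 hu huw
    obtain ⟨t, ht, hzz⟩ := exists_TT_norm hF hn hall (z := z) (z' := z') (by rw [hz, hz'])
      (by rw [hz]; exact hc)
    rw [← hzz]
    exact (conn_TT hF R hR ht z hz).1 h

/-- Partial functionals on isotropic vectors are linear. -/
def Lin (k : ℕ) (F : Type*) [Field F] (q : ℕ) : Prop :=
  ∀ φ : (Fin k → F) → F,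
    (∀ (c : F) (x : Fin k → F), hermForm k F q x x = 0 → φ (c • x) = c * φ x) →
    (∀ x y : Fin k → F, hermForm k F q x x = 0 → hermForm k F q y y = 0 →
      hermForm k F q (x + y) (x + y) = 0 → φ (x + y) = φ x + φ y) →
    ∃ z : Fin k → F, ∀ x, hermForm k F q x x = 0 → φ x = hermForm k F q x z

theorem lin_two (hF : Fintype.card F = q ^ 2) : Lin 2 F q := by
  intro φ h1 h2
  obtain ⟨e, he0, he⟩ := exists_isotropic hF (n := 2) le_rfl
  obtain ⟨f, hef⟩ := exists_hyp' hF he0 he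
  refine ⟨(φ f) ^ q • e + (φ e) ^ q • f, fun x hx => ?_⟩
  have h3 := hyp2_coord hF hef x
  have hsm : ∀ (a : F) (y : Fin 2 → F), ⟪y, y⟫ = 0 → ⟪a • y, a • y⟫ = 0 := by
    intro a y hy
    rw [hermForm_smul_left, hermForm_smul_right, hy, mul_zero, mul_zero]
  conv_lhs => rw [h3]
  rw [h2 _ _ (hsm _ _ he) (hsm _ _ hef.2.1) (by rw [← h3]; exact hx), h1 _ _ he,
    h1 _ _ hef.2.1, hermForm_add_right hF, hermForm_smul_right, hermForm_smul_right,
    pow_q_pow_q hF, pow_q_pow_q hF]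
  ring

theorem lin_succ (hF : Fintype.card F = q ^ 2) {k : ℕ} (hk : 2 ≤ k) (ih : Lin k F q) :
    Lin (k + 1) F q := by
  intro φ h1 h2
  have hcons0 : ∀ (w : Fin k → F), ⟪(Fin.cons 0 w : Fin (k + 1) → F), Fin.cons 0 w⟫ = ⟪w, w⟫ := by
    intro w
    rw [hermForm_cons]; ring
  have hadd : ∀ (a b : F) (x y : Fin k → F),
      (Fin.cons (a + b) (x + y) : Fin (k + 1) → F) = Fin.cons a x + Fin.cons b y := by
    intro a b x y
    funext i
    induction i using Fin.cases with
    | zero => simp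
    | succ i => simp
  have hsmul : ∀ (c a : F) (x : Fin k → F),
      (Fin.cons (c * a) (c • x) : Fin (k + 1) → F) = c • Fin.cons a x := by
    intro c a x
    funext i
    induction i using Fin.cases with
    | zero => simp
    | succ i => simp
  obtain ⟨z', hz'⟩ := ih (fun w => φ (Fin.cons 0 w)) (by
    intro c x hx
    change φ (Fin.cons 0 (c • x)) = c * φ (Fin.cons 0 x)
    rw [← h1 c (Fin.cons 0 x) (by rw [hcons0]; exact hx), ← hsmul, mul_zero]) (by
    intro x y hx hy hxy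
    change φ (Fin.cons 0 (x + y)) = φ (Fin.cons 0 x) + φ (Fin.cons 0 y)
    rw [← h2 (Fin.cons 0 x) (Fin.cons 0 y) (by rw [hcons0]; exact hx) (by rw [hcons0]; exact hy)
      (by rw [← hadd, add_zero, hcons0]; exact hxy), ← hadd, add_zero])
  -- a vector of norm `-1`
  obtain ⟨a, ha⟩ := exists_norm_neg_one hF
  have hk0 : 0 < k := by omega
  set w₀ : Fin k → F := a • Pi.single ⟨0, hk0⟩ 1 with hw₀
  have hw₀n : ⟪w₀, w₀⟫ = -1 := by
    rw [hw₀, hermForm_smul_left, hermForm_smul_right, hermForm_single_right' hF,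
      Pi.single_eq_same, mul_one, ← pow_succ', ha]
  set γ := φ (Fin.cons 1 w₀) - ⟪w₀, z'⟫ with hγ
  have hiso1 : ∀ w : Fin k → F, ⟪w, w⟫ = -1 →
      ⟪(Fin.cons 1 w : Fin (k + 1) → F), Fin.cons 1 w⟫ = 0 := by
    intro w hw
    rw [hermForm_cons, hw, one_pow]; ring
  have hconst : ∀ w : Fin k → F, ⟪w, w⟫ = -1 → φ (Fin.cons 1 w) = γ + ⟪w, z'⟫ := by
    intro w hw
    refine conn hF hk (neg_ne_zero.2 one_ne_zero) (fun w => φ (Fin.cons 1 w) = γ + ⟪w, z'⟫) ?_
      hw₀n hw (by rw [hγ]; ring)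
    intro w r hw hr hwr h
    have e : (Fin.cons 1 (w + r) : Fin (k + 1) → F) = Fin.cons 1 w + Fin.cons 0 r := by
      rw [← hadd, add_zero]
    change φ (Fin.cons 1 (w + r)) = _
    rw [e, h2 _ _ (hiso1 w hw) (by rw [hcons0]; exact hr) (by rw [← e]; exact hiso1 _ hwr), h,
      hermForm_add_left]
    have : φ (Fin.cons 0 r) = ⟪r, z'⟫ := hz' r hr
    rw [this]; ring
  refine ⟨Fin.cons (γ ^ q) z', fun x hx => ?_⟩
  rw [← Fin.cons_self_tail x] at hx ⊢
  set c := x 0 with hc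
  set w := Fin.tail x with hw
  rw [hermForm_cons, pow_q_pow_q hF]
  by_cases hc0 : c = 0
  · rw [hc0, zero_mul, zero_add]
    apply hz' w
    rw [hc0, hcons0] at hx
    exact hx
  · rw [hermForm_cons] at hx
    have hcq : c ^ q ≠ 0 := pow_ne_zero _ hc0
    have hw1 : ⟪c⁻¹ • w, c⁻¹ • w⟫ = -1 := by
      rw [hermForm_smul_left, hermForm_smul_right, inv_pow]
      have : ⟪w, w⟫ = -(c * c ^ q) := by linear_combination hx
      rw [this]
      field_simp
    have e : (Fin.cons c w : Fin (k + 1) → F) = c • Fin.cons 1 (c⁻¹ • w) := by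
      rw [← hsmul, mul_one, smul_smul, mul_inv_cancel₀ hc0, one_smul]
    rw [e, h1 _ _ (hiso1 _ hw1), hconst _ hw1, hermForm_smul_left]
    field_simp

theorem lin_all (hF : Fintype.card F = q ^ 2) (k : ℕ) (hk : 2 ≤ k) : Lin k F q := by
  induction k, hk using Nat.le_induction with
  | base => exact lin_two hF
  | succ k hk ih => exact lin_succ hF hk ih

end Cfsg.Agent.MinU
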