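import Cfsg.Agent.MinU.Std

/-!
# Step 2: every totally isotropic line contains a point of `C`
-/

set_option autoImplicit false
set_option linter.unusedSectionVars false

namespace Cfsg.Agent.MinU

open Cfsg.Agent.Uni Finset

variable {F : Type*} [Field F] [Fintype F] {q n m : ℕ}

local notation "⟪" x ", " y "⟫" => hermForm _ _ q x y

/-- The points whose transvection group is contained in `M`. -/
def Cc (hF : Fintype.card F = q ^ 2) (M : Subgroup (SU n F q)) (x : Fin n → F) : Prop :=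
  x ≠ 0 ∧ ∃ hx : ⟪x, x⟫ = 0, Xs hF x hx ≤ M

/-- The outcome of step 1. -/
def Good (hF : Fintype.card F = q ^ 2) (M : Subgroup (SU n F q)) : Prop :=
  ∀ (u : Fin n → F) (_hu0 : u ≠ 0) (hu : ⟪u, u⟫ = 0), ¬ Xs hF u hu ≤ M →
    (∀ g ∈ M, g ∈ Qs hF u hu → g = 1) ∧ ∀ t, act t u = u → ∃ y ∈ Qs hF u hu, t * y ∈ M

/-- Data attached to a vector `w ∈ ⟨u,y⟩^⊥`. -/
theorem exists_lift (hF : Fintype.card F = q ^ 2) {M : Subgroup (SU n F q)} {u y : Fin n → F}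
    (hu : ⟪u, u⟫ = 0) (hy : ⟪y, y⟫ = 0) (huy : ⟪u, y⟫ = 0)
    (h2 : ∀ t, act t u = u → ∃ y ∈ Qs hF u hu, t * y ∈ M)
    {w : Fin n → F} (hwu : ⟪w, u⟫ = 0) (hwy : ⟪w, y⟫ = 0) :
    ∃ (E Z : SU n F q) (s ξ : F) (z : Fin n → F), E * Z ∈ M ∧ IsEich E y w s ∧
      s + s ^ q = -⟪w, w⟫ ∧ Z ∈ Qs hF u hu ∧ act E u = u ∧
      act (E * Z) u = u ∧ act (E * Z) y = y - ξ • u ∧
      ∀ v, ⟪v, u⟫ = 0 → ⟪v, y⟫ = 0 → act (E * Z) v = v - ⟪v, w⟫ • y - ⟪v, z⟫ • u := by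
  have hyw : ⟪y, w⟫ = 0 := (hermForm_eq_zero_comm hF).1 hwy
  have huw : ⟪u, w⟫ = 0 := (hermForm_eq_zero_comm hF).1 hwu
  have hyu : ⟪y, u⟫ = 0 := (hermForm_eq_zero_comm hF).1 huy
  obtain ⟨s, E, hs, hE⟩ := exists_eich' hF y w hy hyw
  have hEu : act E u = u := eich_fix hF hE hyu huw
  have hEy : act E y = y := eich_fix hF hE hy hyw
  obtain ⟨Z, hZ, hM⟩ := h2 E hEu
  obtain ⟨z, t, hz, ht, hZe⟩ := hZ
  have hZu : act Z u = u := eich_fix hF hZe hu hz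
  have hZv : ∀ v, ⟪v, u⟫ = 0 → act Z v = v - ⟪v, z⟫ • u := by
    intro v hv
    rw [hZe v, hv]
    module
  refine ⟨E, Z, s, ⟪y, z⟫, z, hM, hE, hs, ⟨z, t, hz, ht, hZe⟩, hEu, ?_, ?_, ?_⟩
  · rw [act_mul, hZu, hEu]
  · rw [act_mul, hZv y hyu, act_sub, act_smul, hEu, hEy]
  · intro v hvu hvy
    rw [act_mul, hZv v hvu, act_sub, act_smul, hEu, hE v, hvy]
    module

theorem comm_mod (hF : Fintype.card F = q ^ 2) {u : Fin n → F} (hu : ⟪u, u⟫ = 0)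
    {E₁ Z₁ E₂ Z₂ : SU n F q} (hE₁ : act E₁ u = u) (hE₂ : act E₂ u = u)
    (hZ₁ : Z₁ ∈ Qs hF u hu) (hZ₂ : Z₂ ∈ Qs hF u hu) :
    ∃ Z ∈ Qs hF u hu, E₁ * Z₁ * (E₂ * Z₂) * (E₁ * Z₁)⁻¹ * (E₂ * Z₂)⁻¹ =
      E₁ * E₂ * E₁⁻¹ * E₂⁻¹ * Z := by
  have hE₂' : act E₂⁻¹ u = u := (fixs u).inv_mem hE₂
  have c1 := Qs_conj hF hu E₂⁻¹ hZ₁ hu hE₂'
  have c2 := (Qs hF u hu).mul_mem ((Qs hF u hu).mul_mem c1 hZ₂) ((Qs hF u hu).inv_mem hZ₁)
  have c3 := Qs_conj hF hu E₁ c2 hu hE₁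
  have c4 := (Qs hF u hu).mul_mem c3 ((Qs hF u hu).inv_mem hZ₂)
  have c5 := Qs_conj hF hu E₂ c4 hu hE₂
  refine ⟨_, c5, ?_⟩
  group

/-- Solving the norm equation. -/
theorem exists_norm_quad (hF : Fintype.card F = q ^ 2) {f t : F} (α : F) (hf0 : f ≠ 0)
    (hf : f ^ q = -f) (ht : t ^ q = -t) :
    ∃ Y : F, f * (Y * Y ^ q) + α * Y ^ q - α ^ q * Y + t = 0 := by
  obtain ⟨l, hl⟩ := exists_norm_eq hF (c := (α / f) * (α / f) ^ q - t / f) (by
    rw [sub_pow_q hF, mul_pow, pow_q_pow_q hF, div_pow t, ht, hf, neg_div_neg_eq]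
    ring)
  refine ⟨l - α / f, ?_⟩
  rw [pow_succ'] at hl
  have h1 : (α / f) ^ q = -(α ^ q / f) := by rw [div_pow, hf, div_neg]
  rw [sub_pow_q hF, h1]
  rw [h1] at hl
  have h2 : f * (l * l ^ q) = f * (α / f * -(α ^ q / f) - t / f) := by rw [hl]
  have h3 : f * (α / f * -(α ^ q / f) - t / f) = -(α * α ^ q / f) - t := by
    field_simp
  rw [h3] at h2
  have h4 : f * (α / f) = α := by field_simp
  have h5 : f * (α ^ q / f) = α ^ q := by field_simp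
  have h6 : f * (α / f * (α ^ q / f)) = α * α ^ q / f := by field_simp
  linear_combination h2 + (α ^ q / f - l ^ q) * h4 + l * h5 - 2 * h6 + (-(α ^ q / f)) * h4 + (α ^ q / f) * h4

/-- Orthonormal pair in `⟨u,y⟩^⊥`. -/
theorem exists_on_pair (hF : Fintype.card F = q ^ 2) (hn : 6 ≤ n) (u y : Fin n → F) :
    ∃ w₁ w₃ : Fin n → F, ⟪w₁, u⟫ = 0 ∧ ⟪w₁, y⟫ = 0 ∧ ⟪w₁, w₁⟫ = 1 ∧
      ⟪w₃, u⟫ = 0 ∧ ⟪w₃, y⟫ = 0 ∧ ⟪w₃, w₃⟫ = 1 ∧ ⟪w₃, w₁⟫ = 0 := by
  classical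
  have key : ∀ S : Finset (Fin n → F), 2 * S.card < n →
      ∃ z, ⟪z, z⟫ = 1 ∧ ∀ s ∈ S, ⟪z, s⟫ = 0 := by
    intro S hS
    set W := perp q (Submodule.span F (S : Set (Fin n → F))) with hW
    have hex : ∃ a ∈ W, ∃ b ∈ W, ⟪a, b⟫ ≠ 0 := by
      by_contra hcon
      push Not at hcon
      have hle : W ≤ Submodule.span F (S : Set (Fin n → F)) := by
        rw [← perp_perp hF (Submodule.span F (S : Set (Fin n → F)))]
        intro x hx w hw
        exact hcon x hx w hw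
      have h1 := Submodule.finrank_mono hle
      have h2 := finrank_perp hF (Submodule.span F (S : Set (Fin n → F)))
      have h3 := finrank_span_finset_le_card (R := F) S
      have h4 : Set.finrank F (S : Set (Fin n → F)) =
        Module.finrank F (Submodule.span F (S : Set (Fin n → F))) := rfl
      rw [h4] at h3
      rw [← hW] at h2
      omega
    obtain ⟨a, ha, b, hb, hab⟩ := hex
    obtain ⟨z, hz, hz1⟩ := exists_unit_mem hF _ ha hb hab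
    exact ⟨z, hz1, fun s hs => (mem_perp_span hF).1 hz s hs⟩
  obtain ⟨w₁, h1, h2⟩ := key {u, y} (by
    have := Finset.card_le_two (a := u) (b := y)
    omega)
  have h1u := h2 u (by simp)
  have h1y := h2 y (by simp)
  -- second vector
  set T : Submodule F (Fin n → F) := Submodule.span F {u, y, w₁} with hT
  have hex : ∃ a ∈ perp q T, ∃ b ∈ perp q T, ⟪a, b⟫ ≠ 0 := by
    by_contra hcon
    push Not at hcon
    have hle : perp q T ≤ T := by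
      conv_rhs => rw [← perp_perp hF T]
      intro x hx w hw
      exact hcon x hx w hw
    have h4 := finrank_perp hF T
    have h5 : Module.finrank F T ≤ 3 := by
      have h6 := finrank_span_finset_le_card (R := F) ({u, y, w₁} : Finset (Fin n → F))
      have h7 := Finset.card_le_three (a := u) (b := y) (c := w₁)
      have hco : (({u, y, w₁} : Finset (Fin n → F)) : Set (Fin n → F)) = {u, y, w₁} := by simp
      rw [hco] at h6
      change Module.finrank F T ≤ _ at h6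
      omega
    have h6 : perp q T = T := Submodule.eq_of_le_of_finrank_le hle (by omega)
    have h7 : w₁ ∈ perp q T := by rw [h6]; exact Submodule.subset_span (by simp)
    have h8 := h7 w₁ (Submodule.subset_span (by simp))
    rw [h1] at h8
    exact one_ne_zero h8
  obtain ⟨a, ha, b, hb, hab⟩ := hex
  obtain ⟨w₃, hw₃, h3⟩ := exists_unit_mem hF _ ha hb hab
  have h9 := (mem_perp_span hF).1 hw₃
  exact ⟨w₁, w₃, h1u, h1y, h1, h9 u (by simp), h9 y (by simp), h3, h9 w₁ (by simp)⟩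

/-- Step 2. -/
theorem step2 (hF : Fintype.card F = q ^ 2) (hn : 6 ≤ n) {M : Subgroup (SU n F q)}
    (hG : Good hF M) {u y : Fin n → F} (hli : LinearIndependent F ![u, y])
    (hu : ⟪u, u⟫ = 0) (hy : ⟪y, y⟫ = 0) (huy : ⟪u, y⟫ = 0) :
    ∃ a b : F, Cc hF M (a • u + b • y) := by
  by_contra hcon
  push Not at hcon
  have hli' := LinearIndependent.pair_iff.1 hli
  have hyu : ⟪y, u⟫ = 0 := (hermForm_eq_zero_comm hF).1 huy
  have hu0 : u ≠ 0 := by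
    intro h
    have := hli' 1 0 (by rw [h]; module)
    exact one_ne_zero this.1
  have hXu : ¬ Xs hF u hu ≤ M := fun h => by
    apply hcon 1 0
    rw [one_smul, zero_smul, add_zero]
    exact ⟨hu0, hu, h⟩
  obtain ⟨hQ, hlift⟩ := hG u hu0 hu hXu
  obtain ⟨w₁, w₃, h1u, h1y, h11, h3u, h3y, h33, h31⟩ := exists_on_pair hF hn u y
  -- the element over `w₃`
  obtain ⟨E₃, Z₃, s₃, ξ₃, z₃, hM₃, hE₃, hs₃, hZ₃, hE₃u, hg₃u, hg₃y, hg₃v⟩ :=
    exists_lift hF hu hy huy hlift h3u h3y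
  -- vanishing of `ξ` for multiples of `w₁`
  have hxi : ∀ (l : F) (E Z : SU n F q) (s ξ : F) (z : Fin n → F), E * Z ∈ M →
      IsEich E y (l • w₁) s → s + s ^ q = -⟪l • w₁, l • w₁⟫ → Z ∈ Qs hF u hu → act E u = u →
      act (E * Z) y = y - ξ • u →
      (∀ v, ⟪v, u⟫ = 0 → ⟪v, y⟫ = 0 → act (E * Z) v = v - ⟪v, l • w₁⟫ • y - ⟪v, z⟫ • u) →
      act (E * Z) u = u → ξ = 0 := by
    intro l E Z s ξ z hM hE hs hZ hEu hgy hgv hgu
    have hw3l : ⟪w₃, l • w₁⟫ = 0 := by rw [hermForm_smul_right, h31, mul_zero]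
    have hlw3 : ⟪l • w₁, w₃⟫ = 0 := (hermForm_eq_zero_comm hF).1 hw3l
    have hyl : ⟪y, l • w₁⟫ = 0 := by
      rw [hermForm_smul_right, (hermForm_eq_zero_comm hF).1 h1y, mul_zero]
    have hy3 : ⟪y, w₃⟫ = 0 := (hermForm_eq_zero_comm hF).1 h3y
    obtain ⟨Z', hZ', hc⟩ := comm_mod hF hu hEu hE₃u hZ hZ₃
    have hcm := hE.commutator hF hy hyl hy3 hs hs₃ hE₃
    rw [hw3l, hlw3, sub_zero] at hcm
    have h1 : E * E₃ * E⁻¹ * E₃⁻¹ = 1 := hcm.unique (isEich_one hF y)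
    rw [h1, one_mul] at hc
    have hcM : E * Z * (E₃ * Z₃) * (E * Z)⁻¹ * (E₃ * Z₃)⁻¹ ∈ M :=
      M.mul_mem (M.mul_mem (M.mul_mem hM hM₃) (M.inv_mem hM)) (M.inv_mem hM₃)
    rw [hc] at hcM
    have hZ1 := hQ Z' hcM hZ'
    rw [hZ1] at hc
    have hcomm : E * Z * (E₃ * Z₃) = E₃ * Z₃ * (E * Z) := by
      have := mul_inv_eq_one.1 hc
      rw [mul_inv_eq_iff_eq_mul] at this
      exact this
    have h2 : act (E * Z * (E₃ * Z₃)) w₃ = act (E₃ * Z₃ * (E * Z)) w₃ := by rw [hcomm]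
    rw [act_mul (E * Z) (E₃ * Z₃), act_mul (E₃ * Z₃) (E * Z), hg₃v w₃ h3u h3y, hgv w₃ h3u h3y,
      hw3l, h33] at h2
    simp only [act_sub, act_smul, hgy, hg₃y, hgu, hg₃u, zero_smul, sub_zero, one_smul,
      hg₃v w₃ h3u h3y, hgv w₃ h3u h3y, hw3l, h33] at h2
    have h3 : ξ • u = 0 := by
      have : ξ • u = (w₃ - ⟪w₃, z⟫ • u - (y - ξ • u) - ⟪w₃, z₃⟫ • u) -
        (w₃ - y - ⟪w₃, z₃⟫ • u - ⟪w₃, z⟫ • u) := by module
      rw [this, h2, sub_self]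
    rcases smul_eq_zero.1 h3 with h4 | h4
    · exact h4
    · exact absurd h4 hu0
  -- the two elements
  obtain ⟨l, hl⟩ := exists_pow_q_ne hF
  obtain ⟨E₁, Z₁, s₁, ξ₁, z₁, hM₁, hE₁, hs₁, hZ₁, hE₁u, hg₁u, hg₁y, hg₁v⟩ :=
    exists_lift hF hu hy huy hlift (w := (1 : F) • w₁) (by rw [one_smul]; exact h1u)
      (by rw [one_smul]; exact h1y)
  obtain ⟨E₂, Z₂, s₂, ξ₂, z₂, hM₂, hE₂, hs₂, hZ₂, hE₂u, hg₂u, hg₂y, hg₂v⟩ :=
    exists_lift hF hu hy huy hlift (w := l • w₁) (by rw [hermForm_smul_left, h1u, mul_zero])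
      (by rw [hermForm_smul_left, h1y, mul_zero])
  have hx1 := hxi _ _ _ _ _ _ hM₁ hE₁ hs₁ hZ₁ hE₁u hg₁y hg₁v hg₁u
  have hx2 := hxi _ _ _ _ _ _ hM₂ hE₂ hs₂ hZ₂ hE₂u hg₂y hg₂v hg₂u
  rw [one_smul] at hE₁ hs₁ hg₁v
  rw [hx1, zero_smul, sub_zero] at hg₁y
  rw [hx2, zero_smul, sub_zero] at hg₂y
  set g₁ := E₁ * Z₁ with hg₁
  set g₂ := E₂ * Z₂ with hg₂
  have hyw1 : ⟪y, w₁⟫ = 0 := (hermForm_eq_zero_comm hF).1 h1y
  have hyl : ⟪y, l • w₁⟫ = 0 := by rw [hermForm_smul_right, hyw1, mul_zero]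
  obtain ⟨Z', hZ', hc⟩ := comm_mod hF hu hE₁u hE₂u hZ₁ hZ₂
  rw [← hg₁, ← hg₂] at hc
  clear_value g₁ g₂
  have hcm := hE₁.commutator hF hy hyw1 hyl hs₁ hs₂ hE₂
  set f := ⟪w₁, l • w₁⟫ - ⟪l • w₁, w₁⟫ with hf
  have hfl : f = l ^ q - l := by
    rw [hf, hermForm_smul_right, hermForm_smul_left, h11]; ring
  have hf0 : f ≠ 0 := by rw [hfl]; exact sub_ne_zero.2 hl
  have hfs : f ^ q = -f := skew_diff hF _ _
  set c := g₁ * g₂ * g₁⁻¹ * g₂⁻¹ with hcdef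
  have hcM : c ∈ M := M.mul_mem (M.mul_mem (M.mul_mem hM₁ hM₂) (M.inv_mem hM₁)) (M.inv_mem hM₂)
  -- `c` is trivial on `ℓ^⊥`
  have hpres : ∀ g : SU n F q, act g u = u → act g y = y → ∀ v, ⟪v, u⟫ = 0 → ⟪v, y⟫ = 0 →
      ⟪act g⁻¹ v, u⟫ = 0 ∧ ⟪act g⁻¹ v, y⟫ = 0 := by
    intro g h1 h2 v hv1 hv2
    constructor
    · rw [← act_form g, act_act_inv, h1, hv1]
    · rw [← act_form g, act_act_inv, h2, hv2]
  have hcv : ∀ v, ⟪v, u⟫ = 0 → ⟪v, y⟫ = 0 → act c v = v := by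
    intro v hv1 hv2
    have e1 : c = (g₁ * g₂) * (g₂ * g₁)⁻¹ := by rw [hcdef]; group
    have h21u : act (g₂ * g₁) u = u := by rw [act_mul, hg₁u, hg₂u]
    have h21y : act (g₂ * g₁) y = y := by rw [act_mul, hg₁y, hg₂y]
    obtain ⟨p1, p2⟩ := hpres _ h21u h21y v hv1 hv2
    set v' := act (g₂ * g₁)⁻¹ v with hv'
    have e2 : act (g₁ * g₂) v' = act (g₂ * g₁) v' := by
      rw [act_mul, act_mul, hg₂v v' p1 p2, hg₁v v' p1 p2]
      simp only [act_sub, act_smul, hg₁y, hg₂y, hg₁u, hg₂u, hg₁v v' p1 p2, hg₂v v' p1 p2]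
      module
    rw [e1, act_mul, ← hv', e2, hv', act_act_inv]
  -- `Z'`
  obtain ⟨z', t', hz', ht', hZe⟩ := hZ'
  have hZv : ∀ v, ⟪v, u⟫ = 0 → ⟪v, y⟫ = 0 → ⟪v, z'⟫ = 0 := by
    intro v hv1 hv2
    have e1 : act c v = act (E₁ * E₂ * E₁⁻¹ * E₂⁻¹) (act Z' v) := by rw [hc, act_mul]
    have e2 : act Z' v = v - ⟪v, z'⟫ • u := by rw [hZe v, hv1]; module
    have hcm' := (isEich_zero_iff hF _ y f).1 hcm
    rw [hcv v hv1 hv2, e2, hcm', hermForm_sub_left, hermForm_smul_left, hv2, huy] at e1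
    have e3 : ⟪v, z'⟫ • u = 0 := by
      have : ⟪v, z'⟫ • u = v - (v - ⟪v, z'⟫ • u + (f * (0 - ⟪v, z'⟫ * 0)) • y) := by module
      rw [this, ← e1, sub_self]
    rcases smul_eq_zero.1 e3 with h4 | h4
    · exact h4
    · exact absurd h4 hu0
  have hzspan : z' ∈ Submodule.span F {u, y} := by
    rw [← perp_perp hF (Submodule.span F {u, y}), mem_perp' hF]
    intro v hv
    rw [mem_perp_span hF] at hv
    exact hZv v (hv u (by simp)) (hv y (by simp))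
  obtain ⟨β, α, hzab⟩ := Submodule.mem_span_pair.1 hzspan
  have hZe2 : IsEich Z' u (α • y) (t' - (-β) + (-β) ^ q) := by
    have := isEich_shift hF hZe (-β)
    rw [← hzab] at this
    have e : β • u + α • y + -β • u = α • y := by module
    rwa [e] at this
  set t := t' - (-β) + (-β) ^ q with ht
  have hts : t ^ q = -t := by
    have hz'z' : ⟪z', z'⟫ = 0 := by
      rw [← hzab]
      simp only [hermForm_add_left, hermForm_add_right hF, hermForm_smul_left,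
        hermForm_smul_right, hu, hy, huy, hyu]
      ring
    rw [hz'z', neg_zero] at ht'
    have : t' ^ q = -t' := by linear_combination ht'
    rw [ht, add_pow_q hF, sub_pow_q hF, pow_q_pow_q hF, this]
    ring
  obtain ⟨Y, hY⟩ := exists_norm_quad hF α hf0 hfs hts
  -- the vector
  set w := (-(Y ^ q)) • u + (1 : F) • y with hw
  have hww : ⟪w, w⟫ = 0 := by
    rw [hw]
    simp only [hermForm_add_left, hermForm_add_right hF, hermForm_smul_left,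
      hermForm_smul_right, hu, hy, huy, hyu]
    ring
  have hw0 : w ≠ 0 := by
    intro h
    exact one_ne_zero (hli' _ _ h).2
  have hXw : ¬ Xs hF w hww ≤ M := fun h => hcon _ _ ⟨hw0, hww, h⟩
  set μ := f * Y ^ q - α ^ q with hμ
  have hμq : μ ^ q = -(f * Y) - α := by
    rw [hμ, sub_pow_q hF, mul_pow, pow_q_pow_q hF, pow_q_pow_q hF, hfs]; ring
  have hcE : IsEich c w (μ • u) f := by
    intro x
    have e1 : act c x = act (E₁ * E₂ * E₁⁻¹ * E₂⁻¹) (act Z' x) := by rw [hc, act_mul]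
    have hcm' := (isEich_zero_iff hF _ y f).1 hcm
    have e2 : ⟪act Z' x, y⟫ = ⟪x, y⟫ := by
      rw [hZe2 x]
      simp only [hermForm_add_left, hermForm_sub_left, hermForm_smul_left, hy, huy]
      ring
    have e3 : ⟪x, w⟫ = ⟪x, y⟫ - Y * ⟪x, u⟫ := by
      rw [hw, hermForm_add_right hF, hermForm_smul_right, hermForm_smul_right, neg_pow_q hF,
        pow_q_pow_q hF, one_pow]
      ring
    rw [e1, hcm', e2, hZe2 x, hermForm_smul_right, hermForm_smul_right, e3, hμq, hw, hμ]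
    have e4 : t = -(f * (Y * Y ^ q) + α * Y ^ q - α ^ q * Y) := by linear_combination hY
    rw [e4]
    module
  have hwu : ⟪w, μ • u⟫ = 0 := by
    rw [hw, hermForm_smul_right]
    simp only [hermForm_add_left, hermForm_smul_left, hu, hyu]
    ring
  have hcQ : c ∈ Qs hF w hww := by
    refine ⟨μ • u, f, hwu, ?_, hcE⟩
    rw [hermForm_smul_left, hermForm_smul_right, hu, hfs]; ring
  have hc1 := (hG w hw0 hww hXw).1 c hcM hcQ
  -- contradiction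
  rw [hc1] at hcE
  obtain ⟨d, hd⟩ := eich_param hF hw0 hww (isEich_one hF w) hcE
  rw [zero_add] at hd
  have hli2 := hli' (μ - d * (-(Y ^ q))) (-d) (by
    have : (μ - d * (-(Y ^ q))) • u + (-d) • y = μ • u - d • w := by rw [hw]; module
    rw [this, hd, sub_self])
  have hd0 : d = 0 := neg_eq_zero.1 hli2.2
  rw [hd0, zero_smul] at hd
  rw [hd] at hcE
  exact hf0 (eich_s_unique hF hw0 hww hcE (isEich_one hF w))

end Cfsg.Agent.MinU
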