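import Cfsg.Agent.MinU.Step1
import Cfsg.Agent.MinU.Step2
import Cfsg.Agent.MinU.Lin

/-!
# Step 3: the set of points with transvection group in `M` is a geometric hyperplane
-/

set_option autoImplicit false
set_option linter.unusedSectionVars false

namespace Cfsg.Agent.MinU

open Cfsg.Agent.Uni Finset

variable {F : Type*} [Field F] [Fintype F] {q n m : ℕ}

local notation "⟪" x ", " y "⟫" => hermForm _ _ q x y

/-- The outcome of step 2. -/
def Lines (hF : Fintype.card F = q ^ 2) (M : Subgroup (SU n F q)) : Prop :=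
  ∀ (u y : Fin n → F), LinearIndependent F ![u, y] → ⟪u, u⟫ = 0 → ⟪y, y⟫ = 0 → ⟪u, y⟫ = 0 →
    ∃ a b : F, Cc hF M (a • u + b • y)

theorem Cc_smul (hF : Fintype.card F = q ^ 2) {M : Subgroup (SU n F q)} {x : Fin n → F}
    (h : Cc hF M x) {c : F} (hc : c ≠ 0) : Cc hF M (c • x) := by
  obtain ⟨h0, hx, h⟩ := h
  refine ⟨smul_ne_zero hc h0, by
    rw [hermForm_smul_left, hermForm_smul_right, hx, mul_zero, mul_zero], ?_⟩
  rw [Xs_smul hF hx hc]
  exact h

theorem Cc_cj (hF : Fintype.card F = q ^ 2) {M : Subgroup (SU n F q)} {k : SU n F q}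
    {x : Fin n → F} : Cc hF (cj k M) x ↔ Cc hF M (act k x) := by
  constructor
  · rintro ⟨h0, hx, h⟩
    exact ⟨act_ne_zero h0, by rw [act_form, hx], (Xs_le_cj hF hx _ rfl).1 h⟩
  · rintro ⟨h0, hx, h⟩
    have hx' : ⟪x, x⟫ = 0 := by rw [← act_form k, hx]
    refine ⟨?_, hx', (Xs_le_cj hF hx' _ rfl).2 h⟩
    rintro rfl
    exact h0 (act_zero k)

theorem Cc_act (hF : Fintype.card F = q ^ 2) {M : Subgroup (SU n F q)} {k : SU n F q}
    (hk : k ∈ M) {x : Fin n → F} (h : Cc hF M x) : Cc hF M (act k x) := by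
  rw [← Cc_cj]
  obtain ⟨h0, hx, h⟩ := h
  refine ⟨h0, hx, fun g hg => ?_⟩
  rw [mem_cj]
  exact M.mul_mem (M.mul_mem hk (h hg)) (M.inv_mem hk)

theorem span_two (hF : Fintype.card F = q ^ 2) {M : Subgroup (SU n F q)} (hG : Good hF M)
    {x y : Fin n → F} (hx : Cc hF M x) (hy : Cc hF M y) (hxy : x + y ≠ 0)
    (hiso : ⟪x + y, x + y⟫ = 0) : Cc hF M (x + y) := by
  obtain ⟨hx0, hxx, hX⟩ := hx
  obtain ⟨hy0, hyy, hY⟩ := hy
  by_cases h : ⟪x, y⟫ = 0
  · have hyx : ⟪y, x⟫ = 0 := (hermForm_eq_zero_comm hF).1 h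
    by_cases hli : LinearIndependent F ![x, y]
    · have hli' := LinearIndependent.pair_iff.1 hli
      refine ⟨hxy, hiso, ?_⟩
      by_contra hcon
      obtain ⟨f, hf0, hf⟩ := exists_skew hF
      obtain ⟨g, hg, hga⟩ := exists_Xs hF hxx (s := -f) (by rw [neg_pow_q hF, hf])
      obtain ⟨g', hg', hga'⟩ := exists_Xs hF hyy hf
      have hE : IsEich (g * g') (x + y) ((-f) • x) f := by
        intro z
        rw [act_mul, hga', hga]
        simp only [hermForm_add_left, hermForm_smul_left, hermForm_add_right hF,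
          hermForm_smul_right, hyx, neg_pow_q hF, hf]
        module
      have hQ : g * g' ∈ Qs hF (x + y) hiso := by
        refine ⟨(-f) • x, f, ?_, ?_, hE⟩
        · rw [hermForm_smul_right, hermForm_add_left, hxx, hyx]; ring
        · rw [hermForm_smul_right, hermForm_smul_left, hxx, hf]; ring
      have h1 := (hG (x + y) hxy hiso hcon).1 _ (M.mul_mem (hX hg) (hY hg')) hQ
      rw [h1] at hE
      obtain ⟨d, hd⟩ := eich_param hF hxy hiso (isEich_one hF _) hE
      rw [zero_add] at hd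
      have h2 := hli' (-f - d) (-d) (by
        have : (-f - d) • x + (-d) • y = (-f) • x - d • (x + y) := by module
        rw [this, hd, sub_self])
      have hd0 : d = 0 := neg_eq_zero.1 h2.2
      have h3 := h2.1
      rw [hd0, sub_zero, neg_eq_zero] at h3
      exact hf0 h3
    · rw [LinearIndependent.pair_iff' hx0] at hli
      push Not at hli
      obtain ⟨a, ha⟩ := hli
      have e : x + y = (1 + a) • x := by rw [← ha]; module
      rw [e] at hxy ⊢
      have h1 : (1 + a) ≠ 0 := by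
        intro h
        rw [h, zero_smul] at hxy
        exact hxy rfl
      exact Cc_smul hF ⟨hx0, hxx, hX⟩ h1
  · have hyx : ⟪y, x⟫ ≠ 0 := fun h' => h ((hermForm_eq_zero_comm hF).1 h')
    have hs : ⟪y, x⟫ ^ q = -⟪y, x⟫ := by
      rw [hermForm_symm hF]
      rw [hermForm_add_left, hermForm_add_right hF, hermForm_add_right hF, hxx, hyy] at hiso
      linear_combination hiso
    obtain ⟨g, hg, hga⟩ := exists_Xs hF hxx (s := (⟪y, x⟫)⁻¹) (by rw [inv_pow, hs, inv_neg])
    have h1 : act g y = x + y := by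
      rw [hga, inv_mul_cancel₀ hyx, one_smul, add_comm]
    rw [← h1]
    exact Cc_act hF (hX hg) ⟨hy0, hyy, hY⟩

/-- `C` together with zero. -/
def C0 (hF : Fintype.card F = q ^ 2) (M : Subgroup (SU n F q)) (x : Fin n → F) : Prop :=
  x = 0 ∨ Cc hF M x

theorem C0_iso (hF : Fintype.card F = q ^ 2) {M : Subgroup (SU n F q)} {x : Fin n → F}
    (h : C0 hF M x) : ⟪x, x⟫ = 0 := by
  rcases h with rfl | h
  · exact hermForm_zero_left _
  · exact h.2.1

theorem C0_smul (hF : Fintype.card F = q ^ 2) {M : Subgroup (SU n F q)} {x : Fin n → F}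
    (h : C0 hF M x) (c : F) : C0 hF M (c • x) := by
  rcases h with rfl | h
  · left; rw [smul_zero]
  · by_cases hc : c = 0
    · left; rw [hc, zero_smul]
    · right; exact Cc_smul hF h hc

theorem C0_add (hF : Fintype.card F = q ^ 2) {M : Subgroup (SU n F q)} (hG : Good hF M)
    {x y : Fin n → F} (hx : C0 hF M x) (hy : C0 hF M y) (h : ⟪x + y, x + y⟫ = 0) :
    C0 hF M (x + y) := by
  rcases hx with rfl | hx
  · rw [zero_add]; exact hy
  rcases hy with rfl | hy
  · rw [add_zero]; exact Or.inr hx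
  by_cases h0 : x + y = 0
  · left; exact h0
  · right; exact span_two hF hG hx hy h0 h

/-- The set `C` is not everything. -/
theorem exists_not_Cc (hF : Fintype.card F = q ^ 2) (hn : 2 ≤ n) (h32 : ¬ (n = 3 ∧ q = 2))
    {M : Subgroup (SU n F q)} (hM : M ≠ ⊤) : ∃ u : Fin n → F, u ≠ 0 ∧ ⟪u, u⟫ = 0 ∧ ¬ Cc hF M u := by
  by_contra hcon
  push Not at hcon
  apply hM
  rw [eq_top_iff, ← TT_eq_top hF hn h32]
  unfold TT
  rw [Subgroup.closure_le]
  rintro g ⟨v, c, hv, hvc⟩
  by_cases hv0 : v = 0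
  · have h1 := (isEich_zero_iff hF g v c).1 ((isEich_zero_iff_matrix hF g v c).2 hvc)
    have : g = 1 := act_ext fun x => by rw [h1, hv0, smul_zero, add_zero, act_one]
    rw [this]; exact M.one_mem
  · obtain ⟨-, h1, h2⟩ := hcon v hv0 hv
    exact h2 ⟨c, skew_of_isEich hF hv0 hv ((isEich_zero_iff_matrix hF g v c).2 hvc),
      (isEich_zero_iff_matrix hF g v c).2 hvc⟩

theorem kp_iso_left {a : Fin 2 → F} (ha : ⟪a, a⟫ = 0) :
    ⟪kp a (0 : Fin m → F), kp a 0⟫ = 0 := by
  rw [kp_form, ha, hermForm_zero_left, add_zero]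

theorem kp_iso_right {w : Fin m → F} (hw : ⟪w, w⟫ = 0) : ⟪kp 0 w, kp 0 w⟫ = 0 := by
  rw [kp_form, hw, hermForm_zero_left, add_zero]

/-- Normalisation: all isotropic vectors of `F^m` belong to `C` after conjugation. -/
theorem normalise (hF : Fintype.card F = q ^ 2) (hm : 2 ≤ m) {e : Fin 2 → F} (he0 : e ≠ 0)
    (he : ⟪e, e⟫ = 0) (hm32 : ¬ (m + 2 = 3 ∧ q = 2)) {M : Subgroup (SU (m + 2) F q)} (hM : M ≠ ⊤)
    (h : ∀ k, Good hF (cj k M) ∧ Lines hF (cj k M)) :
    ∃ k : SU (m + 2) F q, ¬ Cc hF (cj k M) (kp e 0) ∧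
      ∀ w : Fin m → F, ⟪w, w⟫ = 0 → C0 hF (cj k M) (kp 0 w) := by
  classical
  obtain ⟨u, hu0, hu, hCu⟩ := exists_not_Cc hF (by omega) hm32 hM
  obtain ⟨k₁, hk₁⟩ := exists_SU_single hF (by omega) (kp_ne_zero_left he0 (0 : Fin m → F)) hu0
    ((kp_iso_left he).trans hu.symm)
  set M₁ := cj k₁ M with hM₁
  obtain ⟨hG, hL⟩ := h k₁
  have hC₁ : ¬ Cc hF M₁ (kp e 0) := by rw [hM₁, Cc_cj, hk₁]; exact hCu
  -- existence and uniqueness
  have hex : ∀ w : Fin m → F, w ≠ 0 → ⟪w, w⟫ = 0 → ∃ c : F, Cc hF M₁ (kp (c • e) w) := by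
    intro w hw0 hw
    obtain ⟨a, b, hab⟩ := hL (kp e 0) (kp 0 w) (by
      rw [LinearIndependent.pair_iff]
      intro a b hab
      rw [← kp_smul, ← kp_smul, ← kp_add, smul_zero, smul_zero, add_zero, zero_add,
        kp_eq_zero] at hab
      exact ⟨(smul_eq_zero.1 hab.1).resolve_right he0,
        (smul_eq_zero.1 hab.2).resolve_right hw0⟩)
      (kp_iso_left he) (kp_iso_right hw) (by
        rw [kp_form, hermForm_zero_left, hermForm_zero_right hF, add_zero])
    rw [← kp_smul, ← kp_smul, ← kp_add, smul_zero, smul_zero, add_zero, zero_add] at hab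
    have hb : b ≠ 0 := by
      rintro rfl
      rw [zero_smul] at hab
      have ha : a ≠ 0 := by
        rintro rfl
        apply hab.1
        rw [zero_smul, kp_zero]
      apply hC₁
      have h1 := Cc_smul hF hab (inv_ne_zero ha)
      rw [← kp_smul, smul_smul, inv_mul_cancel₀ ha, one_smul, smul_zero] at h1
      exact h1
    refine ⟨b⁻¹ * a, ?_⟩
    have h1 := Cc_smul hF hab (inv_ne_zero hb)
    rw [← kp_smul, smul_smul, smul_smul, inv_mul_cancel₀ hb, one_smul] at h1
    exact h1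
  have hce : ∀ c : F, ⟪c • e, c • e⟫ = 0 := by
    intro c
    rw [hermForm_smul_left, hermForm_smul_right, he, mul_zero, mul_zero]
  have huniq : ∀ (w : Fin m → F) (c c' : F), C0 hF M₁ (kp (c • e) w) →
      C0 hF M₁ (kp (c' • e) w) → c = c' := by
    intro w c c' h1 h2
    by_contra hne
    have h3 := C0_add hF hG h1 (C0_smul hF h2 (-1)) (by
      rw [← kp_smul, ← kp_add, smul_smul, ← add_smul, kp_form, hce, neg_one_smul,
        add_neg_cancel, hermForm_zero_left, add_zero])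
    rw [← kp_smul, ← kp_add, smul_smul, ← add_smul, neg_one_smul, add_neg_cancel] at h3
    have hne' : c + -1 * c' ≠ 0 := by
      intro h0; apply hne; linear_combination h0
    rcases h3 with h3 | h3
    · rw [kp_eq_zero] at h3
      exact absurd h3.1 (smul_ne_zero hne' he0)
    · apply hC₁
      have h4 := Cc_smul hF h3 (inv_ne_zero hne')
      rw [← kp_smul, smul_smul, inv_mul_cancel₀ hne', one_smul, smul_zero] at h4
      exact h4
  let φ : (Fin m → F) → F := fun w =>
    if h : ∃ c : F, C0 hF M₁ (kp (c • e) w) then h.choose else 0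
  have hφ : ∀ w, ⟪w, w⟫ = 0 → C0 hF M₁ (kp (φ w • e) w) := by
    intro w hw
    have hx : ∃ c : F, C0 hF M₁ (kp (c • e) w) := by
      by_cases hw0 : w = 0
      · exact ⟨0, Or.inl (by rw [hw0, zero_smul, kp_zero])⟩
      · obtain ⟨c, hc⟩ := hex w hw0 hw
        exact ⟨c, Or.inr hc⟩
    have h1 : φ w = hx.choose := dif_pos hx
    rw [h1]
    exact hx.choose_spec
  obtain ⟨z, hz⟩ := lin_all hF m hm φ (by
    intro c x hx
    have h1 := C0_smul hF (hφ x hx) c
    rw [← kp_smul, smul_smul] at h1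
    exact huniq (c • x) _ _ (hφ _ (by
      rw [hermForm_smul_left, hermForm_smul_right, hx, mul_zero, mul_zero])) h1) (by
    intro x y hx hy hxy
    have h1 := C0_add hF hG (hφ x hx) (hφ y hy) (by
      rw [← kp_add, ← add_smul, kp_form, hce, hxy, add_zero])
    rw [← kp_add, ← add_smul] at h1
    exact huniq (x + y) _ _ (hφ _ hxy) h1)
  -- the Eichler element
  set u₀ := kp e (0 : Fin m → F) with hu₀
  have huz : ⟪u₀, kp 0 (-z)⟫ = 0 := by
    rw [hu₀, kp_form, hermForm_zero_right hF, hermForm_zero_left, add_zero]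
  obtain ⟨s, E, hs, hE⟩ := exists_eich' hF u₀ (kp 0 (-z)) (kp_iso_left he) huz
  have hEu : act E u₀ = u₀ := eich_fix hF hE (kp_iso_left he) huz
  have hEw : ∀ w : Fin m → F, act E (kp 0 w) = kp (⟪w, z⟫ • e) w := by
    intro w
    have h1 : ⟪kp 0 w, u₀⟫ = 0 := by
      rw [hu₀, kp_form, hermForm_zero_right hF, hermForm_zero_left, add_zero]
    have h2 : ⟪(kp 0 w : Fin (m + 2) → F), kp 0 (-z)⟫ = -⟪w, z⟫ := by
      rw [kp_form, hermForm_zero_left, hermForm_neg_right hF, zero_add]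
    rw [hE, h1, h2, kp_split (⟪w, z⟫ • e) w, kp_smul_left, ← hu₀]
    module
  have hcc : ∀ x, Cc hF (cj (k₁ * E) M) x ↔ Cc hF M₁ (act E x) := by
    intro x
    rw [Cc_cj, hM₁, Cc_cj, act_mul]
  refine ⟨k₁ * E, ?_, ?_⟩
  · rw [hcc, hEu]; exact hC₁
  · intro w hw
    have h1 := hφ w hw
    rw [hz w hw, ← hEw] at h1
    rcases h1 with h1 | h1
    · left
      rwa [← act_zero E, act_inj] at h1
    · right
      rw [hcc]; exact h1

end Cfsg.Agent.MinU
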