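import Cfsg.Agent.MinU.Step2
import Cfsg.Agent.MinU.Step3

/-!
# Step 2 in dimension five
-/

set_option autoImplicit false
set_option linter.unusedSectionVars false

namespace Cfsg.Agent.MinU

open Cfsg.Agent.Uni Finset

variable {F : Type*} [Field F] [Fintype F] {q n m : ℕ}

local notation "⟪" x ", " y "⟫" => hermForm _ _ q x y

/-- Dual vector. -/
theorem exists_dual2 (hF : Fintype.card F = q ^ 2) {u y : Fin n → F}
    (hli : LinearIndependent F ![u, y]) : ∃ v : Fin n → F, ⟪v, u⟫ = 0 ∧ ⟪v, y⟫ = 1 := by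
  by_contra hcon
  push Not at hcon
  have hli' := LinearIndependent.pair_iff.1 hli
  have h1 : y ∈ perp q (perp q (Submodule.span F {u})) := by
    rw [mem_perp' hF]
    intro w hw
    have hwu : ⟪w, u⟫ = 0 := (mem_perp_span hF).1 hw u rfl
    by_contra hne
    apply hcon ((⟪w, y⟫)⁻¹ • w)
    · rw [hermForm_smul_left, hwu, mul_zero]
    · rw [hermForm_smul_left, inv_mul_cancel₀ hne]
  rw [perp_perp hF] at h1
  obtain ⟨c, hc⟩ := Submodule.mem_span_singleton.1 h1
  have h2 := hli' c (-1) (by rw [hc]; module)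
  exact one_ne_zero (neg_eq_zero.1 h2.2)

theorem li_swap {u y : Fin n → F} (hli : LinearIndependent F ![u, y]) :
    LinearIndependent F ![y, u] := by
  rw [LinearIndependent.pair_iff] at hli ⊢
  intro s t h
  have := hli t s (by rw [← h]; module)
  exact ⟨this.2, this.1⟩

/-- An element acting trivially on `ℓ^⊥`. -/
theorem triv_form (hF : Fintype.card F = q ^ 2) {u y : Fin n → F}
    (hli : LinearIndependent F ![u, y])
    (hu : ⟪u, u⟫ = 0) (hy : ⟪y, y⟫ = 0) (huy : ⟪u, y⟫ = 0) {c : SU n F q}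
    (hc : ∀ v, ⟪v, u⟫ = 0 → ⟪v, y⟫ = 0 → act c v = v) :
    ∃ t α f : F, t ^ q = -t ∧ f ^ q = -f ∧
      ∀ x, act c x = x + ⟪x, u⟫ • (t • u + α • y) + ⟪x, y⟫ • ((-α ^ q) • u + f • y) := by
  have hyu : ⟪y, u⟫ = 0 := (hermForm_eq_zero_comm hF).1 huy
  obtain ⟨vy, hvyu, hvyy⟩ := exists_dual2 hF hli
  obtain ⟨vu, hvuy, hvuu⟩ := exists_dual2 hF (li_swap hli)
  have hcu : act c u = u := hc u hu huy
  have hcy : act c y = y := hc y hyu hy
  have hmem : ∀ x, ∃ a b : F, act c x = x + a • u + b • y := by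
    intro x
    have h1 : act c x - x ∈ Submodule.span F {u, y} := by
      rw [← perp_perp hF (Submodule.span F {u, y}), mem_perp' hF]
      intro v hv
      rw [mem_perp_span hF] at hv
      have h2 := hc v (hv u (by simp)) (hv y (by simp))
      rw [hermForm_sub_right hF]
      nth_rewrite 1 [← h2]
      rw [act_form, sub_self]
    obtain ⟨a, b, hab⟩ := Submodule.mem_span_pair.1 h1
    exact ⟨a, b, by rw [add_assoc, hab]; abel⟩
  obtain ⟨t, α, h1⟩ := hmem vu
  obtain ⟨β, f, h2⟩ := hmem vy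
  have huvu : ⟪u, vu⟫ = 1 := by rw [← hermForm_symm hF, hvuu, one_pow]
  have hyvy : ⟪y, vy⟫ = 1 := by rw [← hermForm_symm hF, hvyy, one_pow]
  have hyvu : ⟪y, vu⟫ = 0 := (hermForm_eq_zero_comm hF).1 hvuy
  have huvy : ⟪u, vy⟫ = 0 := (hermForm_eq_zero_comm hF).1 hvyu
  have e1 : t ^ q = -t := by
    have := act_form c vu vu
    rw [h1] at this
    simp only [hermForm_add_left, hermForm_add_right hF, hermForm_smul_left,
      hermForm_smul_right, hu, hy, huy, hyu, huvu, hyvu, hvuu, hvuy] at this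
    linear_combination this
  have e2 : f ^ q = -f := by
    have := act_form c vy vy
    rw [h2] at this
    simp only [hermForm_add_left, hermForm_add_right hF, hermForm_smul_left,
      hermForm_smul_right, hu, hy, huy, hyu, hyvy, huvy, hvyu, hvyy] at this
    linear_combination this
  have e3 : β = -α ^ q := by
    have := act_form c vy vu
    rw [h2, h1] at this
    simp only [hermForm_add_left, hermForm_add_right hF, hermForm_smul_left,
      hermForm_smul_right, hu, hy, huy, hyu, hyvy, huvy, hvyu, hvyy, huvu, hyvu, hvuu, hvuy]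
      at this
    linear_combination this
  refine ⟨t, α, f, e1, e2, fun x => ?_⟩
  have h3 : act c (x - ⟪x, u⟫ • vu - ⟪x, y⟫ • vy) = x - ⟪x, u⟫ • vu - ⟪x, y⟫ • vy := by
    apply hc
    · rw [hermForm_sub_left, hermForm_sub_left, hermForm_smul_left, hermForm_smul_left, hvuu,
        hvyu]
      ring
    · rw [hermForm_sub_left, hermForm_sub_left, hermForm_smul_left, hermForm_smul_left, hvuy,
        hvyy]
      ring
  have h4 : x = (x - ⟪x, u⟫ • vu - ⟪x, y⟫ • vy) + ⟪x, u⟫ • vu + ⟪x, y⟫ • vy := by module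
  conv_lhs => rw [h4]
  rw [act_add, act_add, act_smul, act_smul, h3, h1, h2, e3]
  module

/-- Lemma E. -/
theorem lemE (hF : Fintype.card F = q ^ 2) {M : Subgroup (SU n F q)}
    (hG : Good hF M) {u y : Fin n → F} (hli : LinearIndependent F ![u, y])
    (hu : ⟪u, u⟫ = 0) (hy : ⟪y, y⟫ = 0) (huy : ⟪u, y⟫ = 0)
    (hcon : ∀ a b : F, ¬ Cc hF M (a • u + b • y)) {c : SU n F q} (hcM : c ∈ M)
    (hc : ∀ v, ⟪v, u⟫ = 0 → ⟪v, y⟫ = 0 → act c v = v) : c = 1 := by
  have hli' := LinearIndependent.pair_iff.1 hli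
  have hyu : ⟪y, u⟫ = 0 := (hermForm_eq_zero_comm hF).1 huy
  have hu0 : u ≠ 0 := by
    intro h
    have := hli' 1 0 (by rw [h]; module)
    exact one_ne_zero this.1
  obtain ⟨t, α, f, hts, hfs, hca⟩ := triv_form hF hli hu hy huy hc
  by_cases hf0 : f = 0
  · have hXu : ¬ Xs hF u hu ≤ M := fun h => by
      apply hcon 1 0
      rw [one_smul, zero_smul, add_zero]
      exact ⟨hu0, hu, h⟩
    apply (hG u hu0 hu hXu).1 c hcM
    refine ⟨α • y, t, ?_, ?_, ?_⟩
    · rw [hermForm_smul_right, huy, mul_zero]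
    · rw [hermForm_smul_left, hermForm_smul_right, hy, hts]; ring
    · intro x
      rw [hca x, hf0, hermForm_smul_right]
      module
  obtain ⟨Y, hY⟩ := exists_norm_quad hF α hf0 hfs hts
  set w := (-(Y ^ q)) • u + (1 : F) • y with hw
  have hww : ⟪w, w⟫ = 0 := by
    rw [hw]
    simp only [hermForm_add_left, hermForm_add_right hF, hermForm_smul_left,
      hermForm_smul_right, hu, hy, huy, hyu]
    ring
  have hw0 : w ≠ 0 := by
    intro h
    exact one_ne_zero (hli' _ _ h).2
  have hXw : ¬ Xs hF w hww ≤ M := fun h => hcon _ _ ⟨hw0, hww, h⟩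
  set μ := f * Y ^ q - α ^ q with hμ
  have hμq : μ ^ q = -(f * Y) - α := by
    rw [hμ, sub_pow_q hF, mul_pow, pow_q_pow_q hF, pow_q_pow_q hF, hfs]; ring
  have hcE : IsEich c w (μ • u) f := by
    intro x
    have e3 : ⟪x, w⟫ = ⟪x, y⟫ - Y * ⟪x, u⟫ := by
      rw [hw, hermForm_add_right hF, hermForm_smul_right, hermForm_smul_right, neg_pow_q hF,
        pow_q_pow_q hF, one_pow]
      ring
    rw [hca x, hermForm_smul_right, e3, hμq, hw, hμ]
    have e4 : t = -(f * (Y * Y ^ q) + α * Y ^ q - α ^ q * Y) := by linear_combination hY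
    rw [e4]
    module
  have hwu : ⟪w, μ • u⟫ = 0 := by
    rw [hw, hermForm_smul_right]
    simp only [hermForm_add_left, hermForm_smul_left, hu, hyu]
    ring
  have hcQ : c ∈ Qs hF w hww := by
    refine ⟨μ • u, f, hwu, ?_, hcE⟩
    rw [hermForm_smul_left, hermForm_smul_right, hu, hfs]; ring
  exact (hG w hw0 hww hXw).1 c hcM hcQ

/-- In dimension five `ℓ^⊥ ∩ z^⊥ = ℓ`. -/
theorem perp5 (hF : Fintype.card F = q ^ 2) (hn : n = 5) {u y z : Fin n → F}
    (hli : LinearIndependent F ![u, y])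
    (hu : ⟪u, u⟫ = 0) (hy : ⟪y, y⟫ = 0) (huy : ⟪u, y⟫ = 0) (hzu : ⟪z, u⟫ = 0)
    (hzy : ⟪z, y⟫ = 0) (hz : ⟪z, z⟫ = 1) {v : Fin n → F} (hvu : ⟪v, u⟫ = 0) (hvy : ⟪v, y⟫ = 0)
    (hvz : ⟪v, z⟫ = 0) : ∃ a b : F, v = a • u + b • y := by
  have hyu : ⟪y, u⟫ = 0 := (hermForm_eq_zero_comm hF).1 huy
  have huz : ⟪u, z⟫ = 0 := (hermForm_eq_zero_comm hF).1 hzu
  have hyz : ⟪y, z⟫ = 0 := (hermForm_eq_zero_comm hF).1 hzy
  have h2 : Module.finrank F (Submodule.span F ({u, y} : Set (Fin n → F))) = 2 := by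
    have := finrank_span_eq_card hli
    rw [Fintype.card_fin, Matrix.range_cons, Matrix.range_cons, Matrix.range_empty,
      Set.union_empty, Set.singleton_union] at this
    exact this
  have h3 := finrank_perp hF (Submodule.span F ({u, y} : Set (Fin n → F)))
  set P := perp q (Submodule.span F ({u, y, z} : Set (Fin n → F))) with hP
  have h4 : P < perp q (Submodule.span F ({u, y} : Set (Fin n → F))) := by
    rw [SetLike.lt_iff_le_and_exists]
    constructor
    · intro x hx
      rw [hP, mem_perp_span hF] at hx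
      rw [mem_perp_span hF]
      rintro w (rfl | rfl)
      · exact hx w (by simp)
      · exact hx w (by simp)
    · refine ⟨z, ?_, ?_⟩
      · rw [mem_perp_span hF]
        rintro w (rfl | rfl)
        · exact hzu
        · exact hzy
      · intro hx
        rw [hP, mem_perp_span hF] at hx
        have := hx z (by simp)
        rw [hz] at this
        exact one_ne_zero this
  have h5 := Submodule.finrank_lt_finrank_of_lt h4
  have h6 : Submodule.span F ({u, y} : Set (Fin n → F)) ≤ P := by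
    rw [Submodule.span_le]
    rintro x (rfl | rfl)
    · change x ∈ P
      rw [hP, mem_perp_span hF]
      rintro w (rfl | rfl | rfl)
      · exact hu
      · exact huy
      · exact huz
    · change x ∈ P
      rw [hP, mem_perp_span hF]
      rintro w (rfl | rfl | rfl)
      · exact hyu
      · exact hy
      · exact hyz
  have h7 := Submodule.eq_of_le_of_finrank_le h6 (by omega)
  have h8 : v ∈ P := by
    rw [hP, mem_perp_span hF]
    rintro w (rfl | rfl | rfl)
    · exact hvu
    · exact hvy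
    · exact hvz
  rw [← h7] at h8
  obtain ⟨a, b, hab⟩ := Submodule.mem_span_pair.1 h8
  exact ⟨a, b, hab.symm⟩

/-- Half of step 2 in dimension five. -/
theorem half5 (hF : Fintype.card F = q ^ 2) (hn : n = 5) {M : Subgroup (SU n F q)}
    (hG : Good hF M) {u y z : Fin n → F} (hli : LinearIndependent F ![u, y])
    (hu : ⟪u, u⟫ = 0) (hy : ⟪y, y⟫ = 0) (huy : ⟪u, y⟫ = 0)
    (hcon : ∀ a b : F, ¬ Cc hF M (a • u + b • y))
    (hzu : ⟪z, u⟫ = 0) (hzy : ⟪z, y⟫ = 0) (hz : ⟪z, z⟫ = 1) :
    ∃ c ∈ M, act c u = u ∧ act c y = y ∧ ∃ κ : F, κ ≠ 0 ∧ act c z = z + κ • u := by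
  have hli' := LinearIndependent.pair_iff.1 hli
  have hyu : ⟪y, u⟫ = 0 := (hermForm_eq_zero_comm hF).1 huy
  have hyz : ⟪y, z⟫ = 0 := (hermForm_eq_zero_comm hF).1 hzy
  have hu0 : u ≠ 0 := by
    intro h
    have := hli' 1 0 (by rw [h]; module)
    exact one_ne_zero this.1
  have hXu : ¬ Xs hF u hu ≤ M := fun h => by
    apply hcon 1 0
    rw [one_smul, zero_smul, add_zero]
    exact ⟨hu0, hu, h⟩
  obtain ⟨hQ, hlift⟩ := hG u hu0 hu hXu
  obtain ⟨l, hl⟩ := exists_pow_q_ne hF
  obtain ⟨E₁, Z₁, s₁, ξ₁, z₁, hM₁, hE₁, hs₁, hZ₁, hE₁u, hg₁u, hg₁y, hg₁v⟩ :=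
    exists_lift hF hu hy huy hlift (w := z) hzu hzy
  obtain ⟨E₂, Z₂, s₂, ξ₂, z₂, hM₂, hE₂, hs₂, hZ₂, hE₂u, hg₂u, hg₂y, hg₂v⟩ :=
    exists_lift hF hu hy huy hlift (w := l • z) (by rw [hermForm_smul_left, hzu, mul_zero])
      (by rw [hermForm_smul_left, hzy, mul_zero])
  set g₁ := E₁ * Z₁ with hg₁
  set g₂ := E₂ * Z₂ with hg₂
  have hyl : ⟪y, l • z⟫ = 0 := by rw [hermForm_smul_right, hyz, mul_zero]
  obtain ⟨Z', hZ', hc⟩ := comm_mod hF hu hE₁u hE₂u hZ₁ hZ₂
  rw [← hg₁, ← hg₂] at hc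
  clear_value g₁ g₂
  have hcm := hE₁.commutator hF hy hyz hyl hs₁ hs₂ hE₂
  set f := ⟪z, l • z⟫ - ⟪l • z, z⟫ with hf
  have hfl : f = l ^ q - l := by
    rw [hf, hermForm_smul_right, hermForm_smul_left, hz]; ring
  have hf0 : f ≠ 0 := by rw [hfl]; exact sub_ne_zero.2 hl
  set c := g₁ * g₂ * g₁⁻¹ * g₂⁻¹ with hcdef
  have hcM : c ∈ M := M.mul_mem (M.mul_mem (M.mul_mem hM₁ hM₂) (M.inv_mem hM₁)) (M.inv_mem hM₂)
  obtain ⟨z', t', hz', ht', hZe⟩ := hZ'
  have hcm' := (isEich_zero_iff hF _ y f).1 hcm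
  -- action on `u^⊥`
  have hcv : ∀ v, ⟪v, u⟫ = 0 → act c v = v + (f * ⟪v, y⟫) • y - ⟪v, z'⟫ • u := by
    intro v hv
    have e1 : act c v = act (E₁ * E₂ * E₁⁻¹ * E₂⁻¹) (act Z' v) := by rw [hc, act_mul]
    have e2 : act Z' v = v - ⟪v, z'⟫ • u := by rw [hZe v, hv]; module
    rw [e1, e2, hcm', hermForm_sub_left, hermForm_smul_left, huy]
    module
  have hcu : act c u = u := by
    rw [hcv u hu, huy, hz']; module
  have hcy : act c y = y := by
    have e1 : c = (g₁ * g₂) * (g₂ * g₁)⁻¹ := by rw [hcdef]; group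
    have e2 : act (g₁ * g₂) y = act (g₂ * g₁) y := by
      rw [act_mul, act_mul, hg₁y, hg₂y, act_sub, act_sub, act_smul, act_smul, hg₁y, hg₂y, hg₁u,
        hg₂u]
      module
    have e3 : act (g₂ * g₁) u = u := by rw [act_mul, hg₁u, hg₂u]
    have e4 : act (g₂ * g₁) y = y - (ξ₁ + ξ₂) • u := by
      rw [act_mul, hg₁y, act_sub, act_smul, hg₂y, hg₂u]; module
    have e5 : act (g₂ * g₁)⁻¹ y = y + (ξ₁ + ξ₂) • u := by
      have : act (g₂ * g₁) (y + (ξ₁ + ξ₂) • u) = y := by
        rw [act_add, act_smul, e3, e4]; module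
      rw [← this, act_inv_act, this]
    have e6 : act (g₁ * g₂) u = u := by rw [act_mul, hg₂u, hg₁u]
    rw [e1, act_mul, e5, act_add, act_smul, e6, e2, e4]
    module
  refine ⟨c, hcM, hcu, hcy, -⟪z, z'⟫, ?_, ?_⟩
  · intro hk
    have hk' : ⟪z, z'⟫ = 0 := neg_eq_zero.1 hk
    have hcz : act c z = z := by rw [hcv z hzu, hzy, hk']; module
    have hc1 : c = 1 := by
      apply lemE hF hG hli hu hy huy hcon hcM
      intro v hvu hvy
      obtain ⟨a, b, hab⟩ := perp5 hF hn hli hu hy huy hzu hzy hz (v := v - ⟪v, z⟫ • z)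
        (by rw [hermForm_sub_left, hermForm_smul_left, hvu, hzu]; ring)
        (by rw [hermForm_sub_left, hermForm_smul_left, hvy, hzy]; ring)
        (by rw [hermForm_sub_left, hermForm_smul_left, hz]; ring)
      have e : v = a • u + b • y + ⟪v, z⟫ • z := by rw [← hab]; module
      rw [e]
      simp only [act_add, act_smul, hcu, hcy, hcz]
    obtain ⟨vy, hvyu, hvyy⟩ := exists_dual2 hF hli
    have h1 := hcv vy hvyu
    rw [hc1, act_one, hvyy] at h1
    have h2 := hli' (-⟪vy, z'⟫) (f * 1) (by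
      have : -⟪vy, z'⟫ • u + (f * 1) • y = (vy + (f * 1) • y - ⟪vy, z'⟫ • u) - vy := by module
      rw [this, ← h1, sub_self])
    exact hf0 (by simpa using h2.2)
  · rw [hcv z hzu, hzy]; module

/-- Step 2 in dimension five. -/
theorem step2_5 (hF : Fintype.card F = q ^ 2) (hn : n = 5) {M : Subgroup (SU n F q)}
    (hG : Good hF M) : Lines hF M := by
  classical
  intro u y hli hu hy huy
  by_contra hcon
  push Not at hcon
  have hli' := LinearIndependent.pair_iff.1 hli
  have hyu : ⟪y, u⟫ = 0 := (hermForm_eq_zero_comm hF).1 huy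
  have hu0 : u ≠ 0 := by
    intro h
    have := hli' 1 0 (by rw [h]; module)
    exact one_ne_zero this.1
  -- a unit vector
  obtain ⟨z, hzW, hz⟩ : ∃ z ∈ perp q (Submodule.span F ({u, y} : Set (Fin n → F))),
      ⟪z, z⟫ = 1 := by
    set L := Submodule.span F ({u, y} : Set (Fin n → F)) with hL
    by_contra hno
    push Not at hno
    have hle : perp q L ≤ L := by
      conv_rhs => rw [← perp_perp hF L]
      intro x hx w hw
      by_contra hne
      obtain ⟨z, hz, hz1⟩ := exists_unit_mem hF _ hx hw hne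
      exact hno z hz hz1
    have h1 := Submodule.finrank_mono hle
    have h2 := finrank_perp hF L
    have h3 : Module.finrank F L ≤ 2 := by
      have h6 := finrank_span_finset_le_card (R := F) ({u, y} : Finset (Fin n → F))
      have h7 := Finset.card_le_two (a := u) (b := y)
      have hco : (({u, y} : Finset (Fin n → F)) : Set (Fin n → F)) = {u, y} := by simp
      rw [hco] at h6
      change Module.finrank F L ≤ _ at h6
      omega
    omega
  have hz2 := (mem_perp_span hF).1 hzW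
  have hzu := hz2 u (by simp)
  have hzy := hz2 y (by simp)
  obtain ⟨c, hcM, hcu, hcy, κ, hκ, hcz⟩ := half5 hF hn hG hli hu hy huy hcon hzu hzy hz
  obtain ⟨d, hdM, hdy, hdu, κ', hκ', hdz⟩ := half5 hF hn hG (li_swap hli) hy hu hyu
    (fun a b => by rw [add_comm]; exact hcon b a) hzy hzu hz
  obtain ⟨v, hvu, hvy⟩ := exists_dual2 hF hli
  -- the commutator is trivial
  have hcomm : c * d = d * c := by
    have h1 : c * d * c⁻¹ * d⁻¹ = 1 := by
      apply lemE hF hG hli hu hy huy hcon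
        (M.mul_mem (M.mul_mem (M.mul_mem hcM hdM) (M.inv_mem hcM)) (M.inv_mem hdM))
      have key : ∀ x, ⟪x, u⟫ = 0 → ⟪x, y⟫ = 0 → act (c * d) x = act (d * c) x := by
        intro x hxu hxy
        obtain ⟨a, b, hab⟩ := perp5 hF hn hli hu hy huy hzu hzy hz (v := x - ⟪x, z⟫ • z)
          (by rw [hermForm_sub_left, hermForm_smul_left, hxu, hzu]; ring)
          (by rw [hermForm_sub_left, hermForm_smul_left, hxy, hzy]; ring)
          (by rw [hermForm_sub_left, hermForm_smul_left, hz]; ring)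
        have e : x = a • u + b • y + ⟪x, z⟫ • z := by rw [← hab]; module
        rw [e]
        simp only [act_mul, act_add, act_smul, hcu, hcy, hcz, hdu, hdy, hdz]
        module
      intro x hxu hxy
      have e1 : c * d * c⁻¹ * d⁻¹ = (c * d) * (d * c)⁻¹ := by group
      have e2 : act (d * c) u = u := by rw [act_mul, hcu, hdu]
      have e3 : act (d * c) y = y := by rw [act_mul, hcy, hdy]
      rw [e1, act_mul, key, act_act_inv]
      · rw [← act_form (d * c), act_act_inv, e2, hxu]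
      · rw [← act_form (d * c), act_act_inv, e3, hxy]
    rw [mul_inv_eq_one, mul_inv_eq_iff_eq_mul] at h1
    exact h1
  -- the actions on `v`
  obtain ⟨a, b, hab⟩ := perp5 hF hn hli hu hy huy hzu hzy hz (v := act c v - v)
    (by
      rw [hermForm_sub_left]
      nth_rewrite 1 [← hcu]
      rw [act_form, sub_self])
    (by
      rw [hermForm_sub_left]
      nth_rewrite 1 [← hcy]
      rw [act_form, sub_self])
    (by
      have h1 := act_form c v z
      have h2 : ⟪act c v, u⟫ = 0 := by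
        nth_rewrite 1 [← hcu]
        rw [act_form, hvu]
      rw [hcz, hermForm_add_right hF, hermForm_smul_right, h2, mul_zero, add_zero] at h1
      rw [hermForm_sub_left, h1, sub_self])
  obtain ⟨a', b', hab'⟩ := perp5 hF hn hli hu hy huy hzu hzy hz (v := act d v - v + κ' ^ q • z)
    (by
      rw [hermForm_add_left, hermForm_sub_left, hermForm_smul_left, hzu, mul_zero, add_zero]
      nth_rewrite 1 [← hdu]
      rw [act_form, sub_self])
    (by
      rw [hermForm_add_left, hermForm_sub_left, hermForm_smul_left, hzy, mul_zero, add_zero]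
      nth_rewrite 1 [← hdy]
      rw [act_form, sub_self])
    (by
      have h1 := act_form d v z
      have h2 : ⟪act d v, y⟫ = 1 := by
        nth_rewrite 1 [← hdy]
        rw [act_form, hvy]
      rw [hdz, hermForm_add_right hF, hermForm_smul_right, h2, mul_one] at h1
      rw [hermForm_add_left, hermForm_sub_left, hermForm_smul_left, hz]
      linear_combination h1)
  have hcv : act c v = v + (a • u + b • y) := by rw [← hab]; abel
  have hdv : act d v = v + (a' • u + b' • y) - κ' ^ q • z := by rw [← hab']; abel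
  have h1 : act (c * d) v = act (d * c) v := by rw [hcomm]
  rw [act_mul, act_mul, hcv, hdv] at h1
  simp only [act_add, act_sub, act_smul, hcu, hcy, hcz, hdu, hdy, hdv, hcv] at h1
  have h2 : (κ' ^ q * κ) • u = 0 := by
    have : (κ' ^ q * κ) • u = (v + (a' • u + b' • y) - κ' ^ q • z + (a • u + b • y)) -
        (v + (a • u + b • y) + (a' • u + b' • y) - κ' ^ q • (z + κ • u)) := by module
    rw [this, h1, sub_self]
  rcases smul_eq_zero.1 h2 with h3 | h3
  · exact mul_ne_zero (pow_ne_zero _ hκ') hκ h3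
  · exact hu0 h3

end Cfsg.Agent.MinU
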