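import Cfsg.Agent.MinU.Fin
import Cfsg.Agent.MinU.Step1g
import Cfsg.Agent.MinU.Step2b

/-!
# The main theorem from dimension five on
-/

set_option autoImplicit false
set_option linter.unusedSectionVars false

namespace Cfsg.Agent.MinU

open Cfsg.Agent.Uni Finset

variable {F : Type*} [Field F] [Fintype F] {q n m : ℕ}

/-- The main theorem for `SU_n`, `n = m + 2 ≥ 5`. -/
theorem main3 (hF : Fintype.card F = q ^ 2) (hm : 3 ≤ m) (M : Subgroup (SU (m + 2) F q))
    (hM : M ≠ ⊤) :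
    ((q : ℤ) ^ (m + 2) - (-1) ^ m) * ((q : ℤ) ^ (m + 1) + (-1) ^ m) ≤
      (M.index : ℤ) * ((q : ℤ) ^ 2 - 1) ∨
    (q : ℤ) ^ (m + 1) * ((q : ℤ) ^ (m + 2) - (-1) ^ m) ≤ (M.index : ℤ) * ((q : ℤ) + 1) := by
  rcases Nat.lt_or_ge m 4 with hm4 | hm4
  swap
  · exact main hF hm4 M hM
  obtain rfl : m = 3 := by omega
  by_contra hcon
  push Not at hcon
  obtain ⟨hA, hB⟩ := hcon
  have hGood : ∀ k, Good hF (cj k M) := by
    intro k u hu0 hu hX
    exact step1_5 hF (cj k M) (by rw [index_cj]; exact hA) hu0 hu hX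
  have hLines : ∀ k, Lines hF (cj k M) := by
    intro k
    exact step2_5 hF rfl (hGood k)
  obtain ⟨e, e', hee⟩ := exists_e2 hF
  obtain ⟨k, hk1, hk2⟩ := normalise hF (by omega) hee.left_ne hee.1 (by omega) hM
    (fun k => ⟨hGood k, hLines k⟩)
  have hpow : ((-1 : ℤ)) ^ (3 + 2) = (-1) ^ 3 := by norm_num
  have hqpos : (0 : ℤ) < q := by
    have := two_le_q hF
    exact_mod_cast (by omega : 0 < q)
  have hq2 : (0 : ℤ) ≤ (q : ℤ) ^ 2 - 1 := by nlinarith
  rcases fixes_point hF (by omega) hee (hGood k) (hLines k) hk1 hk2 with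
    ⟨r, hr0, hr, hle⟩ | ⟨r, hr, hle⟩
  · have h1 : (PP (q := q) r).index ≤ M.index := by
      rw [← index_cj k M]
      exact Subgroup.index_antitone hle
    have h2 := index_PP_iso hF (by omega) hr0 hr
    rw [hpow, show 3 + 2 - 1 = 3 + 1 by omega] at h2
    have h3 : ((PP (q := q) r).index : ℤ) * ((q : ℤ) ^ 2 - 1) ≤
        (M.index : ℤ) * ((q : ℤ) ^ 2 - 1) := mul_le_mul_of_nonneg_right (by exact_mod_cast h1) hq2
    linarith
  · have h1 : (PP (q := q) r).index ≤ M.index := by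
      rw [← index_cj k M]
      exact Subgroup.index_antitone hle
    have h2 := index_PP_ani hF (by omega) hr
    rw [hpow, show 3 + 2 - 1 = 3 + 1 by omega] at h2
    have h3 : ((PP (q := q) r).index : ℤ) * ((q : ℤ) + 1) ≤
        (M.index : ℤ) * ((q : ℤ) + 1) :=
      mul_le_mul_of_nonneg_right (by exact_mod_cast h1) (by linarith)
    linarith

/-- Isotropic points are optimal. -/
theorem bound_iso3 (hF : Fintype.card F = q ^ 2) (hm : 3 ≤ m) (hcase : 3 ≤ q ∨ Odd m)
    (M : Subgroup (SU (m + 2) F q)) (hM : M ≠ ⊤) {u : Fin (m + 2) → F} (hu0 : u ≠ 0)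
    (hu : hermForm (m + 2) F q u u = 0) : (PP (q := q) u).index ≤ M.index := by
  have hq := two_le_q hF
  have hqz : (2 : ℤ) ≤ q := by exact_mod_cast hq
  have h1 := index_PP_iso hF (by omega) hu0 hu
  have hpow : ((-1 : ℤ)) ^ (m + 2) = (-1) ^ m := by rw [pow_add]; norm_num
  rw [hpow, show m + 2 - 1 = m + 1 by omega] at h1
  have hq2 : (0 : ℤ) < (q : ℤ) ^ 2 - 1 := by nlinarith
  have key : ((q : ℤ) ^ (m + 2) - (-1) ^ m) * ((q : ℤ) ^ (m + 1) + (-1) ^ m) ≤
      (M.index : ℤ) * ((q : ℤ) ^ 2 - 1) := by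
    rcases main3 hF hm M hM with h | h
    · exact h
    · have hc := cmp q ((q : ℤ) ^ (m + 1)) ((-1) ^ m) hqz (by
        calc (2 : ℤ) ≤ q := hqz
          _ = (q : ℤ) ^ 1 := (pow_one _).symm
          _ ≤ (q : ℤ) ^ (m + 1) := pow_le_pow_right₀ (by linarith) (by omega))
        (neg_one_pow_eq_or ℤ m) (by
        rcases hcase with h | h
        · left; exact_mod_cast h
        · right; exact h.neg_one_pow)
      have e1 : (q : ℤ) * (q : ℤ) ^ (m + 1) = (q : ℤ) ^ (m + 2) := by rw [← pow_succ']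
      rw [e1] at hc
      refine hc.trans ?_
      have h2 := mul_le_mul_of_nonneg_left h (by linarith : (0 : ℤ) ≤ q - 1)
      refine h2.trans (le_of_eq ?_)
      ring
  rw [← h1] at key
  have := le_of_mul_le_mul_right key hq2
  exact_mod_cast this

end Cfsg.Agent.MinU
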