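import Mathlib

/-!
# Numerical inequalities
-/

set_option autoImplicit false
set_option maxHeartbeats 1000000

namespace Cfsg.Agent.MinU

theorem num_iso (q Q e : ℤ) (hq : 2 ≤ q) (hQ : q ^ 3 ≤ Q) (he : e = 1 ∨ e = -1) :
    (q ^ 3 * Q - e) * (q ^ 2 * Q + e) * (q * Q - 1) ≤
      (q + 1) * (q ^ 2 - 1) * q ^ 2 * Q * ((q * Q - e) * (Q + e)) := by
  obtain ⟨a, rfl⟩ : ∃ a, q = 2 + a := ⟨q - 2, by ring⟩
  obtain ⟨b, rfl⟩ : ∃ b, Q = (2 + a) ^ 3 + b := ⟨Q - (2 + a) ^ 3, by ring⟩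
  have ha : 0 ≤ a := by linarith
  have hb : 0 ≤ b := by linarith
  rw [← sub_nonneg]
  rcases he with rfl | rfl
  · ring_nf; positivity
  · ring_nf; positivity

theorem num_ani (q Q e : ℤ) (hq : 2 ≤ q) (hQ : q ^ 3 ≤ Q) (he : e = 1 ∨ e = -1) :
    (q ^ 3 * Q - e) * (q ^ 2 * Q + e) * (q * Q - 1) ≤
      (q + 1) * (q ^ 2 - 1) * q ^ 2 * Q * (Q * (q * Q - e)) := by
  obtain ⟨a, rfl⟩ : ∃ a, q = 2 + a := ⟨q - 2, by ring⟩
  obtain ⟨b, rfl⟩ : ∃ b, Q = (2 + a) ^ 3 + b := ⟨Q - (2 + a) ^ 3, by ring⟩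
  have ha : 0 ≤ a := by linarith
  have hb : 0 ≤ b := by linarith
  rw [← sub_nonneg]
  rcases he with rfl | rfl
  · ring_nf; positivity
  · ring_nf; positivity

theorem num_iso' (q Q e : ℤ) (hq : 2 ≤ q) (hQ : q ^ 3 ≤ Q) (he : e = 1 ∨ e = -1) :
    (q ^ 3 * Q - e) * (q ^ 2 * Q + e) ≤ (q * Q - e) * (Q + e) * q * Q ^ 2 := by
  obtain ⟨a, rfl⟩ : ∃ a, q = 2 + a := ⟨q - 2, by ring⟩
  obtain ⟨b, rfl⟩ : ∃ b, Q = (2 + a) ^ 3 + b := ⟨Q - (2 + a) ^ 3, by ring⟩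
  have ha : 0 ≤ a := by linarith
  have hb : 0 ≤ b := by linarith
  rw [← sub_nonneg]
  rcases he with rfl | rfl
  · ring_nf; positivity
  · ring_nf; positivity

theorem num_ani' (q Q e : ℤ) (hq : 2 ≤ q) (hQ : q ^ 3 ≤ Q) (he : e = 1 ∨ e = -1) :
    (q ^ 3 * Q - e) * (q ^ 2 * Q + e) ≤ Q * (q * Q - e) * q * Q ^ 2 := by
  obtain ⟨a, rfl⟩ : ∃ a, q = 2 + a := ⟨q - 2, by ring⟩
  obtain ⟨b, rfl⟩ : ∃ b, Q = (2 + a) ^ 3 + b := ⟨Q - (2 + a) ^ 3, by ring⟩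
  have ha : 0 ≤ a := by linarith
  have hb : 0 ≤ b := by linarith
  rw [← sub_nonneg]
  rcases he with rfl | rfl
  · ring_nf; positivity
  · ring_nf; positivity

/-- From the orbit count to the bound on the relative index. -/
theorem idx_le (q Q e c I j b : ℤ) (hq : 2 ≤ q) (hQ : q ^ 3 ≤ Q) (he : e = 1 ∨ e = -1)
    (hc : c = (q * Q - e) * (Q + e) ∨ c = Q * (q * Q - e)) (hj : j * c ≤ I * (b - 1))
    (hb1 : 1 ≤ b) (hb : b ≤ q * Q)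
    (hI : I * (q ^ 3 * Q ^ 2) * (q ^ 2 - 1) < (q ^ 3 * Q - e) * (q ^ 2 * Q + e) * b) : j ≤ q := by
  have hQ0 : 8 ≤ Q := by nlinarith [mul_self_nonneg (q - 2), mul_pos (by linarith : (0:ℤ) < q) (by nlinarith : (0:ℤ) < q * q)]
  have hq0 : (0 : ℤ) < q := by linarith
  have hqQ : 0 < q * Q := by positivity
  have hq2 : 0 < q ^ 2 - 1 := by nlinarith
  have hee : -1 ≤ e ∧ e ≤ 1 := by rcases he with rfl | rfl <;> norm_num
  have hA : 0 < (q ^ 3 * Q - e) * (q ^ 2 * Q + e) := by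
    have h1 : 1 < q ^ 3 * Q := by nlinarith [pow_pos hq0 3, pow_le_pow_left₀ (by norm_num : (0:ℤ) ≤ 2) hq 3]
    have h2 : 1 < q ^ 2 * Q := by nlinarith [pow_pos hq0 2, pow_le_pow_left₀ (by norm_num : (0:ℤ) ≤ 2) hq 2]
    apply mul_pos <;> linarith [hee.1, hee.2]
  have key : (q ^ 3 * Q - e) * (q ^ 2 * Q + e) * (q * Q - 1) ≤
      (q + 1) * (q ^ 2 - 1) * q ^ 2 * Q * c := by
    rcases hc with rfl | rfl
    · exact num_iso q Q e hq hQ he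
    · exact num_ani q Q e hq hQ he
  have hc0 : 0 < c := by
    rcases hc with rfl | rfl
    · apply mul_pos <;> nlinarith [hee.1, hee.2]
    · apply mul_pos
      · linarith
      · nlinarith [hee.1, hee.2]
  by_contra hcon
  push Not at hcon
  have hj1 : q + 1 ≤ j := hcon
  -- multiply
  have hb1' : 0 ≤ b - 1 := by linarith
  have e1 : (q + 1) * c ≤ I * (b - 1) := le_trans (mul_le_mul_of_nonneg_right hj1 hc0.le) hj
  have hb2 : 0 < b - 1 := by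
    rcases lt_or_eq_of_le hb1' with h | h
    · exact h
    · rw [← h, mul_zero] at e1
      exact absurd e1 (not_le.2 (mul_pos (by linarith) hc0))
  have hpos : 0 < q ^ 3 * Q ^ 2 * (q ^ 2 - 1) := by positivity
  have e2 : (q + 1) * c * (q ^ 3 * Q ^ 2 * (q ^ 2 - 1)) <
      (q ^ 3 * Q - e) * (q ^ 2 * Q + e) * (b * (b - 1)) := by
    calc (q + 1) * c * (q ^ 3 * Q ^ 2 * (q ^ 2 - 1)) ≤
        I * (b - 1) * (q ^ 3 * Q ^ 2 * (q ^ 2 - 1)) := mul_le_mul_of_nonneg_right e1 hpos.le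
      _ = I * (q ^ 3 * Q ^ 2) * (q ^ 2 - 1) * (b - 1) := by ring
      _ < (q ^ 3 * Q - e) * (q ^ 2 * Q + e) * b * (b - 1) := mul_lt_mul_of_pos_right hI hb2
      _ = _ := by ring
  have e3 : b * (b - 1) ≤ q * Q * (q * Q - 1) :=
    mul_le_mul hb (by linarith) hb1' hqQ.le
  have e4 : (q + 1) * c * (q ^ 3 * Q ^ 2 * (q ^ 2 - 1)) <
      (q ^ 3 * Q - e) * (q ^ 2 * Q + e) * (q * Q * (q * Q - 1)) :=
    lt_of_lt_of_le e2 (mul_le_mul_of_nonneg_left e3 hA.le)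
  have e5 : (q ^ 3 * Q - e) * (q ^ 2 * Q + e) * (q * Q - 1) * (q * Q) ≤
      (q + 1) * (q ^ 2 - 1) * q ^ 2 * Q * c * (q * Q) := mul_le_mul_of_nonneg_right key hqQ.le
  have e6 : (q + 1) * c * (q ^ 3 * Q ^ 2 * (q ^ 2 - 1)) =
    (q + 1) * (q ^ 2 - 1) * q ^ 2 * Q * c * (q * Q) := by ring
  have e7 : (q ^ 3 * Q - e) * (q ^ 2 * Q + e) * (q * Q * (q * Q - 1)) =
    (q ^ 3 * Q - e) * (q ^ 2 * Q + e) * (q * Q - 1) * (q * Q) := by ring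
  rw [e6, e7] at e4
  exact absurd e5 (not_le.2 e4)

/-- Small subgroups are impossible. -/
theorem small_absurd (q Q e c I j b : ℤ) (hq : 2 ≤ q) (hQ : q ^ 3 ≤ Q) (he : e = 1 ∨ e = -1)
    (hc : c = (q * Q - e) * (Q + e) ∨ c = Q * (q * Q - e)) (hj : j * c ≤ I * (b - 1))
    (hj1 : 1 ≤ j) (hb1 : 1 ≤ b) (hb : b ≤ q ^ 2)
    (hI : I * (q ^ 3 * Q ^ 2) * (q ^ 2 - 1) < (q ^ 3 * Q - e) * (q ^ 2 * Q + e) * b) : False := by
  have hQ0 : 8 ≤ Q := by nlinarith [mul_self_nonneg (q - 2), mul_pos (by linarith : (0:ℤ) < q) (by nlinarith : (0:ℤ) < q * q)]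
  have hq0 : (0 : ℤ) < q := by linarith
  have hqQ : 0 < q * Q := by positivity
  have hq2 : 0 < q ^ 2 - 1 := by nlinarith
  have hee : -1 ≤ e ∧ e ≤ 1 := by rcases he with rfl | rfl <;> norm_num
  have hA : 0 < (q ^ 3 * Q - e) * (q ^ 2 * Q + e) := by
    have h1 : 1 < q ^ 3 * Q := by nlinarith [pow_pos hq0 3, pow_le_pow_left₀ (by norm_num : (0:ℤ) ≤ 2) hq 3]
    have h2 : 1 < q ^ 2 * Q := by nlinarith [pow_pos hq0 2, pow_le_pow_left₀ (by norm_num : (0:ℤ) ≤ 2) hq 2]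
    apply mul_pos <;> linarith [hee.1, hee.2]
  have key : (q ^ 3 * Q - e) * (q ^ 2 * Q + e) ≤ c * q * Q ^ 2 := by
    rcases hc with rfl | rfl
    · exact num_iso' q Q e hq hQ he
    · exact num_ani' q Q e hq hQ he
  have hc0 : 0 < c := by
    rcases hc with rfl | rfl
    · apply mul_pos <;> nlinarith [hee.1, hee.2]
    · apply mul_pos
      · linarith
      · nlinarith [hee.1, hee.2]
  have hb1' : 0 ≤ b - 1 := by linarith
  have e1 : c ≤ I * (b - 1) := by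
    have : 1 * c ≤ j * c := mul_le_mul_of_nonneg_right hj1 hc0.le
    linarith
  have hb2 : 0 < b - 1 := by
    rcases lt_or_eq_of_le hb1' with h | h
    · exact h
    · rw [← h, mul_zero] at e1
      exact absurd e1 (not_le.2 hc0)
  have hpos : 0 < q ^ 3 * Q ^ 2 * (q ^ 2 - 1) := by positivity
  have e2 : c * (q ^ 3 * Q ^ 2 * (q ^ 2 - 1)) <
      (q ^ 3 * Q - e) * (q ^ 2 * Q + e) * (b * (b - 1)) := by
    calc c * (q ^ 3 * Q ^ 2 * (q ^ 2 - 1)) ≤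
        I * (b - 1) * (q ^ 3 * Q ^ 2 * (q ^ 2 - 1)) := mul_le_mul_of_nonneg_right e1 hpos.le
      _ = I * (q ^ 3 * Q ^ 2) * (q ^ 2 - 1) * (b - 1) := by ring
      _ < (q ^ 3 * Q - e) * (q ^ 2 * Q + e) * b * (b - 1) := mul_lt_mul_of_pos_right hI hb2
      _ = _ := by ring
  have e3 : b * (b - 1) ≤ q ^ 2 * (q ^ 2 - 1) :=
    mul_le_mul hb (by linarith) hb1' (by positivity)
  have e4 : c * (q ^ 3 * Q ^ 2 * (q ^ 2 - 1)) <
      (q ^ 3 * Q - e) * (q ^ 2 * Q + e) * (q ^ 2 * (q ^ 2 - 1)) :=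
    lt_of_lt_of_le e2 (mul_le_mul_of_nonneg_left e3 hA.le)
  have e5 : (q ^ 3 * Q - e) * (q ^ 2 * Q + e) * (q ^ 2 * (q ^ 2 - 1)) ≤
      c * q * Q ^ 2 * (q ^ 2 * (q ^ 2 - 1)) := mul_le_mul_of_nonneg_right key (by positivity)
  have e6 : c * (q ^ 3 * Q ^ 2 * (q ^ 2 - 1)) = c * q * Q ^ 2 * (q ^ 2 * (q ^ 2 - 1)) := by ring
  rw [e6] at e4
  exact absurd e5 (not_le.2 e4)

end Cfsg.Agent.MinU
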