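import Cfsg.Agent.MinU.Orb
import Cfsg.Agent.MinU.Num

/-!
# The stabiliser of a totally isotropic additive subgroup has large index
-/

set_option autoImplicit false
set_option linter.unusedSectionVars false

namespace Cfsg.Agent.MinU

open Cfsg.Agent.Uni Finset

variable {F : Type*} [Field F] [Fintype F] {q n : ℕ}

local notation "⟪" x ", " y "⟫" => hermForm _ _ q x y

theorem rel_ne_zero (N K : Subgroup (SU n F q)) : N.relIndex K ≠ 0 :=
  Subgroup.index_ne_zero_of_finite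

theorem le_of_sq_le {a b : ℕ} (h : a * a ≤ b * b) : a ≤ b := Nat.mul_self_le_mul_self_iff.1 h

/-- If `Q_u` is contained in `K` and `N` has small index in `K`, then `N ∩ Q_u` is large. -/
theorem card_Qs_le (hF : Fintype.card F = q ^ 2) {u : Fin n → F} (hu : ⟪u, u⟫ = 0)
    {N K : Subgroup (SU n F q)} (hj : N.relIndex K ≤ q) :
    Nat.card ↥(K ⊓ Qs hF u hu) ≤ q * Nat.card ↥((N ⊓ K) ⊓ Qs hF u hu) := by
  have h1 := card_eq_relIndex_mul N (K ⊓ Qs hF u hu)
  have h2 : N.relIndex (K ⊓ Qs hF u hu) ≤ N.relIndex K :=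
    Subgroup.relIndex_le_of_le_right inf_le_left (rel_ne_zero N K)
  rw [h1, ← inf_assoc]
  exact Nat.mul_le_mul_right _ (h2.trans hj)

section
variable (hF : Fintype.card F = q ^ 2)
include hF

/-- Step (i): isotropic vectors of `B` are orthogonal to `B`. -/
theorem step_iso (hn : 4 ≤ n) {Y : AddSubgroup F} {s₀ : F} (hs₀ : s₀ ^ q = -s₀) (hY : s₀ ∉ Y)
    {B : AddSubgroup (Fin n → F)} (hBY : ∀ x ∈ B, ∀ y ∈ B, ⟪x, y⟫ - ⟪y, x⟫ ∈ Y)
    {a : Fin n → F} (ha : a ∈ B) (ha0 : a ≠ 0) (haa : ⟪a, a⟫ = 0)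
    (hj : (stabB q B).relIndex (fixs a) ≤ q) : ∀ y ∈ B, ⟪y, a⟫ = 0 := by
  intro y hy
  by_contra hya
  set N := stabB q B with hN
  have hQf : Qs hF a haa ≤ fixs a := by
    rintro g ⟨w, s, hw, hs, h⟩
    exact eich_fix hF h haa hw
  have h1 := card_Qs_le hF haa hj
  rw [inf_eq_right.2 hQf] at h1
  have h2 := card_Qs hF ha0 haa
  have h3 := card_inf_Qs hF ha0 haa (N ⊓ fixs a)
  have hq := two_le_q hF
  -- bound for `WB`
  let C : AddSubgroup (Fin n → F) :=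
    (B ⊓ (vp q a).toAddSubgroup) ⊔ (Submodule.span F {a}).toAddSubgroup
  have hCmem : ∀ x, x ∈ C ↔ ∃ b ∈ B, ⟪b, a⟫ = 0 ∧ ∃ c : F, x = b + c • a := by
    intro x
    rw [AddSubgroup.mem_sup]
    constructor
    · rintro ⟨b, ⟨hb, hb'⟩, z, hz, rfl⟩
      obtain ⟨c, rfl⟩ := Submodule.mem_span_singleton.1 hz
      exact ⟨b, hb, (mem_vp hF).1 hb', c, rfl⟩
    · rintro ⟨b, hb, hb', c, rfl⟩
      exact ⟨b, ⟨hb, (mem_vp hF).2 hb'⟩, c • a,
        Submodule.smul_mem _ _ (Submodule.mem_span_singleton_self a), rfl⟩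
  have hCcard : Nat.card C ≤ q ^ n := by
    have h4 := ti_bound hF Y hs₀ hY (vp q a) C (by
      intro x hx
      obtain ⟨b, hb, hb', c, rfl⟩ := (hCmem x).1 hx
      rw [mem_vp hF, hermForm_add_left, hermForm_smul_left, haa, hb', mul_zero, add_zero]) (by
      intro x hx z hz
      obtain ⟨b, hb, hb', c, rfl⟩ := (hCmem x).1 hx
      obtain ⟨b', hb2, hb2', c', rfl⟩ := (hCmem z).1 hz
      have e1 : ⟪a, b⟫ = 0 := (hermForm_eq_zero_comm hF).1 hb'
      have e2 : ⟪a, b'⟫ = 0 := (hermForm_eq_zero_comm hF).1 hb2'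
      have e3 : ⟪b + c • a, b' + c' • a⟫ - ⟪b' + c' • a, b + c • a⟫ = ⟪b, b'⟫ - ⟪b', b⟫ := by
        simp only [hermForm_add_left, hermForm_add_right hF, hermForm_smul_left,
          hermForm_smul_right, hb', hb2', e1, e2, haa]
        ring
      rw [e3]
      exact hBY b hb b' hb2)
    rw [vp_inf_perp hF haa, card_vp hF ha0, card_span_one hF ha0, ← pow_add] at h4
    apply le_of_sq_le
    rw [← pow_add]
    refine h4.trans (le_of_eq ?_)
    congr 1
    omega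
  have hWB : Nat.card (WB hF a haa (N ⊓ fixs a)) ≤ q ^ n := by
    refine le_trans ?_ hCcard
    have hmem : ∀ w : WB hF a haa (N ⊓ fixs a), ⟪y, a⟫ • (w : Fin n → F) ∈ C := by
      rintro ⟨w, hw, g, hg, s, hs, h⟩
      have h5 : act g y ∈ B := hg.1 y hy
      rw [hCmem]
      have hwa : ⟪w, a⟫ = 0 := (hermForm_eq_zero_comm hF).1 hw
      refine ⟨act g y - y, B.sub_mem h5 hy, ?_, ⟪y, w⟫ - s * ⟪y, a⟫, ?_⟩
      · rw [h y]
        simp only [hermForm_add_left, hermForm_sub_left, hermForm_smul_left, hwa, haa]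
        ring
      · rw [h y]
        module
    refine Nat.card_le_card_of_injective
      (fun w => (⟨⟪y, a⟫ • (w : Fin n → F), hmem w⟩ : C)) ?_
    intro w w' hww
    have h6 : ⟪y, a⟫ • (w : Fin n → F) = ⟪y, a⟫ • (w' : Fin n → F) := congrArg Subtype.val hww
    exact Subtype.ext (smul_right_injective _ hya h6)
  have hXs : Nat.card ↥((N ⊓ fixs a) ⊓ Xs hF a haa) ≤ q := by
    exact (Subgroup.card_le_of_le inf_le_right).trans (card_Xs hF ha0 haa).le
  -- numerical contradiction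
  have h7 : q ^ (2 * n - 1) ≤ q ^ (n + 2) := by
    calc q ^ (2 * n - 1) = q * q ^ (2 * (n - 1)) := by
          rw [← pow_succ']; congr 1; omega
      _ = Nat.card (Qs hF a haa) * q ^ 2 := h2.symm
      _ ≤ (q * Nat.card ↥((N ⊓ fixs a) ⊓ Qs hF a haa)) * q ^ 2 := Nat.mul_le_mul_right _ h1
      _ = q * (Nat.card ↥((N ⊓ fixs a) ⊓ Qs hF a haa) * q ^ 2) := by ring
      _ = q * (Nat.card ↥((N ⊓ fixs a) ⊓ Xs hF a haa) *
            Nat.card (WB hF a haa (N ⊓ fixs a))) := by rw [h3]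
      _ ≤ q * (q * q ^ n) := Nat.mul_le_mul_left _ (Nat.mul_le_mul hXs hWB)
      _ = q ^ (n + 2) := by ring
  have h8 := (Nat.pow_le_pow_iff_right (by omega : 1 < q)).1 h7
  omega

/-- Step (ii a): all transvections centred in `a^⊥`. -/
theorem step_ani (hn : 4 ≤ n) {N : Subgroup (SU n F q)} {a : Fin n → F} (haa : ⟪a, a⟫ ≠ 0)
    (hj : N.relIndex (fixs a) ≤ q) {r : Fin n → F} (hr0 : r ≠ 0) (hr : ⟪r, r⟫ = 0)
    (hra : ⟪r, a⟫ = 0) : Xs hF r hr ≤ N := by
  by_contra hcon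
  have hq := two_le_q hF
  have hXf := Xs_le_fixs hF hr hra
  have hcon' : ¬ Xs hF r hr ≤ N ⊓ fixs a := fun h => hcon (h.trans inf_le_left)
  have h1 := card_Qs_le hF hr hj
  have h2 := card_Qs_fixs hF hr0 hr hra haa
  have h3 := card_inf_Qs hF hr0 hr (N ⊓ fixs a)
  have h4 := WB_bound hF hr hcon' (vp q r ⊓ vp q a) (by
    intro w hw
    obtain ⟨e1, g, hg, s, hs, h⟩ := hw
    have : w ∈ WB hF r hr (fixs a) := ⟨e1, g, hg.2, s, hs, h⟩
    rw [mem_WB_fixs hF hr0 hr hra] at this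
    exact ⟨(mem_vp' hF).2 this.1, (mem_vp' hF).2 this.2⟩)
  rw [(card_vp2 hF hr0 hr haa).1, (card_vp2 hF hr0 hr haa).2 hra, card_span_one hF hr0,
    ← pow_add] at h4
  have h5 : Nat.card (WB hF r hr (N ⊓ fixs a)) ≤ q ^ (n - 1) := by
    apply le_of_sq_le
    rw [← pow_add]
    refine h4.trans (le_of_eq ?_)
    congr 1
    omega
  have h6 : Nat.card ↥((N ⊓ fixs a) ⊓ Xs hF r hr) < q := by
    refine lt_of_lt_of_eq ?_ (card_Xs hF hr0 hr)
    refine lt_of_le_of_ne (Subgroup.card_le_of_le inf_le_right) fun h => hcon' ?_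
    have := Subgroup.eq_of_le_of_card_ge (inf_le_right : (N ⊓ fixs a) ⊓ Xs hF r hr ≤ _) h.ge
    rw [← this]
    exact inf_le_left
  have h7 : q ^ (2 * n - 3) < q ^ (n + 1) := by
    calc q ^ (2 * n - 3) = q * q ^ (2 * (n - 2)) := by
          rw [← pow_succ']; congr 1; omega
      _ = Nat.card ↥(fixs a ⊓ Qs hF r hr) * q ^ 2 := h2.symm
      _ ≤ (q * Nat.card ↥((N ⊓ fixs a) ⊓ Qs hF r hr)) * q ^ 2 := Nat.mul_le_mul_right _ h1
      _ = q * (Nat.card ↥((N ⊓ fixs a) ⊓ Qs hF r hr) * q ^ 2) := by ring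
      _ = q * (Nat.card ↥((N ⊓ fixs a) ⊓ Xs hF r hr) *
            Nat.card (WB hF r hr (N ⊓ fixs a))) := by rw [h3]
      _ ≤ q * (Nat.card ↥((N ⊓ fixs a) ⊓ Xs hF r hr) * q ^ (n - 1)) :=
          Nat.mul_le_mul_left _ (Nat.mul_le_mul_left _ h5)
      _ < q * (q * q ^ (n - 1)) := by
          apply Nat.mul_lt_mul_of_pos_left
          · exact Nat.mul_lt_mul_of_pos_right h6 (pow_pos (by omega) _)
          · omega
      _ = q ^ (n + 1) := by
          rw [← pow_succ', ← pow_succ']; congr 1; omega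
  have h8 := (Nat.pow_lt_pow_iff_right (by omega : 1 < q)).1 h7
  omega

/-- The transvection element. -/
theorem exists_Xs {u : Fin n → F} (hu : ⟪u, u⟫ = 0) {s : F} (hs : s ^ q = -s) :
    ∃ g ∈ Xs hF u hu, ∀ x, act g x = x + (s * ⟪x, u⟫) • u := by
  obtain ⟨g, hg⟩ := exists_eich hF u 0 s hu (hermForm_zero_right hF u)
    (by rw [hermForm_zero_right hF, hs]; ring)
  exact ⟨g, ⟨s, hs, hg⟩, (isEich_zero_iff hF g u s).1 hg⟩

theorem mem_Xs_act {u : Fin n → F} {hu : ⟪u, u⟫ = 0} {g : SU n F q} (hg : g ∈ Xs hF u hu) :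
    ∃ s : F, s ^ q = -s ∧ ∀ x, act g x = x + (s * ⟪x, u⟫) • u := by
  obtain ⟨s, hs, h⟩ := hg
  exact ⟨s, hs, (isEich_zero_iff hF g u s).1 h⟩

/-- Step (ii b) -/
theorem step_ani2 (hn : 4 ≤ n) {B : AddSubgroup (Fin n → F)}
    (hiso : ∀ a ∈ B, a ≠ 0 → ⟪a, a⟫ = 0 → ∀ y ∈ B, ⟪y, a⟫ = 0)
    {a : Fin n → F} (haa : ⟪a, a⟫ ≠ 0)
    (hj : (stabB q B).relIndex (fixs a) ≤ q) : ∀ y ∈ B, y ∈ Submodule.span F {a} := by
  intro y hy
  by_contra hya
  have ha0 : a ≠ 0 := by rintro rfl; exact haa (hermForm_zero_left _)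
  set c := ⟪y, a⟫ / ⟪a, a⟫ with hc
  set y' := y - c • a with hy'
  have hy'a : ⟪y', a⟫ = 0 := by
    rw [hy', hermForm_sub_left, hermForm_smul_left, hc, div_mul_cancel₀ _ haa, sub_self]
  have hy'0 : y' ≠ 0 := by
    intro h
    apply hya
    rw [sub_eq_zero.1 h]
    exact Submodule.smul_mem _ _ (Submodule.mem_span_singleton_self a)
  obtain ⟨r, hr, hrr, hyr⟩ := exists_iso_ne hF (nd_vp hF haa)
    (by rw [finrank_vp hF ha0]; omega) ((mem_vp hF).2 hy'a) hy'0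
  have hr0 : r ≠ 0 := by rintro rfl; exact hyr (hermForm_zero_right hF _)
  have hra : ⟪r, a⟫ = 0 := (mem_vp hF).1 hr
  have hX := step_ani hF hn haa hj hr0 hrr hra
  obtain ⟨s, hs0, hs⟩ := exists_skew hF
  obtain ⟨g, hg, hga⟩ := exists_Xs hF hrr hs
  have h1 : act g y ∈ B := hX hg y hy
  have har : ⟪a, r⟫ = 0 := (hermForm_eq_zero_comm hF).1 hra
  have hyr' : ⟪y, r⟫ = ⟪y', r⟫ := by
    rw [hy', hermForm_sub_left, hermForm_smul_left, har, mul_zero, sub_zero]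
  have h2 : (s * ⟪y, r⟫) • r ∈ B := by
    have : (s * ⟪y, r⟫) • r = act g y - y := by rw [hga]; abel
    rw [this]
    exact B.sub_mem h1 hy
  have hs1 : s * ⟪y, r⟫ ≠ 0 := mul_ne_zero hs0 (by rw [hyr']; exact hyr)
  have h3 := hiso _ h2 (smul_ne_zero hs1 hr0)
    (by rw [hermForm_smul_left, hermForm_smul_right, hrr, mul_zero, mul_zero]) y hy
  rw [hermForm_smul_right] at h3
  rcases mul_eq_zero.1 h3 with h4 | h4
  · exact hs1 (pow_q_eq_zero hF |>.1 h4)
  · rw [hyr'] at h4; exact hyr h4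

/-- Step (iii) -/
theorem step_ti (hn : 4 ≤ n) {B : AddSubgroup (Fin n → F)}
    (hti : ∀ x ∈ B, ∀ y ∈ B, ⟪x, y⟫ = 0) {a : Fin n → F} (ha : a ∈ B) (ha0 : a ≠ 0)
    (hj : (stabB q B).relIndex (fixs a) ≤ q) : ∀ y ∈ B, y ∈ Submodule.span F {a} := by
  classical
  intro y hy
  by_contra hya
  have haa : ⟪a, a⟫ = 0 := hti a ha a ha
  have hyy : ⟪y, y⟫ = 0 := hti y hy y hy
  have hay : ⟪a, y⟫ = 0 := hti a ha y hy
  obtain ⟨b, hb⟩ := exists_hyp' hF ha0 haa
  set y' := y - ⟪y, b⟫ • a with hy'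
  have hy'a : ⟪y', a⟫ = 0 := by
    rw [hy', hermForm_sub_left, hermForm_smul_left, haa, hti y hy a ha, mul_zero, sub_zero]
  have hy'b : ⟪y', b⟫ = 0 := by
    rw [hy', hermForm_sub_left, hermForm_smul_left, hb.2.2, mul_one, sub_self]
  have hy'y : ⟪y', y'⟫ = 0 := by
    simp only [hy', hermForm_sub_left, hermForm_sub_right hF, hermForm_smul_left,
      hermForm_smul_right, haa, hyy, hay, hti y hy a ha]
    ring
  have hy'0 : y' ≠ 0 := by
    intro h
    apply hya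
    rw [sub_eq_zero.1 h]
    exact Submodule.smul_mem _ _ (Submodule.mem_span_singleton_self a)
  have hnd := (hb.nd hF).perp hF
  have hmem : y' ∈ perp q (Submodule.span F {a, b}) :=
    (Uni.Hyp.mem_perp_iff hF).2 ⟨hy'a, hy'b⟩
  obtain ⟨x, hx, hyx⟩ : ∃ x ∈ perp q (Submodule.span F {a, b}), ⟪y', x⟫ ≠ 0 := by
    by_contra hcon
    push Not at hcon
    exact hy'0 (hnd y' hmem hcon)
  obtain ⟨c, d, hc0, h1, h2⟩ := exists_hyp hF hy'y hyx
  set r := c • x + d • y' with hr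
  have hrmem : r ∈ perp q (Submodule.span F {a, b}) :=
    Submodule.add_mem _ (Submodule.smul_mem _ _ hx) (Submodule.smul_mem _ _ hmem)
  rw [Uni.Hyp.mem_perp_iff hF] at hrmem
  have hH : Hyp q y' r := ⟨hy'y, h1, h2⟩
  have hr0 : r ≠ 0 := (hH.symm hF).left_ne
  set N := stabB q B with hN
  -- `X_r ∩ N = 1`
  have hyr : ⟪y, r⟫ = 1 := by
    have : y = y' + ⟪y, b⟫ • a := by rw [hy']; abel
    rw [this, hermForm_add_left, hermForm_smul_left, h2,
      (hermForm_eq_zero_comm hF).1 hrmem.1, mul_zero, add_zero]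
  have hXN : ∀ g ∈ Xs hF r h1, g ∈ N → g = 1 := by
    intro g hg hgN
    obtain ⟨s, hs, hga⟩ := mem_Xs_act hF hg
    have h3 : act g y ∈ B := hgN y hy
    rw [hga, hyr, mul_one] at h3
    have h4 : s • r ∈ B := by
      have : s • r = y + s • r - y := by abel
      rw [this]
      exact B.sub_mem h3 hy
    have h5 := hti y hy _ h4
    rw [hermForm_smul_right, hyr, mul_one] at h5
    have h6 : s = 0 := (pow_q_eq_zero hF).1 h5
    apply act_ext
    intro z
    rw [hga, h6, act_one]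
    module
  -- `X_{y'} ≤ N ∩ fixs a`
  have hXy : Xs hF y' hy'y ≤ N := by
    intro g hg z hz
    obtain ⟨s, hs, hga⟩ := mem_Xs_act hF hg
    have h3 : ⟪z, y'⟫ = 0 := by
      rw [hy', hermForm_sub_right hF, hermForm_smul_right, hti z hz y hy, hti z hz a ha]
      ring
    rw [hga, h3, mul_zero, zero_smul, add_zero]
    exact hz
  -- the flip
  obtain ⟨k, hk0, hk⟩ := exists_skew hF
  obtain ⟨t, -, ht1, ht2, ht3⟩ := exists_flip hF hH hk0 hk
  have hta : act t a = a := ht3 a ((hermForm_eq_zero_comm hF).1 hy'a)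
    ((hermForm_eq_zero_comm hF).1 hrmem.1)
  have hrf : Xs hF r h1 ≤ fixs a := Xs_le_fixs hF h1 hrmem.1
  -- cosets
  have hcos : ∃ x ∈ Xs hF r h1, x⁻¹ * t⁻¹ ∈ N := by
    by_contra hcon
    push Not at hcon
    let f : Option (Xs hF r h1) → (fixs (q := q) a) ⧸ (N.subgroupOf (fixs a)) := fun o =>
      match o with
      | none => QuotientGroup.mk ⟨t⁻¹, (fixs a).inv_mem hta⟩
      | some x => QuotientGroup.mk ⟨x.1, hrf x.2⟩
    have hf : Function.Injective f := by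
      intro o o' hoo
      rcases o with _ | x <;> rcases o' with _ | x'
      · rfl
      · exfalso
        have h3 := (QuotientGroup.eq.1 hoo.symm)
        rw [Subgroup.mem_subgroupOf] at h3
        exact hcon x'.1 x'.2 h3
      · exfalso
        have h3 := (QuotientGroup.eq.1 hoo)
        rw [Subgroup.mem_subgroupOf] at h3
        exact hcon x.1 x.2 h3
      · congr 1
        have h3 := (QuotientGroup.eq.1 hoo)
        rw [Subgroup.mem_subgroupOf] at h3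
        have h4 := hXN _ ((Xs hF r h1).mul_mem ((Xs hF r h1).inv_mem x.2) x'.2) h3
        exact Subtype.ext (inv_mul_eq_one.1 h4)
    have h3 := Nat.card_le_card_of_injective f hf
    rw [Finite.card_option, card_Xs hF hr0 h1] at h3
    have h4 : Nat.card ((fixs (q := q) a) ⧸ (N.subgroupOf (fixs a))) = N.relIndex (fixs a) := rfl
    rw [h4] at h3
    omega
  obtain ⟨x₁, hx₁, hx₁N⟩ := hcos
  -- `t X_r t⁻¹ = X_{y'}` meets `N` trivially
  obtain ⟨g, hg, hga⟩ := exists_Xs hF h1 hk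
  have hconj : t * g * t⁻¹ ∈ Xs hF y' hy'y := by
    obtain ⟨s, hs, h⟩ := hg
    have h3 := h.conj t
    rw [act_zero, ht2, isEich_smul hF] at h3
    refine ⟨_, ?_, h3⟩
    rw [mul_pow, hs, norm_pow_q hF]; ring
  have h5 : t * g * t⁻¹ ∈ N := hXy hconj
  have h6 : x₁⁻¹ * t⁻¹ * (t * g * t⁻¹) * (x₁⁻¹ * t⁻¹)⁻¹ ∈ N :=
    N.mul_mem (N.mul_mem hx₁N h5) (N.inv_mem hx₁N)
  have h7 : x₁⁻¹ * t⁻¹ * (t * g * t⁻¹) * (x₁⁻¹ * t⁻¹)⁻¹ = x₁⁻¹ * g * x₁ := by group
  rw [h7] at h6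
  have h8 := hXN _ ((Xs hF r h1).mul_mem ((Xs hF r h1).mul_mem ((Xs hF r h1).inv_mem hx₁) hg) hx₁) h6
  have h9 : g = 1 := by
    have : g = x₁ * (x₁⁻¹ * g * x₁) * x₁⁻¹ := by group
    rw [this, h8]; group
  have h10 := hga y
  rw [h9, act_one, hyr, mul_one] at h10
  have h11 : k • r = 0 := by
    have : k • r = (y + k • r) - y := by abel
    rw [this, ← h10, sub_self]
  rcases smul_eq_zero.1 h11 with h12 | h12
  · exact hk0 h12
  · exact hr0 h12

end

/-- The main lemma on additive subgroups. -/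
theorem lemA (hF : Fintype.card F = q ^ 2) (hn : 4 ≤ n) {Y : AddSubgroup F} {s₀ : F}
    (hs₀ : s₀ ^ q = -s₀) (hY : s₀ ∉ Y) {B : AddSubgroup (Fin n → F)} (hB : B ≠ ⊥)
    (hBY : ∀ x ∈ B, ∀ y ∈ B, ⟪x, y⟫ - ⟪y, x⟫ ∈ Y) :
    ((q : ℤ) ^ (n + 2) - (-1) ^ n) * ((q : ℤ) ^ (n + 1) + (-1) ^ n) * Nat.card B ≤
      ((stabB q B).index : ℤ) * q ^ (2 * n + 1) * ((q : ℤ) ^ 2 - 1) := by
  by_contra hI
  push Not at hI
  have hq := two_le_q hF
  have hqz : (2 : ℤ) ≤ q := by exact_mod_cast hq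
  set Q : ℤ := (q : ℤ) ^ (n - 1) with hQdef
  have hQ3 : (q : ℤ) ^ 3 ≤ Q := pow_le_pow_right₀ (by linarith) (by omega)
  have hqn : (q : ℤ) ^ n = q * Q := by rw [hQdef, ← pow_succ']; congr 1; omega
  have hqn1 : (q : ℤ) ^ (n + 1) = q ^ 2 * Q := by
    rw [hQdef, ← pow_add]; congr 1; omega
  have hqn2 : (q : ℤ) ^ (n + 2) = q ^ 3 * Q := by
    rw [hQdef, ← pow_add]; congr 1; omega
  have hqn3 : (q : ℤ) ^ (2 * n + 1) = q ^ 3 * Q ^ 2 := by
    rw [hQdef, ← pow_mul, ← pow_add]; congr 1; omega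
  rw [hqn1, hqn2, hqn3] at hI
  set e : ℤ := (-1) ^ n with hedef
  have he : e = 1 ∨ e = -1 := neg_one_pow_eq_or ℤ n
  have hBcard : Nat.card B ≤ q ^ n := by
    have h := ti_bound hF Y hs₀ hY ⊤ B (fun x _ => Submodule.mem_top) hBY
    have h1 : Nat.card (⊤ : Submodule F (Fin n → F)) = q ^ (2 * n) := by
      rw [card_submod hF, finrank_top, Module.finrank_fin_fun]
    have h2 : (⊤ : Submodule F (Fin n → F)) ⊓ perp q ⊤ = ⊥ := (nd_iff_inf ⊤).1 (nd_top hF)
    rw [h1, h2] at h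
    have h3 : Nat.card (⊥ : Submodule F (Fin n → F)) = 1 := by
      rw [card_submod hF, finrank_bot]; rfl
    rw [h3, mul_one] at h
    apply le_of_sq_le
    rw [← pow_add]
    exact h.trans (le_of_eq (by congr 1; omega))
  have hBz : (Nat.card B : ℤ) ≤ q * Q := by rw [← hqn]; exact_mod_cast hBcard
  have hB1 : (1 : ℤ) ≤ Nat.card B := by
    have : 0 < Nat.card B := Nat.card_pos
    exact_mod_cast this
  -- orbit counts
  have hcount : ∀ a ∈ B, a ≠ 0 → ∃ c : ℤ, (c = (q * Q - e) * (Q + e) ∨ c = Q * (q * Q - e)) ∧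
      ((stabB q B).relIndex (fixs a) : ℤ) * c ≤ ((stabB q B).index : ℤ) * (Nat.card B - 1) := by
    intro a ha ha0
    have h1 := inf_index (stabB q B) (fixs a)
    have h2 := relIndex_fixs_le (q := q) ha ha0
    have h3 : ((fixs (q := q) a).relIndex (stabB q B) : ℤ) ≤ Nat.card B - 1 := by
      have : (((fixs (q := q) a).relIndex (stabB q B) + 1 : ℕ) : ℤ) ≤ Nat.card B := by
        exact_mod_cast h2
      push_cast at this
      linarith
    refine ⟨((fixs (q := q) a).index : ℤ), ?_, ?_⟩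
    · by_cases haa : ⟪a, a⟫ = 0
      · left
        rw [index_fixs_iso hF (by omega) ha0 haa]
        have h4 := cnt_zero_sub_one hF (F := F) (q := q) (n - 1)
        rw [show n - 1 + 1 = n by omega] at h4
        rw [h4, hqn]
      · right
        rw [index_fixs_ani hF (by omega) haa]
        have h4 := (cnt_closed hF (F := F) (q := q) n).2
        have hq0 : (q : ℤ) ≠ 0 := by linarith
        apply mul_left_cancel₀ hq0
        rw [h4, hqn]; ring
    · have h5 : ((stabB q B).relIndex (fixs a) : ℤ) * ((fixs (q := q) a).index : ℤ) =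
          ((fixs (q := q) a).relIndex (stabB q B) : ℤ) * ((stabB q B).index : ℤ) := by
        exact_mod_cast h1
      rw [h5, mul_comm]
      exact mul_le_mul_of_nonneg_left h3 (by positivity)
  have hidx : ∀ a ∈ B, a ≠ 0 → (stabB q B).relIndex (fixs a) ≤ q := by
    intro a ha ha0
    obtain ⟨c, hc, hc'⟩ := hcount a ha ha0
    have := idx_le q Q e c _ _ _ hqz hQ3 he hc hc' hB1 hBz hI
    exact_mod_cast this
  have hsmall : ∀ a ∈ B, a ≠ 0 → (∀ y ∈ B, y ∈ Submodule.span F {a}) → False := by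
    intro a ha ha0 hs
    obtain ⟨c, hc, hc'⟩ := hcount a ha ha0
    have h1 : Nat.card B ≤ q ^ 2 := by
      rw [← card_span_one hF ha0]
      have : B ≤ (Submodule.span F {a}).toAddSubgroup := fun y hy => hs y hy
      exact AddSubgroup.card_le_of_le this
    have h2 : (1 : ℤ) ≤ (stabB q B).relIndex (fixs a) := by
      have : 0 < (stabB q B).relIndex (fixs a) := Nat.pos_of_ne_zero (rel_ne_zero _ _)
      exact_mod_cast this
    exact small_absurd q Q e c _ _ _ hqz hQ3 he hc hc' h2 hB1 (by exact_mod_cast h1) hI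
  have hiso : ∀ a ∈ B, a ≠ 0 → ⟪a, a⟫ = 0 → ∀ y ∈ B, ⟪y, a⟫ = 0 := fun a ha ha0 haa =>
    step_iso hF hn hs₀ hY hBY ha ha0 haa (hidx a ha ha0)
  by_cases hex : ∃ a ∈ B, ⟪a, a⟫ ≠ 0
  · obtain ⟨a, ha, haa⟩ := hex
    have ha0 : a ≠ 0 := by rintro rfl; exact haa (hermForm_zero_left _)
    exact hsmall a ha ha0 (step_ani2 hF hn hiso haa (hidx a ha ha0))
  · push Not at hex
    have hti : ∀ x ∈ B, ∀ y ∈ B, ⟪x, y⟫ = 0 := by
      intro x hx y hy
      by_cases hy0 : y = 0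
      · rw [hy0, hermForm_zero_right hF]
      · exact hiso y hy hy0 (hex y hy) x hx
    obtain ⟨a, ha, ha0⟩ := (AddSubgroup.ne_bot_iff_exists_ne_zero.1 hB : ∃ a : B, a ≠ 0) |>.elim
      fun a h => (⟨a.1, a.2, fun h' => h (Subtype.ext h')⟩ : ∃ a ∈ B, a ≠ 0)
    exact hsmall a ha ha0 (step_ti hF hn hti ha ha0 (hidx a ha ha0))

end Cfsg.Agent.MinU
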