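import Cfsg.Agent.MinU.Std

/-!
# The additive subgroup lemma in dimension three
-/

set_option autoImplicit false
set_option linter.unusedSectionVars false

namespace Cfsg.Agent.MinU

open Cfsg.Agent.Uni Finset

variable {F : Type*} [Field F] [Fintype F] {q n : ℕ}

local notation "⟪" x ", " y "⟫" => hermForm _ _ q x y

/-- For isotropic `a ∈ B` not orthogonal to `B` the relative index is large. -/
theorem iso_idx (hF : Fintype.card F = q ^ 2) (hn : 2 ≤ n) {Y : AddSubgroup F} {s₀ : F}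
    (hs₀ : s₀ ^ q = -s₀) (hY : s₀ ∉ Y)
    {B : AddSubgroup (Fin n → F)} (hBY : ∀ x ∈ B, ∀ y ∈ B, ⟪x, y⟫ - ⟪y, x⟫ ∈ Y)
    {a : Fin n → F} (ha0 : a ≠ 0) (haa : ⟪a, a⟫ = 0) {y : Fin n → F} (hy : y ∈ B)
    (hya : ⟪y, a⟫ ≠ 0) : q ^ (n - 2) ≤ (stabB q B).relIndex (fixs a) := by
  set N := stabB q B with hN
  have hQf : Qs hF a haa ≤ fixs a := Qs_le_fixs hF haa
  have h1 : Nat.card (Qs hF a haa) ≤ N.relIndex (fixs a) *
      Nat.card ↥((N ⊓ fixs a) ⊓ Qs hF a haa) := by
    have e1 := card_eq_relIndex_mul N (Qs hF a haa)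
    have e2 : N.relIndex (Qs hF a haa) ≤ N.relIndex (fixs a) :=
      Subgroup.relIndex_le_of_le_right hQf (rel_ne_zero N _)
    have e3 : (N ⊓ fixs a) ⊓ Qs hF a haa = N ⊓ Qs hF a haa := by
      rw [inf_assoc, inf_eq_right.2 hQf]
    rw [e1, e3]
    exact Nat.mul_le_mul_right _ e2
  have h2 := card_Qs hF ha0 haa
  have h3 := card_inf_Qs hF ha0 haa (N ⊓ fixs a)
  have hq := two_le_q hF
  let C : AddSubgroup (Fin n → F) :=
    (B ⊓ (vp q a).toAddSubgroup) ⊔ (Submodule.span F {a}).toAddSubgroup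
  have hCmem : ∀ x, x ∈ C ↔ ∃ b ∈ B, ⟪b, a⟫ = 0 ∧ ∃ c : F, x = b + c • a := by
    intro x
    rw [AddSubgroup.mem_sup]
    constructor
    · rintro ⟨b, ⟨hb, hb'⟩, z, hz, rfl⟩
      obtain ⟨c, rfl⟩ := Submodule.mem_span_singleton.1 hz
      exact ⟨b, hb, (mem_vp hF).1 hb', c, rfl⟩
    · rintro ⟨b, hb, hb', c, rfl⟩
      exact ⟨b, ⟨hb, (mem_vp hF).2 hb'⟩, c • a,
        Submodule.smul_mem _ _ (Submodule.mem_span_singleton_self a), rfl⟩
  have hCcard : Nat.card C ≤ q ^ n := by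
    have h4 := ti_bound hF Y hs₀ hY (vp q a) C (by
      intro x hx
      obtain ⟨b, hb, hb', c, rfl⟩ := (hCmem x).1 hx
      rw [mem_vp hF, hermForm_add_left, hermForm_smul_left, haa, hb', mul_zero, add_zero]) (by
      intro x hx z hz
      obtain ⟨b, hb, hb', c, rfl⟩ := (hCmem x).1 hx
      obtain ⟨b', hb2, hb2', c', rfl⟩ := (hCmem z).1 hz
      have e1 : ⟪a, b⟫ = 0 := (hermForm_eq_zero_comm hF).1 hb'
      have e2 : ⟪a, b'⟫ = 0 := (hermForm_eq_zero_comm hF).1 hb2'
      have e3 : ⟪b + c • a, b' + c' • a⟫ - ⟪b' + c' • a, b + c • a⟫ = ⟪b, b'⟫ - ⟪b', b⟫ := by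
        simp only [hermForm_add_left, hermForm_add_right hF, hermForm_smul_left,
          hermForm_smul_right, hb', hb2', e1, e2, haa]
        ring
      rw [e3]
      exact hBY b hb b' hb2)
    rw [vp_inf_perp hF haa, card_vp hF ha0, card_span_one hF ha0, ← pow_add] at h4
    apply le_of_sq_le
    rw [← pow_add]
    refine h4.trans (le_of_eq ?_)
    congr 1
    omega
  have hWB : Nat.card (WB hF a haa (N ⊓ fixs a)) ≤ q ^ n := by
    refine le_trans ?_ hCcard
    have hmem : ∀ w : WB hF a haa (N ⊓ fixs a), ⟪y, a⟫ • (w : Fin n → F) ∈ C := by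
      rintro ⟨w, hw, g, hg, s, hs, h⟩
      have h5 : act g y ∈ B := hg.1 y hy
      rw [hCmem]
      have hwa : ⟪w, a⟫ = 0 := (hermForm_eq_zero_comm hF).1 hw
      refine ⟨act g y - y, B.sub_mem h5 hy, ?_, ⟪y, w⟫ - s * ⟪y, a⟫, ?_⟩
      · rw [h y]
        simp only [hermForm_add_left, hermForm_sub_left, hermForm_smul_left, hwa, haa]
        ring
      · rw [h y]
        module
    refine Nat.card_le_card_of_injective
      (fun w => (⟨⟪y, a⟫ • (w : Fin n → F), hmem w⟩ : C)) ?_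
    intro w w' hww
    have h6 : ⟪y, a⟫ • (w : Fin n → F) = ⟪y, a⟫ • (w' : Fin n → F) := congrArg Subtype.val hww
    exact Subtype.ext (smul_right_injective _ hya h6)
  have hXs : Nat.card ↥((N ⊓ fixs a) ⊓ Xs hF a haa) ≤ q :=
    (Subgroup.card_le_of_le inf_le_right).trans (card_Xs hF ha0 haa).le
  set j := N.relIndex (fixs a) with hj
  have h7 : q ^ (n - 2) * q ^ (n + 1) ≤ j * q ^ (n + 1) := by
    calc q ^ (n - 2) * q ^ (n + 1) = q * q ^ (2 * (n - 1)) := by
          rw [← pow_add, ← pow_succ']; congr 1; omega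
      _ = Nat.card (Qs hF a haa) * q ^ 2 := h2.symm
      _ ≤ (j * Nat.card ↥((N ⊓ fixs a) ⊓ Qs hF a haa)) * q ^ 2 := Nat.mul_le_mul_right _ h1
      _ = j * (Nat.card ↥((N ⊓ fixs a) ⊓ Qs hF a haa) * q ^ 2) := by ring
      _ = j * (Nat.card ↥((N ⊓ fixs a) ⊓ Xs hF a haa) *
            Nat.card (WB hF a haa (N ⊓ fixs a))) := by rw [h3]
      _ ≤ j * (q * q ^ n) := Nat.mul_le_mul_left _ (Nat.mul_le_mul hXs hWB)
      _ = j * q ^ (n + 1) := by ring
  exact Nat.le_of_mul_le_mul_right h7 (pow_pos (by omega) _)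

/-- Two different orbits. -/
theorem orb2 {B : AddSubgroup (Fin n → F)} {a a' : Fin n → F} (ha : a ∈ B) (ha0 : a ≠ 0)
    (ha' : a' ∈ B) (ha'0 : a' ≠ 0) (h : ∀ g ∈ stabB q B, act g a ≠ a') :
    (fixs (q := q) a).relIndex (stabB q B) + (fixs (q := q) a').relIndex (stabB q B) + 1 ≤
      Nat.card B := by
  classical
  rw [relIndex_fixs, relIndex_fixs]
  set N := stabB q B with hN
  let O₁ := {v : Fin n → F // ∃ g ∈ N, act g a = v}
  let O₂ := {v : Fin n → F // ∃ g ∈ N, act g a' = v}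
  let f : Option (O₁ ⊕ O₂) → B := fun o =>
    match o with
    | none => 0
    | some (Sum.inl v) => ⟨v.1, by
        obtain ⟨g, hg, h⟩ := v.2
        rw [← h]; exact hg a ha⟩
    | some (Sum.inr v) => ⟨v.1, by
        obtain ⟨g, hg, h⟩ := v.2
        rw [← h]; exact hg a' ha'⟩
  have hz1 : ∀ v : O₁, v.1 ≠ 0 := by
    rintro ⟨v, g, hg, h⟩ h0
    exact act_ne_zero ha0 (h.trans h0)
  have hz2 : ∀ v : O₂, v.1 ≠ 0 := by
    rintro ⟨v, g, hg, h⟩ h0
    exact act_ne_zero ha'0 (h.trans h0)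
  have hne : ∀ (v : O₁) (w : O₂), v.1 ≠ w.1 := by
    rintro ⟨v, g, hg, h1⟩ ⟨w, g', hg', h2⟩ h0
    apply h (g'⁻¹ * g) (N.mul_mem (N.inv_mem hg') hg)
    rw [act_mul, h1]
    change v = w at h0
    rw [h0, ← h2, act_inv_act]
  have hf : Function.Injective f := by
    intro o o' hoo
    rcases o with _ | v | v <;> rcases o' with _ | v' | v'
    · rfl
    · exact absurd (congrArg (fun z : B => (z : Fin n → F)) hoo).symm (hz1 v')
    · exact absurd (congrArg (fun z : B => (z : Fin n → F)) hoo).symm (hz2 v')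
    · exact absurd (congrArg (fun z : B => (z : Fin n → F)) hoo) (hz1 v)
    · have : v = v' := Subtype.ext (congrArg (fun z : B => (z : Fin n → F)) hoo)
      rw [this]
    · exact absurd (congrArg (fun z : B => (z : Fin n → F)) hoo) (hne v v')
    · exact absurd (congrArg (fun z : B => (z : Fin n → F)) hoo) (hz2 v)
    · exact absurd (congrArg (fun z : B => (z : Fin n → F)) hoo).symm (hne v' v)
    · have : v = v' := Subtype.ext (congrArg (fun z : B => (z : Fin n → F)) hoo)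
      rw [this]
  have h1 := Nat.card_le_card_of_injective f hf
  rw [Finite.card_option, Nat.card_sum] at h1
  exact h1

/-- One orbit. -/
theorem orb1 {B : AddSubgroup (Fin n → F)} {a : Fin n → F}
    (h : ∀ a' ∈ B, a' ≠ 0 → ∃ g ∈ stabB q B, act g a = a') :
    Nat.card B ≤ (fixs (q := q) a).relIndex (stabB q B) + 1 := by
  classical
  rw [relIndex_fixs]
  set N := stabB q B with hN
  let O₁ := {v : Fin n → F // ∃ g ∈ N, act g a = v}
  let f : B → Option O₁ := fun b =>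
    if hb : (b : Fin n → F) = 0 then none else some ⟨b, h b b.2 hb⟩
  have hf : Function.Injective f := by
    intro b b' hbb
    by_cases hb : (b : Fin n → F) = 0 <;> by_cases hb' : (b' : Fin n → F) = 0
    · exact Subtype.ext (hb.trans hb'.symm)
    · simp only [f, dif_pos hb, dif_neg hb'] at hbb
      exact absurd hbb (by simp)
    · simp only [f, dif_pos hb', dif_neg hb] at hbb
      exact absurd hbb (by simp)
    · simp only [f, dif_neg hb', dif_neg hb] at hbb
      have h3 := Option.some.inj hbb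
      have h4 : (b : Fin n → F) = b' := congrArg (fun z : O₁ => z.1) h3
      exact Subtype.ext h4
  have h1 := Nat.card_le_card_of_injective f hf
  rw [Finite.card_option] at h1
  exact h1

/-- The torus element of `SU_3`. -/
theorem exists_torus3 (hF : Fintype.card F = q ^ 2) {a b z : Fin n → F} (h : Hyp q a b)
    (hz : ⟪z, z⟫ = 1) (hza : ⟪z, a⟫ = 0) (hzb : ⟪z, b⟫ = 0) {μ : F} (hμ : μ ^ (q + 1) = 1) :
    ∃ (t : SU n F q) (l : F), l ≠ 0 ∧ act t a = l • a ∧ act t z = μ • z := by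
  have hμ' : (μ⁻¹) ^ (q + 1) = 1 := by rw [inv_pow, hμ, inv_one]
  have hμ0 : μ ≠ 0 := by
    rintro rfl
    rw [zero_pow (by omega)] at hμ
    exact zero_ne_one hμ
  obtain ⟨l, hl0, hl⟩ := exists_hilbert90 hF hμ'
  obtain ⟨g, hg, hgd⟩ := exists_gtorus hF h (a := l) hl0
  obtain ⟨r, hr, hrd⟩ := exists_grefl hF hz hμ
  have haz : ⟪a, z⟫ = 0 := (hermForm_eq_zero_comm hF).1 hza
  have hlq : l ^ q ≠ 0 := pow_ne_zero _ hl0
  have hdet : detHom hF n (r * g) = 1 := by
    apply Subtype.ext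
    apply Units.ext
    rw [map_mul]
    change ((detHom hF n r : Fˣ) : F) * ((detHom hF n g : Fˣ) : F) = 1
    rw [hrd, hgd]
    have e1 : μ * l = l ^ q := by
      conv_lhs => rw [hl]
      rw [← mul_assoc, mul_inv_cancel₀ hμ0, one_mul]
    rw [← mul_assoc, e1, mul_inv_cancel₀ hlq]
  have hmem : r * g ∈ (suToGU hF n).range := by
    rw [suToGU_range, MonoidHom.mem_ker]; exact hdet
  obtain ⟨s, hs⟩ := hmem
  refine ⟨s, l, hl0, ?_, ?_⟩
  · rw [← gact_suToGU hF, hs, gact_mul, hg, h.1, h.2.2, hr]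
    rw [hermForm_add_left, hermForm_add_left, hermForm_smul_left, hermForm_smul_left, haz,
      (hermForm_eq_zero_comm hF).1 hzb]
    module
  · rw [← gact_suToGU hF, hs, gact_mul, hg, hza, hzb, hr]
    simp only [mul_zero, zero_smul, add_zero, hz]
    module

end Cfsg.Agent.MinU
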