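import Cfsg.Agent.MinU.Step3b

/-!
# Additive subgroups of the two-dimensional hermitian space
-/

set_option autoImplicit false
set_option linter.unusedSectionVars false

namespace Cfsg.Agent.MinU

open Cfsg.Agent.Uni Finset

variable {F : Type*} [Field F] [Fintype F] {q n m : ℕ}

local notation "⟪" x ", " y "⟫" => hermForm _ _ q x y

/-- The stabiliser of an isotropic point of the plane has index at least `q + 1`. -/
theorem index_PP_two (hF : Fintype.card F = q ^ 2) {r : Fin 2 → F} (hr0 : r ≠ 0)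
    (hr : ⟪r, r⟫ = 0) : q + 1 ≤ (PP (q := q) r).index := by
  classical
  obtain ⟨r', hh⟩ := exists_hyp' hF hr0 hr
  have hr'r : ⟪r', r⟫ = 1 := (hh.symm hF).2.2
  obtain ⟨κ, hκ0, hκ⟩ := exists_skew hF
  have hw : ⟪r - κ • r', r - κ • r'⟫ = 0 := by
    rw [hermForm_sub_left, hermForm_sub_right hF, hermForm_sub_right hF, hermForm_smul_left,
      hermForm_smul_left, hermForm_smul_right, hermForm_smul_right, hr, hh.2.1, hh.2.2, hr'r, hκ]
    ring
  obtain ⟨g, -, hga⟩ := exists_Xs hF hw (s := -κ⁻¹) (by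
    rw [neg_pow_q hF, inv_pow, hκ, inv_neg])
  have hgr : act g r = κ • r' := by
    rw [hga, hermForm_sub_right hF, hermForm_smul_right, hr, hh.2.2, hκ]
    have : -κ⁻¹ * (0 - -κ * 1) = -1 := by
      rw [mul_one, zero_sub, neg_neg, neg_mul, inv_mul_cancel₀ hκ0]
    rw [this]; module
  have hU : ∀ s : {s : F // s ^ q = -s}, ∃ g : SU 2 F q, ∀ x, act g x = x + (s.1 * ⟪x, r⟫) • r := by
    intro s
    obtain ⟨g, -, hg⟩ := exists_Xs hF hr s.2
    exact ⟨g, hg⟩
  choose U hU using hU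
  have hUg : ∀ s, act (U s * g) r = κ • (r' + s.1 • r) := by
    intro s
    rw [act_mul, hgr, hU, hermForm_smul_left, hr'r]
    module
  let f : Option {s : F // s ^ q = -s} → SU 2 F q ⧸ PP (q := q) r := fun o =>
    match o with
    | none => QuotientGroup.mk 1
    | some s => QuotientGroup.mk (U s * g)
  have hf : Function.Injective f := by
    have key : ∀ s, f none ≠ f (some s) := by
      intro s h
      have h1 := QuotientGroup.eq.1 h
      rw [inv_one, one_mul] at h1
      obtain ⟨c, hc, h2⟩ := h1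
      rw [hUg] at h2
      have h3 := congrArg (fun x => ⟪x, r⟫) h2
      simp only [hermForm_smul_left, hermForm_add_left, hr'r, hr] at h3
      apply hκ0
      linear_combination h3
    intro o o' hoo
    rcases o with _ | s <;> rcases o' with _ | s'
    · rfl
    · exact absurd hoo (key s')
    · exact absurd hoo.symm (key s)
    · have h1 := QuotientGroup.eq.1 hoo
      obtain ⟨c, hc, h2⟩ := h1
      have h3 : act (U s' * g) r = c • act (U s * g) r := by
        rw [← act_smul, ← h2, act_mul _ (U s' * g), act_act_inv]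
      rw [hUg, hUg] at h3
      have h4 := congrArg (fun x => ⟪x, r⟫) h3
      have h5 := congrArg (fun x => ⟪x, r'⟫) h3
      simp only [hermForm_smul_left, hermForm_add_left, hr'r, hr, hh.2.1, hh.2.2] at h4 h5
      have hc1 : c = 1 := by
        apply mul_left_cancel₀ hκ0
        linear_combination -h4
      rw [hc1] at h5
      have h6 : s = s' := by
        apply Subtype.ext
        apply mul_left_cancel₀ hκ0
        linear_combination -h5
      rw [h6]
  have h1 := Nat.card_le_card_of_injective f hf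
  rw [Finite.card_option, card_skew hF] at h1
  exact h1

/-- Many transvections in a subgroup of small index. -/
theorem exists_mul_mem (hF : Fintype.card F = q ^ 2) {B : AddSubgroup (Fin n → F)}
    (hI : (stabB q B).index < q) {r : Fin n → F} (hr0 : r ≠ 0) (hr : ⟪r, r⟫ = 0) :
    ∃ s : F, s ≠ 0 ∧ s ^ q = -s ∧ ∀ x ∈ B, (s * ⟪x, r⟫) • r ∈ B := by
  set N := stabB q B with hN
  have h1 : N.relIndex (Xs hF r hr) < q := by
    refine lt_of_le_of_lt ?_ hI
    rw [← Subgroup.relIndex_top_right N]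
    exact Subgroup.relIndex_le_of_le_right le_top (rel_ne_zero _ _)
  have h2 := card_eq_relIndex_mul N (Xs hF r hr)
  rw [card_Xs hF hr0 hr] at h2
  have h3 : N ⊓ Xs hF r hr ≠ ⊥ := by
    intro h
    rw [h, Subgroup.card_bot, mul_one] at h2
    omega
  obtain ⟨g, hg, hg1⟩ := (Subgroup.ne_bot_iff_exists_ne_one.1 h3 : ∃ g : ↥(N ⊓ Xs hF r hr), g ≠ 1)
    |>.elim fun g h => (⟨g.1, g.2, fun h' => h (Subtype.ext h')⟩ :
      ∃ g ∈ N ⊓ Xs hF r hr, g ≠ 1)
  obtain ⟨s, hs, hga⟩ := mem_Xs_act hF hg.2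
  have hs0 : s ≠ 0 := by
    rintro rfl
    apply hg1
    apply act_ext
    intro x
    rw [hga, act_one]; module
  refine ⟨s, hs0, hs, fun x hx => ?_⟩
  have h4 : act g x ∈ B := hg.1 x hx
  have : (s * ⟪x, r⟫) • r = act g x - x := by rw [hga]; abel
  rw [this]
  exact B.sub_mem h4 hx

/-- The scalars moving `w` into `B`. -/
def Cw (B : AddSubgroup (Fin n → F)) (w : Fin n → F) : AddSubgroup F :=
  B.comap (LinearMap.toSpanSingleton F (Fin n → F) w).toAddMonoidHom

theorem mem_Cw {B : AddSubgroup (Fin n → F)} {w : Fin n → F} {c : F} :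
    c ∈ Cw B w ↔ c • w ∈ B := Iff.rfl

/-- Pairing with `w` as an additive map. -/
def pw (q : ℕ) (w : Fin n → F) : (Fin n → F) →+ F where
  toFun x := hermForm n F q x w
  map_zero' := hermForm_zero_left w
  map_add' x y := hermForm_add_left x y w

theorem card_le_Cw (hF : Fintype.card F = q ^ 2) {B : AddSubgroup (Fin 2 → F)}
    (hI : (stabB q B).index < q) {w : Fin 2 → F} (hw0 : w ≠ 0) (hw : ⟪w, w⟫ = 0) :
    Nat.card B ≤ Nat.card (Cw B w) * Nat.card (Cw B w) := by
  classical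
  obtain ⟨s, hs0, -, hs⟩ := exists_mul_mem hF hI hw0 hw
  let f : B →+ F := (pw q w).comp B.subtype
  have hf : ∀ x : B, f x = ⟪(x : Fin 2 → F), w⟫ := fun _ => rfl
  have h1 : Nat.card B = Nat.card f.ker * Nat.card f.range := by
    rw [← AddSubgroup.card_mul_index f.ker, AddSubgroup.index_ker]
  rw [h1]
  apply Nat.mul_le_mul
  · have hex : ∀ x : f.ker, ∃ c : F, ((x : B) : Fin 2 → F) = c • w := by
      intro x
      apply eq_smul_of_perp2 hF hw0 hw
      exact (hermForm_eq_zero_comm hF).1 x.2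
    choose c hc using hex
    refine Nat.card_le_card_of_injective (fun x => (⟨c x, by
      rw [mem_Cw, ← hc]; exact (x : B).2⟩ : Cw B w)) ?_
    intro x y hxy
    have hxy' : c x = c y := congrArg Subtype.val hxy
    apply Subtype.ext
    apply Subtype.ext
    rw [hc, hc, hxy']
  · refine Nat.card_le_card_of_injective (fun x : f.range => (⟨s * x, by
      obtain ⟨z, hz⟩ := x.2
      rw [mem_Cw, ← hz, hf]
      exact hs _ z.2⟩ : Cw B w)) ?_
    intro x y hxy
    exact Subtype.ext (mul_left_cancel₀ hs0 (congrArg Subtype.val hxy))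

theorem Cw_mul_le (hF : Fintype.card F = q ^ 2) {B : AddSubgroup (Fin 2 → F)}
    {e e' : Fin 2 → F} (h : Hyp q e e') :
    Nat.card (Cw B e) * Nat.card (Cw B e') ≤ Nat.card B := by
  rw [← Nat.card_prod]
  refine Nat.card_le_card_of_injective (fun p : Cw B e × Cw B e' =>
    (⟨(p.1 : F) • e + (p.2 : F) • e', B.add_mem p.1.2 p.2.2⟩ : B)) ?_
  rintro ⟨c, d⟩ ⟨c', d'⟩ hcd
  have h1 : (c : F) • e + (d : F) • e' = (c' : F) • e + (d' : F) • e' := congrArg Subtype.val hcd
  have h2 := congrArg (fun x => ⟪x, e⟫) h1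
  have h3 := congrArg (fun x => ⟪x, e'⟫) h1
  simp only [hermForm_add_left, hermForm_smul_left, h.1, h.2.1, h.2.2, (h.symm hF).2.2, mul_zero,
    mul_one, add_zero, zero_add] at h2 h3
  exact Prod.ext (Subtype.ext h3) (Subtype.ext h2)

theorem Cw_sq (hF : Fintype.card F = q ^ 2) {B : AddSubgroup (Fin 2 → F)}
    (hI : (stabB q B).index < q) {w : Fin 2 → F} (hw0 : w ≠ 0) (hw : ⟪w, w⟫ = 0) :
    Nat.card (Cw B w) * Nat.card (Cw B w) = Nat.card B := by
  obtain ⟨w', h⟩ := exists_hyp' hF hw0 hw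
  have h1 := card_le_Cw hF hI hw0 hw
  have h2 := card_le_Cw hF hI (h.symm hF).left_ne (h.symm hF).1
  have h3 := Cw_mul_le hF (B := B) h
  set a := Nat.card (Cw B w)
  set c := Nat.card (Cw B w')
  have ha : 0 < a := Nat.card_pos
  have hc : 0 < c := Nat.card_pos
  apply le_antisymm _ h1
  rcases le_total a c with hac | hac
  · exact (Nat.mul_le_mul_left a hac).trans h3
  · have h4 : a * c ≤ c * c := h3.trans h2
    have h5 := Nat.le_of_mul_le_mul_right h4 hc
    have h6 : a = c := le_antisymm h5 hac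
    rw [← h6] at h3
    exact h3

theorem card_bot_ne (B : AddSubgroup (Fin n → F)) (hB : B ≠ ⊥) : 2 ≤ Nat.card B := by
  by_contra hc
  push Not at hc
  have h1 : 0 < Nat.card B := Nat.card_pos
  have h2 : Nat.card B = 1 := by omega
  exact hB (AddSubgroup.card_eq_one.1 h2)

/-- Structure of invariant additive subgroups. -/
theorem struct2 (hF : Fintype.card F = q ^ 2) {B : AddSubgroup (Fin 2 → F)} (hB : B ≠ ⊥)
    (hI : (stabB q B).index < q) : q ^ 2 ≤ Nat.card B ∧
      (Nat.card B = q ^ 2 → (∀ x ∈ B, ⟪x, x⟫ = 0) ∧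
        ∀ w, w ≠ 0 → ⟪w, w⟫ = 0 → Nat.card (Cw B w) = q) := by
  classical
  obtain ⟨e, e', h⟩ := exists_e2 hF
  have he0 := h.left_ne
  have he'0 := (h.symm hF).left_ne
  have he'e := (h.symm hF).2.2
  have h1 := Cw_sq hF hI he0 h.1
  have h2 := Cw_sq hF hI he'0 (h.symm hF).1
  have hτ : Nat.card (Cw B e) = Nat.card (Cw B e') := by
    rw [← h2] at h1
    exact Nat.mul_self_inj.1 h1
  have hB2 := card_bot_ne B hB
  -- decomposition of `B`
  have hdec : ∀ x ∈ B, ∃ c ∈ Cw B e, ∃ d ∈ Cw B e', x = c • e + d • e' := by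
    let f : Cw B e × Cw B e' → B := fun p =>
      ⟨(p.1 : F) • e + (p.2 : F) • e', B.add_mem p.1.2 p.2.2⟩
    have hf : Function.Injective f := by
      rintro ⟨c, d⟩ ⟨c', d'⟩ hcd
      have h1 : (c : F) • e + (d : F) • e' = (c' : F) • e + (d' : F) • e' :=
        congrArg Subtype.val hcd
      have h2 := congrArg (fun x => ⟪x, e⟫) h1
      have h3 := congrArg (fun x => ⟪x, e'⟫) h1
      simp only [hermForm_add_left, hermForm_smul_left, h.1, h.2.1, h.2.2, he'e, mul_zero,
        mul_one, add_zero, zero_add] at h2 h3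
      exact Prod.ext (Subtype.ext h3) (Subtype.ext h2)
    have hcard : Nat.card (Cw B e × Cw B e') = Nat.card B := by
      rw [Nat.card_prod, hτ, h2]
    have hbij := (Nat.bijective_iff_injective_and_card f).2 ⟨hf, hcard⟩
    intro x hx
    obtain ⟨⟨c, d⟩, hcd⟩ := hbij.2 ⟨x, hx⟩
    exact ⟨c, c.2, d, d.2, (congrArg Subtype.val hcd).symm⟩
  -- multiplication by skew elements
  have hskew : ∀ σ : F, σ ^ q = -σ → ∀ c ∈ Cw B e', c * σ ∈ Cw B e := by
    intro σ hσ
    have hw : ⟪e' + σ • e, e' + σ • e⟫ = 0 := by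
      simp only [hermForm_add_left, hermForm_add_right hF, hermForm_smul_left,
        hermForm_smul_right, h.1, h.2.1, h.2.2, he'e, hσ]
      ring
    have hw0 : e' + σ • e ≠ 0 := by
      intro h0
      have h3 := congrArg (fun x => ⟪x, e⟫) h0
      simp only [hermForm_add_left, hermForm_smul_left, he'e, h.1, mul_zero, add_zero,
        hermForm_zero_left] at h3
      exact one_ne_zero h3
    have h3 := Cw_sq hF hI hw0 hw
    have h4 : Nat.card (Cw B (e' + σ • e)) = Nat.card (Cw B e') := by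
      rw [← h2] at h3
      exact Nat.mul_self_inj.1 h3
    have h5 : ∀ c ∈ Cw B (e' + σ • e), c ∈ Cw B e' ∧ c * σ ∈ Cw B e := by
      intro c hc
      obtain ⟨a, ha, d, hd, hcd⟩ := hdec _ (mem_Cw.1 hc)
      have h6 := congrArg (fun x => ⟪x, e⟫) hcd
      have h7 := congrArg (fun x => ⟪x, e'⟫) hcd
      simp only [hermForm_add_left, hermForm_smul_left, h.1, h.2.1, h.2.2, he'e, mul_zero,
        mul_one, add_zero, zero_add] at h6 h7
      rw [h6, ← h6, h7]
      exact ⟨by rw [h6]; exact hd, ha⟩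
    have h6 : Cw B (e' + σ • e) = Cw B e' := by
      apply SetLike.coe_injective
      apply Set.eq_of_subset_of_ncard_le (fun c hc => (h5 c hc).1)
      · rw [← Nat.card_coe_set_eq, ← Nat.card_coe_set_eq]
        exact h4.ge
    intro c hc
    rw [← h6] at hc
    exact (h5 c hc).2
  have hτ2 : 2 ≤ Nat.card (Cw B e') := by
    by_contra hc
    push Not at hc
    have : Nat.card (Cw B e') * Nat.card (Cw B e') ≤ 1 * 1 := Nat.mul_le_mul (by omega) (by omega)
    omega
  -- the injection from skew elements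
  have hinj : ∀ d : F, d ≠ 0 → ∀ hd : d ∈ Cw B e', Function.Injective
      (fun σ : {s : F // s ^ q = -s} => (⟨d * σ.1, hskew σ.1 σ.2 d hd⟩ : Cw B e)) := by
    intro d hd0 hd σ σ' h'
    exact Subtype.ext (mul_left_cancel₀ hd0 (congrArg Subtype.val h'))
  have hq : q ≤ Nat.card (Cw B e) := by
    obtain ⟨d, hd, hd0⟩ : ∃ d ∈ Cw B e', d ≠ 0 := by
      by_contra hc
      push Not at hc
      have : Cw B e' = ⊥ := (AddSubgroup.eq_bot_iff_forall _).2 hc
      rw [this, AddSubgroup.card_bot] at hτ2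
      omega
    have := Nat.card_le_card_of_injective _ (hinj d hd0 hd)
    rwa [card_skew hF] at this
  refine ⟨?_, ?_⟩
  · rw [← h1, pow_two]
    exact Nat.mul_le_mul hq hq
  · intro hb
    constructor
    · have hτq : Nat.card (Cw B e) = q := by
        rw [hb, pow_two] at h1
        exact Nat.mul_self_inj.1 h1
      intro x hx
      obtain ⟨c, hc, d, hd, rfl⟩ := hdec x hx
      by_cases hd0 : d = 0
      · rw [hd0, zero_smul, add_zero, hermForm_smul_left, hermForm_smul_right, h.1]; ring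
      · have hbij := (Nat.bijective_iff_injective_and_card _).2
          ⟨hinj d hd0 hd, by rw [card_skew hF, hτq]⟩
        obtain ⟨σ, hσ⟩ := hbij.2 ⟨c, hc⟩
        have h3 : d * σ.1 = c := congrArg Subtype.val hσ
        have h4 := σ.2
        simp only [hermForm_add_left, hermForm_add_right hF, hermForm_smul_left,
          hermForm_smul_right, h.1, h.2.1, h.2.2, he'e, ← h3, mul_pow, h4]
        ring
    · intro w hw0 hw
      have h3 := Cw_sq hF hI hw0 hw
      rw [hb, pow_two] at h3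
      exact Nat.mul_self_inj.1 h3

/-- Totally isotropic (for the norm) subgroups of order `q²`. -/
theorem iso_dich (hF : Fintype.card F = q ^ 2) {B : AddSubgroup (Fin 2 → F)}
    (hb : Nat.card B = q ^ 2) (hiso : ∀ x ∈ B, ⟪x, x⟫ = 0) :
    (∃ r, r ≠ 0 ∧ ⟪r, r⟫ = 0 ∧ ∀ x, x ∈ B ↔ ∃ c : F, x = c • r) ∨
    (∃ x ∈ B, ∃ y ∈ B, ⟪x, y⟫ ≠ 0 ∧ ⟪x, y⟫ ^ q = -⟪x, y⟫ ∧
      ∀ z, z ∈ B ↔ ∃ α β : F, α ^ q = α ∧ β ^ q = β ∧ z = α • x + β • y) := by
  classical
  have hskew : ∀ x ∈ B, ∀ y ∈ B, ⟪x, y⟫ ^ q = -⟪x, y⟫ := by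
    intro x hx y hy
    have h1 := hiso _ (B.add_mem hx hy)
    rw [hermForm_add_left, hermForm_add_right hF, hermForm_add_right hF, hiso x hx, hiso y hy] at h1
    rw [hermForm_symm hF]
    linear_combination h1
  have hq := two_le_q hF
  by_cases hex : ∃ x ∈ B, ∃ y ∈ B, ⟪x, y⟫ ≠ 0
  · right
    obtain ⟨x, hx, y, hy, hxy⟩ := hex
    refine ⟨x, hx, y, hy, hxy, hskew x hx y hy, ?_⟩
    set κ := ⟪x, y⟫ with hκ
    have hκs : κ ^ q = -κ := hskew x hx y hy
    have hyx : ⟪y, x⟫ = -κ := by rw [← hermForm_symm hF, ← hκ, hκs]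
    have hH : Hyp q x ((κ⁻¹) ^ q • y) := by
      refine ⟨hiso x hx, ?_, ?_⟩
      · rw [hermForm_smul_left, hermForm_smul_right, hiso y hy, mul_zero, mul_zero]
      · rw [hermForm_smul_right, pow_q_pow_q hF, ← hκ, inv_mul_cancel₀ hxy]
    have hco : ∀ z, z = (κ⁻¹ * ⟪z, y⟫) • x + (-(κ⁻¹) * ⟪z, x⟫) • y := by
      intro z
      have h1 := hyp2_coord hF hH z
      rw [hermForm_smul_right, pow_q_pow_q hF, smul_smul, inv_pow, hκs] at h1
      conv_lhs => rw [h1]
      congr 2
      rw [inv_neg]; ring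
    have hfix : ∀ z ∈ B, (κ⁻¹ * ⟪z, y⟫) ^ q = κ⁻¹ * ⟪z, y⟫ ∧
        (-(κ⁻¹) * ⟪z, x⟫) ^ q = -(κ⁻¹) * ⟪z, x⟫ := by
      intro z hz
      rw [mul_pow, mul_pow, neg_pow_q hF, inv_pow, hκs, hskew z hz y hy, hskew z hz x hx, inv_neg]
      constructor <;> ring
    let f : B → {c : F // c ^ q = c} × {c : F // c ^ q = c} := fun z =>
      (⟨_, (hfix z z.2).1⟩, ⟨_, (hfix z z.2).2⟩)
    have hf : Function.Injective f := by
      intro z z' hzz
      have h1 : κ⁻¹ * ⟪(z : Fin 2 → F), y⟫ = κ⁻¹ * ⟪(z' : Fin 2 → F), y⟫ :=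
        congrArg (fun p : {c : F // c ^ q = c} × {c : F // c ^ q = c} => p.1.1) hzz
      have h2 : -(κ⁻¹) * ⟪(z : Fin 2 → F), x⟫ = -(κ⁻¹) * ⟪(z' : Fin 2 → F), x⟫ :=
        congrArg (fun p : {c : F // c ^ q = c} × {c : F // c ^ q = c} => p.2.1) hzz
      apply Subtype.ext
      rw [hco z, hco z', h1, h2]
    have hbij := (Nat.bijective_iff_injective_and_card f).2 ⟨hf, by
      rw [Nat.card_prod, card_fixed hF, hb, pow_two]⟩
    intro z
    constructor
    · intro hz
      exact ⟨_, _, (hfix z hz).1, (hfix z hz).2, hco z⟩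
    · rintro ⟨α, β, hα, hβ, rfl⟩
      obtain ⟨z, hz⟩ := hbij.2 (⟨α, hα⟩, ⟨β, hβ⟩)
      have h1 : κ⁻¹ * ⟪(z : Fin 2 → F), y⟫ = α :=
        congrArg (fun p : {c : F // c ^ q = c} × {c : F // c ^ q = c} => p.1.1) hz
      have h2 : -(κ⁻¹) * ⟪(z : Fin 2 → F), x⟫ = β :=
        congrArg (fun p : {c : F // c ^ q = c} × {c : F // c ^ q = c} => p.2.1) hz
      have h3 := hco z
      rw [h1, h2] at h3
      rw [← h3]
      exact z.2
  · left
    push Not at hex
    have hB : B ≠ ⊥ := by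
      rintro rfl
      rw [AddSubgroup.card_bot] at hb
      have : 1 < q ^ 2 := by nlinarith
      omega
    obtain ⟨r, hr, hr0⟩ : ∃ r ∈ B, r ≠ 0 := by
      by_contra hc
      push Not at hc
      exact hB ((AddSubgroup.eq_bot_iff_forall _).2 hc)
    have hle : B ≤ (Submodule.span F {r}).toAddSubgroup := by
      intro x hx
      obtain ⟨c, rfl⟩ := eq_smul_of_perp2 hF hr0 (hiso r hr) (hex r hr x hx)
      exact Submodule.smul_mem _ _ (Submodule.mem_span_singleton_self r)
    have heq : B = (Submodule.span F {r}).toAddSubgroup := by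
      apply SetLike.coe_injective
      apply Set.eq_of_subset_of_ncard_le hle
      · rw [← Nat.card_coe_set_eq, ← Nat.card_coe_set_eq]
        have h1 := card_span_one hF hr0
        change Nat.card (Submodule.span F {r}) ≤ Nat.card B
        rw [h1, hb]
    refine ⟨r, hr0, hiso r hr, fun x => ?_⟩
    rw [heq]
    constructor
    · intro h
      obtain ⟨c, hc⟩ := Submodule.mem_span_singleton.1 h
      exact ⟨c, hc.symm⟩
    · rintro ⟨c, rfl⟩
      exact Submodule.smul_mem _ _ (Submodule.mem_span_singleton_self r)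

/-- The scalars for subfield-type subgroups. -/
theorem Cw_sub (hF : Fintype.card F = q ^ 2) {B : AddSubgroup (Fin 2 → F)} {x y : Fin 2 → F}
    (hxx : ⟪x, x⟫ = 0) (hyy : ⟪y, y⟫ = 0) (hxy : ⟪x, y⟫ ≠ 0) (hs : ⟪x, y⟫ ^ q = -⟪x, y⟫)
    (hB : ∀ z, z ∈ B ↔ ∃ α β : F, α ^ q = α ∧ β ^ q = β ∧ z = α • x + β • y)
    {w : Fin 2 → F} (hw0 : w ≠ 0) (hw : ⟪w, w⟫ = 0) : Nat.card (Cw B w) = q := by
  set κ := ⟪x, y⟫ with hκ
  have hyx : ⟪y, x⟫ = -κ := by rw [← hermForm_symm hF, ← hκ, hs]
  have hH : Hyp q x ((κ⁻¹) ^ q • y) := by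
    refine ⟨hxx, ?_, ?_⟩
    · rw [hermForm_smul_left, hermForm_smul_right, hyy, mul_zero, mul_zero]
    · rw [hermForm_smul_right, pow_q_pow_q hF, ← hκ, inv_mul_cancel₀ hxy]
  have hco : ∀ z, ∃ α β : F, z = α • x + β • y := by
    intro z
    have h1 := hyp2_coord hF hH z
    rw [smul_smul] at h1
    exact ⟨_, _, h1⟩
  have huniq : ∀ α β α' β' : F, α • x + β • y = α' • x + β' • y → α = α' ∧ β = β' := by
    intro α β α' β' h
    have h1 := congrArg (fun z => ⟪z, y⟫) h
    have h2 := congrArg (fun z => ⟪z, x⟫) h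
    simp only [hermForm_add_left, hermForm_smul_left, hxx, hyy, hyx, mul_zero, add_zero, zero_add,
      ← hκ] at h1 h2
    exact ⟨mul_right_cancel₀ hxy h1, mul_right_cancel₀ (neg_ne_zero.2 hxy) h2⟩
  obtain ⟨α, β, hαβ⟩ := hco w
  have hprop : α * β ^ q = α ^ q * β := by
    rw [hαβ] at hw
    simp only [hermForm_add_left, hermForm_add_right hF, hermForm_smul_left,
      hermForm_smul_right, hxx, hyy, hyx, ← hκ] at hw
    apply mul_right_cancel₀ hxy
    linear_combination hw
  have hmem : ∀ c : F, c ∈ Cw B w ↔ (c * α) ^ q = c * α ∧ (c * β) ^ q = c * β := by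
    intro c
    rw [mem_Cw, hB, hαβ]
    constructor
    · rintro ⟨a, b, ha, hb, h⟩
      have h1 := huniq (c * α) (c * β) a b (by rw [← h]; module)
      rw [h1.1, h1.2]
      exact ⟨ha, hb⟩
    · rintro ⟨h1, h2⟩
      exact ⟨c * α, c * β, h1, h2, by module⟩
  by_cases hα : α = 0
  · have hβ : β ≠ 0 := by
      rintro rfl
      apply hw0
      rw [hαβ, hα]; module
    have e : {c : F // c ^ q = c} ≃ Cw B w :=
      { toFun := fun c => ⟨c.1 / β, by
          rw [hmem, hα, mul_zero, zero_pow_q hF, div_mul_cancel₀ _ hβ]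
          exact ⟨rfl, c.2⟩⟩
        invFun := fun c => ⟨c.1 * β, ((hmem _).1 c.2).2⟩
        left_inv := fun c => Subtype.ext (div_mul_cancel₀ _ hβ)
        right_inv := fun c => Subtype.ext (mul_div_cancel_right₀ _ hβ) }
    rw [← Nat.card_congr e, card_fixed hF]
  · have e : {c : F // c ^ q = c} ≃ Cw B w :=
      { toFun := fun c => ⟨c.1 / α, by
          rw [hmem, div_mul_cancel₀ _ hα]
          refine ⟨c.2, ?_⟩
          have hαq : α ^ q ≠ 0 := pow_ne_zero _ hα
          rw [mul_pow, div_pow, c.2]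
          field_simp
          linear_combination c.1 * hprop⟩
        invFun := fun c => ⟨c.1 * α, ((hmem _).1 c.2).1⟩
        left_inv := fun c => Subtype.ext (div_mul_cancel₀ _ hα)
        right_inv := fun c => Subtype.ext (mul_div_cancel_right₀ _ hα) }
    rw [← Nat.card_congr e, card_fixed hF]

end Cfsg.Agent.MinU
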