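import Cfsg.Agent.MinU.N4T

/-!
# A determinant relation, and small facts in dimension two
-/

set_option autoImplicit false
set_option linter.unusedSectionVars false

namespace Cfsg.Agent.MinU

open Cfsg.Agent.Uni Finset

variable {F : Type*} [Field F] [Fintype F] {q n m : ℕ}

local notation "⟪" x ", " y "⟫" => hermForm _ _ q x y

theorem hyp_of_skew (hF : Fintype.card F = q ^ 2) {x y : Fin n → F}
    (hxx : ⟪x, x⟫ = 0) (hyy : ⟪y, y⟫ = 0) (hxy : ⟪x, y⟫ ≠ 0) :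
    Hyp q x ((⟪x, y⟫⁻¹) ^ q • y) := by
  refine ⟨hxx, ?_, ?_⟩
  · rw [hermForm_smul_left, hermForm_smul_right, hyy, mul_zero, mul_zero]
  · rw [hermForm_smul_right, pow_q_pow_q hF, inv_mul_cancel₀ hxy]

theorem coord_xy (hF : Fintype.card F = q ^ 2) {x y : Fin 2 → F}
    (hxx : ⟪x, x⟫ = 0) (hyy : ⟪y, y⟫ = 0) (hxy : ⟪x, y⟫ ≠ 0) (z : Fin 2 → F) :
    ∃ a b : F, z = a • x + b • y := by
  have h1 := hyp2_coord hF (hyp_of_skew hF hxx hyy hxy) z
  rw [smul_smul] at h1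
  exact ⟨_, _, h1⟩

/-- The determinant of an element of the point stabiliser in dimension four. -/
theorem det_rel (hF : Fintype.card F = q ^ 2) {e e' : Fin 2 → F} (h : Hyp q e e')
    {x y : Fin 2 → F} (hxx : ⟪x, x⟫ = 0) (hyy : ⟪y, y⟫ = 0) (hxy : ⟪x, y⟫ ≠ 0)
    {g : SU (2 + 2) F q} {l : F} (hl : l ≠ 0)
    (hgu : act g (kp e (0 : Fin 2 → F)) = l • kp e 0) {a b c d a₀ b₀ : F}
    (hgx : act g (kp 0 x) = kp (a₀ • e) (a • x + b • y))
    (hgy : act g (kp 0 y) = kp (b₀ • e) (c • x + d • y)) :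
    l * (a * d - b * c) * (l ^ q)⁻¹ = 1 := by
  have he'e := (h.symm hF).2.2
  have hlq : l ^ q ≠ 0 := pow_ne_zero _ hl
  -- the last vector
  obtain ⟨α, w', hv⟩ := kp_surj (act g (kp e' (0 : Fin 2 → F)))
  have hαe : ⟪α, e⟫ = (l ^ q)⁻¹ := by
    have h1 : ⟪act g (kp e' (0 : Fin 2 → F)), act g (kp e 0)⟫ = 1 := by
      rw [act_form, kp_form, he'e, hermForm_zero_left, add_zero]
    rw [hgu, hermForm_smul_right, hv, kp_form, hermForm_zero_right hF, add_zero] at h1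
    exact eq_inv_of_mul_eq_one_right h1
  obtain ⟨t₁, t₂, hw'⟩ := coord_xy hF hxx hyy hxy w'
  have hα := hyp2_coord hF h α
  rw [hαe] at hα
  set t₀ := ⟪α, e'⟫ with ht₀
  rw [hα, hw'] at hv
  -- matrices
  let r : Fin 4 → (Fin (2 + 2) → F) := ![kp e 0, kp 0 x, kp 0 y, kp e' 0]
  let M₀ : Matrix (Fin 4) (Fin (2 + 2)) F := Matrix.of r
  let C : Matrix (Fin 4) (Fin 4) F :=
    !![l, 0, 0, 0; a₀, a, b, 0; b₀, c, d, 0; t₀, t₁, t₂, (l ^ q)⁻¹]
  let G : Matrix (Fin (2 + 2)) (Fin (2 + 2)) F :=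
    ((g : Matrix.SpecialLinearGroup (Fin (2 + 2)) F) : Matrix (Fin (2 + 2)) (Fin (2 + 2)) F)
  have hG : G.det = 1 := (g : Matrix.SpecialLinearGroup (Fin (2 + 2)) F).2
  have hkp : ∀ (p : Fin 2 → F) (z : Fin 2 → F), kp p z = kp p 0 + kp 0 z := kp_split
  have hrow : ∀ i, act g (r i) = ∑ k, C i k • r k := by
    intro i
    fin_cases i
    · simp only [Fin.sum_univ_four, r, C, Matrix.cons_val, Matrix.of_apply]
      change act g (kp e 0) = _
      rw [hgu]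
      simp
    · simp only [Fin.sum_univ_four, r, C]
      change act g (kp 0 x) = a₀ • kp e 0 + a • kp 0 x + b • kp 0 y + (0 : F) • kp e' 0
      rw [hgx, ← kp_smul, ← kp_smul, ← kp_smul, ← kp_smul, ← kp_add, ← kp_add, ← kp_add]
      congr 1 <;> module
    · simp only [Fin.sum_univ_four, r, C]
      change act g (kp 0 y) = b₀ • kp e 0 + c • kp 0 x + d • kp 0 y + (0 : F) • kp e' 0
      rw [hgy, ← kp_smul, ← kp_smul, ← kp_smul, ← kp_smul, ← kp_add, ← kp_add, ← kp_add]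
      congr 1 <;> module
    · simp only [Fin.sum_univ_four, r, C]
      change act g (kp e' 0) = t₀ • kp e 0 + t₁ • kp 0 x + t₂ • kp 0 y + (l ^ q)⁻¹ • kp e' 0
      rw [hv, ← kp_smul, ← kp_smul, ← kp_smul, ← kp_smul, ← kp_add, ← kp_add, ← kp_add]
      congr 1 <;> module
  have hmul : M₀ * G.transpose = C * M₀ := by
    ext i j
    rw [Matrix.mul_apply, Matrix.mul_apply]
    have h1 := congrFun (hrow i) j
    rw [Finset.sum_apply] at h1
    have h2 : act g (r i) j = ∑ k, G j k * r i k := rfl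
    rw [h2] at h1
    calc ∑ k, M₀ i k * G.transpose k j = ∑ k, G j k * r i k :=
          Finset.sum_congr rfl fun k _ => mul_comm _ _
      _ = ∑ k, (C i k • r k) j := h1
      _ = _ := rfl
  have hdet : M₀.det = C.det * M₀.det := by
    have h1 : (M₀ * G.transpose).det = (C * M₀).det := by rw [hmul]
    rw [Matrix.det_mul, Matrix.det_transpose, hG, mul_one] at h1
    exact h1.trans (Matrix.det_mul C M₀)
  have hM₀ : M₀.det ≠ 0 := by
    intro h0
    obtain ⟨v, hv0, hvM⟩ := Matrix.exists_vecMul_eq_zero_iff.2 h0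
    apply hv0
    have h1 : v 0 • kp e (0 : Fin 2 → F) + v 1 • kp 0 x + v 2 • kp 0 y + v 3 • kp e' 0 = 0 := by
      rw [← hvM]
      funext j
      rw [Matrix.vecMul, dotProduct, Fin.sum_univ_four]
      rfl
    rw [← kp_smul, ← kp_smul, ← kp_smul, ← kp_smul, ← kp_add, ← kp_add, ← kp_add, kp_eq_zero] at h1
    obtain ⟨h2, h3⟩ := h1
    have e1 := congrArg (fun z => ⟪z, e⟫) h2
    have e2 := congrArg (fun z => ⟪z, e'⟫) h2
    have e3 := congrArg (fun z => ⟪z, x⟫) h3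
    have e4 := congrArg (fun z => ⟪z, y⟫) h3
    have hyx : ⟪y, x⟫ ≠ 0 := fun h' => hxy ((hermForm_eq_zero_comm hF).1 h')
    simp only [hermForm_add_left, hermForm_smul_left, h.1, h.2.1, h.2.2, he'e, hxx, hyy,
      hermForm_zero_left, mul_zero, mul_one, zero_add, add_zero] at e1 e2 e3 e4
    have e5 := (mul_eq_zero.1 e3).resolve_right hyx
    have e6 := (mul_eq_zero.1 e4).resolve_right hxy
    funext i
    fin_cases i
    · exact e2
    · exact e6
    · exact e5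
    · exact e1
  have hC : C.det = 1 := by
    apply mul_right_cancel₀ hM₀
    rw [← hdet, one_mul]
  have hC2 : C.det = l * (a * d - b * c) * (l ^ q)⁻¹ := by
    simp only [C, Matrix.det_succ_row_zero, Fin.sum_univ_succ]
    simp [Matrix.submatrix, Fin.succAbove]
    ring
  rw [← hC2, hC]

/-- Transitivity on anisotropic vectors in dimension two. -/
theorem index_fixs_two (hF : Fintype.card F = q ^ 2) {a : Fin 2 → F} (ha : ⟪a, a⟫ ≠ 0) :
    ((fixs (q := q) a).index : ℤ) = q * ((q : ℤ) ^ 2 - 1) := by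
  have ha0 : a ≠ 0 := by rintro rfl; exact ha (hermForm_zero_left _)
  have h1 : (fixs (q := q) a).index = cnt 2 F q ⟪a, a⟫ := by
    rw [← Subgroup.relIndex_top_right, relIndex_fixs]
    unfold cnt
    refine Nat.card_congr (Equiv.subtypeEquivRight fun v => ?_)
    constructor
    · rintro ⟨g, -, rfl⟩
      exact act_form g a a
    · intro hv
      have hvv : ⟪v, v⟫ ≠ 0 := by rw [hv]; exact ha
      have hv0 : v ≠ 0 := by rintro rfl; exact hvv (hermForm_zero_left _)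
      obtain ⟨z, hz, hz1⟩ := (nd_vp hF hvv).exists_unit hF (by
        intro h0
        have h2 := finrank_vp hF hv0
        rw [h0, finrank_bot] at h2
        omega)
      obtain ⟨g, hg⟩ := exists_SU_of_family hF (x := ![a]) (y := ![v]) (by simpa using ha0)
        (by simpa using hv0) (by simpa using hv.symm) hz1 (by simpa using (mem_vp' hF).1 hz)
      exact ⟨g, Subgroup.mem_top g, by simpa using hg 0⟩
  rw [h1, cnt_eq_one hF 2 (hermForm_self_pow_q hF a) ha]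
  have h2 := (cnt_closed hF (F := F) (q := q) 2).2
  have hq := two_le_q hF
  have hq0 : (q : ℤ) ≠ 0 := by exact_mod_cast (by omega : q ≠ 0)
  apply mul_left_cancel₀ hq0
  rw [h2]; ring

theorem two_eq_zero (hF : Fintype.card F = q ^ 2) (hq : Even q) : (2 : F) = 0 := by
  obtain ⟨p, f, hp, hc, hf, rfl⟩ := q_prime_pow hF
  have h2 : p = 2 := ((Nat.Prime.eq_two_or_odd' hp).resolve_right (fun h => by
    have := h.pow (n := f)
    rw [← Nat.not_even_iff_odd] at this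
    exact this hq))
  subst h2
  exact CharTwo.two_eq_zero

theorem two_ne_zero' (hF : Fintype.card F = q ^ 2) (hq : Odd q) : (2 : F) ≠ 0 := by
  obtain ⟨p, f, hp, hc, hf, rfl⟩ := q_prime_pow hF
  intro h
  have h1 : p ∣ 2 := (CharP.cast_eq_zero_iff F p 2).1 (by exact_mod_cast h)
  have h2 : p = 2 := (Nat.prime_dvd_prime_iff_eq hp Nat.prime_two).1 h1
  subst h2
  have : Even (2 ^ f) := (Nat.even_pow.2 ⟨even_two, by omega⟩)
  rw [← Nat.not_even_iff_odd] at hq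
  exact hq this

/-- Orders of additive subgroups of the plane. -/
theorem card_pow2 (hF : Fintype.card F = q ^ 2) (B : AddSubgroup (Fin 2 → F))
    (hB : Nat.card B ≤ q ^ 2) : Nat.card B = q ^ 2 ∨ 2 * Nat.card B ≤ q ^ 2 := by
  obtain ⟨p, f, hp, -, hf, rfl⟩ := q_prime_pow hF
  have h1 : Nat.card B ∣ (p ^ f) ^ (2 * 2) := by
    rw [← card_vec hF]
    exact AddSubgroup.card_addSubgroup_dvd_card B
  rw [← pow_mul] at h1
  obtain ⟨i, hi, hbi⟩ := (Nat.dvd_prime_pow hp).1 h1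
  rw [hbi, ← pow_mul] at hB ⊢
  have h2 : i ≤ f * 2 := (Nat.pow_le_pow_iff_right hp.one_lt).1 hB
  rcases Nat.lt_or_ge i (f * 2) with h | h
  · right
    calc 2 * p ^ i ≤ p * p ^ i := Nat.mul_le_mul_right _ hp.two_le
      _ = p ^ (i + 1) := by rw [pow_succ']
      _ ≤ p ^ (f * 2) := Nat.pow_le_pow_right hp.pos h
  · left
    rw [le_antisymm h2 h]

section num
variable (q ρ φ R I z b L : ℤ)

/-- The combined inequality. -/
theorem comb (hq : 2 ≤ q) (hR : 0 ≤ R) (hI : 0 ≤ I) (hz : 1 ≤ z) (hb : 1 ≤ b) (hρ : 0 ≤ ρ)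
    (h1 : R * (z * b) = q ^ 5) (h2 : R * I ≤ φ) (h3 : φ * (q - 1) ≤ ρ * L)
    (h4 : (L + 1) * z ≤ q) : q ^ 5 * I * (q - 1) ≤ ρ * b * (q - z) := by
  have e1 : R * I * (q - 1) ≤ ρ * L :=
    (mul_le_mul_of_nonneg_right h2 (by linarith)).trans h3
  have e2 : R * I * (q - 1) * (z * b) ≤ ρ * L * (z * b) :=
    mul_le_mul_of_nonneg_right e1 (by positivity)
  have e3 : ρ * b * (L * z) ≤ ρ * b * (q - z) :=
    mul_le_mul_of_nonneg_left (by linarith) (by positivity)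
  calc q ^ 5 * I * (q - 1) = R * I * (q - 1) * (z * b) := by rw [← h1]; ring
    _ ≤ ρ * L * (z * b) := e2
    _ = ρ * b * (L * z) := by ring
    _ ≤ _ := e3

theorem m1 (hq : 2 ≤ q) (hI : 1 ≤ I) (hz : 1 ≤ z) (hρ : 0 ≤ ρ)
    (hk : ρ < (q + 1) * (q ^ 3 + 1)) (h : q ^ 5 * I * (q - 1) ≤ ρ * 1 * (q - z)) : False := by
  have h1 : ρ * 1 * (q - z) ≤ ρ * (q - 1) := by nlinarith
  have h2 : q ^ 5 * 1 * (q - 1) ≤ q ^ 5 * I * (q - 1) := by
    apply mul_le_mul_of_nonneg_right _ (by linarith)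
    exact mul_le_mul_of_nonneg_left hI (by positivity)
  have h3 : q ^ 5 ≤ ρ := le_of_mul_le_mul_right (by linarith) (by linarith : 0 < q - 1)
  have h4 : (q + 1) * (q ^ 3 + 1) ≤ q ^ 5 := by
    obtain ⟨a, rfl⟩ : ∃ a, q = 2 + a := ⟨q - 2, by ring⟩
    have ha : 0 ≤ a := by linarith
    rw [← sub_nonneg]; ring_nf; positivity
  linarith

theorem m2 (hq : 2 ≤ q) (hI : q ≤ I) (hz : 1 ≤ z) (hb : 1 ≤ b) (hρ : 0 ≤ ρ)
    (hk : ρ < (q + 1) * (q ^ 3 + 1)) (hb2 : 2 * b ≤ q ^ 2)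
    (h : q ^ 5 * I * (q - 1) ≤ ρ * b * (q - z)) : False := by
  have h1 : ρ * b * (q - z) ≤ ρ * b * (q - 1) :=
    mul_le_mul_of_nonneg_left (by linarith) (by positivity)
  have h2 : q ^ 5 * q * (q - 1) ≤ q ^ 5 * I * (q - 1) := by
    apply mul_le_mul_of_nonneg_right _ (by linarith)
    exact mul_le_mul_of_nonneg_left hI (by positivity)
  have h3 : q ^ 5 * q ≤ ρ * b := le_of_mul_le_mul_right (by linarith) (by linarith : 0 < q - 1)
  have h4 : ρ * (2 * b) ≤ ρ * q ^ 2 := mul_le_mul_of_nonneg_left hb2 hρ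
  have h5 : (2 * q ^ 4) * q ^ 2 ≤ ρ * q ^ 2 := by nlinarith
  have h6 : 2 * q ^ 4 ≤ ρ := le_of_mul_le_mul_right h5 (by positivity)
  have h4 : (q + 1) * (q ^ 3 + 1) ≤ 2 * q ^ 4 := by
    obtain ⟨a, rfl⟩ : ∃ a, q = 2 + a := ⟨q - 2, by ring⟩
    have ha : 0 ≤ a := by linarith
    rw [← sub_nonneg]; ring_nf; positivity
  linarith

theorem m3 (hq : 2 ≤ q) (hI : q ≤ I) (hz : 2 ≤ z) (hρ : 0 ≤ ρ)
    (hk : ρ < (q + 1) * (q ^ 3 + 1))
    (h : q ^ 5 * I * (q - 1) ≤ ρ * q ^ 2 * (q - z)) : False := by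
  have h1 : ρ * q ^ 2 * (q - z) ≤ ρ * q ^ 2 * (q - 2) :=
    mul_le_mul_of_nonneg_left (by linarith) (by positivity)
  have h2 : q ^ 5 * q * (q - 1) ≤ q ^ 5 * I * (q - 1) := by
    apply mul_le_mul_of_nonneg_right _ (by linarith)
    exact mul_le_mul_of_nonneg_left hI (by positivity)
  have h3 : (q ^ 4 * (q - 1)) * q ^ 2 ≤ (ρ * (q - 2)) * q ^ 2 := by nlinarith
  have h4 : q ^ 4 * (q - 1) ≤ ρ * (q - 2) := le_of_mul_le_mul_right h3 (by positivity)
  have h5 : ρ * (q - 2) ≤ ((q + 1) * (q ^ 3 + 1)) * (q - 2) :=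
    mul_le_mul_of_nonneg_right hk.le (by linarith)
  have h6 : ((q + 1) * (q ^ 3 + 1)) * (q - 2) < q ^ 4 * (q - 1) := by
    obtain ⟨a, rfl⟩ : ∃ a, q = 2 + a := ⟨q - 2, by ring⟩
    have ha : 0 ≤ a := by linarith
    rw [← sub_pos]; ring_nf; positivity
  linarith

theorem m4 (hq : 2 ≤ q) (hz : 2 ≤ z) (hρ : 0 ≤ ρ)
    (hk : ρ < (q + 1) * (q ^ 3 + 1))
    (h : q ^ 3 * (q ^ 2 - 1) ≤ ρ * (q - z)) : False := by
  have h1 : ρ * (q - z) ≤ ρ * (q - 2) :=
    mul_le_mul_of_nonneg_left (by linarith) (by positivity)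
  have h5 : ρ * (q - 2) ≤ ((q + 1) * (q ^ 3 + 1)) * (q - 2) :=
    mul_le_mul_of_nonneg_right hk.le (by linarith)
  have h6 : ((q + 1) * (q ^ 3 + 1)) * (q - 2) < q ^ 3 * (q ^ 2 - 1) := by
    obtain ⟨a, rfl⟩ : ∃ a, q = 2 + a := ⟨q - 2, by ring⟩
    have ha : 0 ≤ a := by linarith
    rw [← sub_pos]; ring_nf; positivity
  linarith

end num

end Cfsg.Agent.MinU
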