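import Cfsg.Agent.MinU.N4S
import Cfsg.Agent.MinU.Step2b

/-!
# Lines in dimension four
-/

set_option autoImplicit false
set_option linter.unusedSectionVars false

namespace Cfsg.Agent.MinU

open Cfsg.Agent.Uni Finset

variable {F : Type*} [Field F] [Fintype F] {q n m : ℕ}

local notation "⟪" x ", " y "⟫" => hermForm _ _ q x y

/-- The pointwise stabiliser of `⟨u, y⟩^⊥`. -/
def EL (u y : Fin n → F) : Subgroup (SU n F q) where
  carrier := {g | ∀ v, hermForm n F q v u = 0 → hermForm n F q v y = 0 → act g v = v}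
  mul_mem' := by
    intro g h hg hh v h1 h2
    rw [act_mul, hh v h1 h2, hg v h1 h2]
  one_mem' := fun v _ _ => act_one v
  inv_mem' := by
    intro g hg v h1 h2
    conv_lhs => rw [← hg v h1 h2]
    rw [act_inv_act]

theorem mem_EL {u y : Fin n → F} {g : SU n F q} :
    g ∈ EL u y ↔ ∀ v, ⟪v, u⟫ = 0 → ⟪v, y⟫ = 0 → act g v = v := Iff.rfl

/-- `EL` only depends on the span. -/
theorem EL_span (hF : Fintype.card F = q ^ 2) {u y u' y' : Fin n → F}
    (h : Submodule.span F {u, y} = Submodule.span F {u', y'}) :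
    EL (q := q) u y = EL u' y' := by
  have key : ∀ a b : Fin n → F, ∀ v, v ∈ perp q (Submodule.span F {a, b}) ↔
      ⟪v, a⟫ = 0 ∧ ⟪v, b⟫ = 0 := by
    intro a b v
    rw [mem_perp_span hF]
    constructor
    · intro h; exact ⟨h a (by simp), h b (by simp)⟩
    · rintro ⟨h1, h2⟩ w (rfl | rfl)
      · exact h1
      · exact h2
  ext g
  rw [mem_EL, mem_EL]
  constructor
  · intro hg v h1 h2
    have h3 : v ∈ perp q (Submodule.span F {u, y}) := by rw [h, key]; exact ⟨h1, h2⟩
    rw [key] at h3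
    exact hg v h3.1 h3.2
  · intro hg v h1 h2
    have h3 : v ∈ perp q (Submodule.span F {u', y'}) := by rw [← h, key]; exact ⟨h1, h2⟩
    rw [key] at h3
    exact hg v h3.1 h3.2

theorem eich_mem_EL (hF : Fintype.card F = q ^ 2) {u y w : Fin n → F} (hu0 : u ≠ 0)
    {s : F} {g : SU n F q} (h : IsEich g u w s) :
    g ∈ EL u y ↔ w ∈ Submodule.span F {u, y} := by
  rw [mem_EL]
  constructor
  · intro hg
    rw [← perp_perp hF (Submodule.span F {u, y}), mem_perp' hF]
    intro v hv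
    rw [mem_perp_span hF] at hv
    have h1 := hv u (by simp)
    have h2 := hg v h1 (hv y (by simp))
    rw [h v, h1] at h2
    have h3 : ⟪v, w⟫ • u = 0 := by
      have : ⟪v, w⟫ • u = v - (v + (0 : F) • w - ⟪v, w⟫ • u + (s * 0) • u) := by module
      rw [this, h2, sub_self]
    rcases smul_eq_zero.1 h3 with h4 | h4
    · exact h4
    · exact absurd h4 hu0
  · intro hw v h1 h2
    obtain ⟨a, b, hab⟩ := Submodule.mem_span_pair.1 hw
    have h3 : ⟪v, w⟫ = 0 := by
      rw [← hab, hermForm_add_right hF, hermForm_smul_right, hermForm_smul_right, h1, h2]; ring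
    rw [h v, h1, h3]
    module

theorem mem_WB_EL (hF : Fintype.card F = q ^ 2) {u y w : Fin n → F} (hu0 : u ≠ 0)
    (hu : ⟪u, u⟫ = 0) (M : Subgroup (SU n F q)) :
    w ∈ WB hF u hu (M ⊓ EL u y) ↔ w ∈ WB hF u hu M ∧ w ∈ Submodule.span F {u, y} := by
  rw [mem_WB, mem_WB]
  constructor
  · rintro ⟨h1, g, ⟨hg, hgE⟩, s, hs, h⟩
    exact ⟨⟨h1, g, hg, s, hs, h⟩, (eich_mem_EL hF hu0 h).1 hgE⟩
  · rintro ⟨⟨h1, g, hg, s, hs, h⟩, hw⟩
    exact ⟨h1, g, ⟨hg, (eich_mem_EL hF hu0 h).2 hw⟩, s, hs, h⟩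

/-- The local order at the flag `(u, ⟨u, y⟩)`. -/
noncomputable def DD (hF : Fintype.card F = q ^ 2) (M : Subgroup (SU n F q)) (u : Fin n → F)
    (hu : hermForm n F q u u = 0) (y : Fin n → F) : ℕ :=
  Nat.card ↥(M ⊓ EL u y ⊓ Qs hF u hu)

/-- The local order for the standard point. -/
theorem DD_std (hF : Fintype.card F = q ^ 2) {e : Fin 2 → F} (he0 : e ≠ 0)
    (M : Subgroup (SU (2 + 2) F q)) (hu : ⟪kp e (0 : Fin 2 → F), kp e 0⟫ = 0)
    (hz : Nat.card ↥(M ⊓ Xs hF (kp e 0) hu) = 1) {c : F} {w₀ : Fin 2 → F} (hw₀ : w₀ ≠ 0) :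
    DD hF M (kp e 0) hu (kp (c • e) w₀) =
      Nat.card (Cw ((WB hF (kp e 0) hu M).comap (kp0 2 F)) w₀) := by
  classical
  set u := kp e (0 : Fin 2 → F) with hudef
  have hu0 : u ≠ 0 := kp_ne_zero_left he0 _
  set y := kp (c • e) w₀ with hy
  have h1 := card_inf_Qs hF hu0 hu (M ⊓ EL u y)
  have h2 : Nat.card ↥((M ⊓ EL u y) ⊓ Xs hF u hu) = 1 := by
    apply le_antisymm
    · rw [← hz]
      exact Subgroup.card_le_of_le (inf_le_inf_right _ inf_le_left)
    · exact Nat.card_pos
  rw [h2, one_mul] at h1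
  have h3 : Nat.card (WB hF u hu (M ⊓ EL u y)) =
      q ^ 2 * Nat.card (Cw ((WB hF u hu M).comap (kp0 2 F)) w₀) := by
    have hspan : ∀ (a b : F), kp (a • e) (b • w₀) ∈ Submodule.span F {u, y} := by
      intro a b
      rw [Submodule.mem_span_pair]
      refine ⟨a - b * c, b, ?_⟩
      rw [hudef, hy, ← kp_smul, ← kp_smul, ← kp_add, smul_zero, zero_add]
      congr 1
      module
    let f : F × Cw ((WB hF u hu M).comap (kp0 2 F)) w₀ → WB hF u hu (M ⊓ EL u y) := fun p =>
      ⟨kp (p.1 • e) ((p.2 : F) • w₀), (mem_WB_EL hF hu0 hu M).2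
        ⟨(kp_mem_WB hF M hu _ _).2 p.2.2, hspan _ _⟩⟩
    have hf : Function.Bijective f := by
      constructor
      · rintro ⟨a, b⟩ ⟨a', b'⟩ h
        have h4 := kp_inj (congrArg Subtype.val h)
        have h5 : a = a' := smul_left_injective F he0 h4.1
        have h6 : (b : F) = b' := smul_left_injective F hw₀ h4.2
        exact Prod.ext h5 (Subtype.ext h6)
      · rintro ⟨x, hx⟩
        obtain ⟨hx1, hx2⟩ := (mem_WB_EL hF hu0 hu M).1 hx
        obtain ⟨a, b, hab⟩ := Submodule.mem_span_pair.1 hx2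
        have h4 : x = kp ((a + b * c) • e) (b • w₀) := by
          rw [← hab, hudef, hy, ← kp_smul, ← kp_smul, ← kp_add, smul_zero, zero_add]
          congr 1
          module
        have h5 : b ∈ Cw ((WB hF u hu M).comap (kp0 2 F)) w₀ := by
          rw [mem_Cw]
          exact (kp_mem_WB hF M hu (a + b * c) _).1 (by rw [← h4]; exact hx1)
        exact ⟨(a + b * c, ⟨b, h5⟩), Subtype.ext h4.symm⟩
    rw [← Nat.card_congr (Equiv.ofBijective f hf), Nat.card_prod, Nat.card_eq_fintype_card, hF]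
  rw [h3] at h1
  have hq2pos : 0 < q ^ 2 := pow_pos (q_pos hF) _
  apply Nat.eq_of_mul_eq_mul_right hq2pos
  rw [DD, h1, mul_comm]

/-! ### Conjugation -/

theorem card_cj (k : SU n F q) (H : Subgroup (SU n F q)) : Nat.card (cj k H) = Nat.card H := by
  have h1 := Subgroup.card_mul_index (cj k H)
  have h2 := Subgroup.card_mul_index H
  rw [index_cj, ← h2] at h1
  exact Nat.eq_of_mul_eq_mul_right (Nat.pos_of_ne_zero Subgroup.index_ne_zero_of_finite) h1

theorem cj_inf (k : SU n F q) (H K : Subgroup (SU n F q)) : cj k (H ⊓ K) = cj k H ⊓ cj k K := rfl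

theorem cj_PP (k : SU n F q) (u : Fin n → F) : cj k (PP (q := q) (act k u)) = PP u := by
  ext g
  rw [mem_cj, mem_PP, mem_PP]
  constructor
  · rintro ⟨c, hc, h⟩
    refine ⟨c, hc, ?_⟩
    rw [act_mul, act_inv_act, act_mul, ← act_smul] at h
    exact act_inj.1 h
  · rintro ⟨c, hc, h⟩
    refine ⟨c, hc, ?_⟩
    rw [act_mul, act_inv_act, act_mul, h, act_smul]

theorem cj_EL (k : SU n F q) (u y : Fin n → F) :
    cj k (EL (q := q) (act k u) (act k y)) = EL u y := by
  ext g
  rw [mem_cj, mem_EL, mem_EL]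
  constructor
  · intro h v h1 h2
    have h3 := h (act k v) (by rw [act_form, h1]) (by rw [act_form, h2])
    rw [act_mul, act_inv_act, act_mul] at h3
    exact act_inj.1 h3
  · intro h v h1 h2
    have h3 := h (act k⁻¹ v) (by rw [← act_form k, act_act_inv, h1])
      (by rw [← act_form k, act_act_inv, h2])
    rw [act_mul, act_mul, h3, act_act_inv]

theorem cj_Qs (hF : Fintype.card F = q ^ 2) (k : SU n F q) {u : Fin n → F} (hu : ⟪u, u⟫ = 0)
    (hku : ⟪act k u, act k u⟫ = 0) : cj k (Qs hF (act k u) hku) = Qs hF u hu := by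
  ext g
  rw [mem_cj]
  constructor
  · intro h
    have := Qs_conj hF hku k⁻¹ h hu (act_inv_act k u)
    have e : k⁻¹ * (k * g * k⁻¹) * (k⁻¹)⁻¹ = g := by group
    rwa [e] at this
  · intro h
    exact Qs_conj hF hu k h hku rfl

theorem cj_Xs (hF : Fintype.card F = q ^ 2) (k : SU n F q) {u : Fin n → F} (hu : ⟪u, u⟫ = 0)
    (hku : ⟪act k u, act k u⟫ = 0) : cj k (Xs hF (act k u) hku) = Xs hF u hu := by
  ext g
  rw [mem_cj]
  constructor
  · intro h
    have := Xs_conj hF hku k⁻¹ h hu (act_inv_act k u)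
    have e : k⁻¹ * (k * g * k⁻¹) * (k⁻¹)⁻¹ = g := by group
    rwa [e] at this
  · intro h
    exact Xs_conj hF hu k h hku rfl

theorem relIndex_cj (k : SU n F q) (M K : Subgroup (SU n F q)) :
    (cj k M).relIndex (cj k K) = M.relIndex K := by
  have h1 := card_eq_relIndex_mul (cj k M) (cj k K)
  have h2 := card_eq_relIndex_mul M K
  rw [← cj_inf, card_cj, card_cj, h2] at h1
  exact (Nat.eq_of_mul_eq_mul_right Nat.card_pos h1).symm

theorem DD_cj (hF : Fintype.card F = q ^ 2) (k : SU n F q) (M : Subgroup (SU n F q))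
    {u : Fin n → F} (hu : ⟪u, u⟫ = 0) (hku : ⟪act k u, act k u⟫ = 0) (y : Fin n → F) :
    DD hF (cj k M) u hu y = DD hF M (act k u) hku (act k y) := by
  unfold DD
  rw [← card_cj k (M ⊓ EL (act k u) (act k y) ⊓ Qs hF (act k u) hku), cj_inf, cj_inf, cj_EL,
    cj_Qs hF k hu hku]

/-- An isotropic vector orthogonal to `u` and independent from it. -/
def Fl (q : ℕ) (u y : Fin n → F) : Prop :=
  LinearIndependent F ![u, y] ∧ hermForm n F q y y = 0 ∧ hermForm n F q u y = 0

/-- The outcome of step 1. -/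
def Out (hF : Fintype.card F = q ^ 2) (M : Subgroup (SU n F q)) (u : Fin n → F)
    (hu : hermForm n F q u u = 0) : Prop :=
  Nat.card ↥(M ⊓ Xs hF u hu) = 1 ∧ q ^ 3 * (q + 1) ≤ M.relIndex (PP u) ∧
    (((∃ y, Fl q u y ∧ DD hF M u hu y = q ^ 2) ∧
      ∀ y, Fl q u y → DD hF M u hu y = q ^ 2 ∨ DD hF M u hu y = 1) ∨
    (Even q ∧ ∀ y, Fl q u y → DD hF M u hu y = q))

theorem Fl_act (k : SU n F q) {u y : Fin n → F} : Fl q (act k u) (act k y) ↔ Fl q u y := by
  unfold Fl
  rw [act_form, act_form, LinearIndependent.pair_iff, LinearIndependent.pair_iff]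
  refine and_congr_left fun _ => ?_
  constructor
  · intro h s t hst
    apply h s t
    rw [← act_smul, ← act_smul, ← act_add, hst, act_zero]
  · intro h s t hst
    apply h s t
    apply act_inj.1
    rw [act_add, act_smul, act_smul, hst, act_zero]

theorem Out_cj (hF : Fintype.card F = q ^ 2) (k : SU n F q) (M : Subgroup (SU n F q))
    {u : Fin n → F} (hu : ⟪u, u⟫ = 0) (hku : ⟪act k u, act k u⟫ = 0) :
    Out hF (cj k M) u hu ↔ Out hF M (act k u) hku := by
  unfold Out
  have e1 : Nat.card ↥(cj k M ⊓ Xs hF u hu) = Nat.card ↥(M ⊓ Xs hF (act k u) hku) := by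
    rw [← cj_Xs hF k hu hku, ← cj_inf, card_cj]
  have e2 : (cj k M).relIndex (PP u) = M.relIndex (PP (act k u)) := by
    rw [← cj_PP k u, relIndex_cj]
  rw [e1, e2]
  refine and_congr_right fun _ => and_congr_right fun _ => ?_
  have hsurj : ∀ y : Fin n → F, ∃ y', act k y' = y := fun y => ⟨act k⁻¹ y, act_act_inv k y⟩
  apply or_congr
  · apply and_congr
    · constructor
      · rintro ⟨y, hy, h⟩
        exact ⟨act k y, (Fl_act k).2 hy, by rw [← DD_cj hF k M hu hku]; exact h⟩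
      · rintro ⟨y, hy, h⟩
        obtain ⟨y', rfl⟩ := hsurj y
        exact ⟨y', (Fl_act k).1 hy, by rw [DD_cj hF k M hu hku]; exact h⟩
    · constructor
      · intro h y hy
        obtain ⟨y', rfl⟩ := hsurj y
        rw [← DD_cj hF k M hu hku]
        exact h y' ((Fl_act k).1 hy)
      · intro h y hy
        rw [DD_cj hF k M hu hku]
        exact h _ ((Fl_act k).2 hy)
  · refine and_congr_right fun _ => ?_
    constructor
    · intro h y hy
      obtain ⟨y', rfl⟩ := hsurj y
      rw [← DD_cj hF k M hu hku]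
      exact h y' ((Fl_act k).1 hy)
    · intro h y hy
      rw [DD_cj hF k M hu hku]
      exact h _ ((Fl_act k).2 hy)

/-- Step 1 in dimension four. -/
theorem step4 (hF : Fintype.card F = q ^ 2) (M : Subgroup (SU (2 + 2) F q))
    (hM : M.index < (q + 1) * (q ^ 3 + 1)) {u : Fin (2 + 2) → F} (hu0 : u ≠ 0)
    (hu : ⟪u, u⟫ = 0) (hX : ¬ Xs hF u hu ≤ M) : Out hF M u hu := by
  obtain ⟨e, e', hee⟩ := exists_e2 hF
  have he0 : e ≠ 0 := hee.left_ne
  have he := hee.1
  have hk0 : ⟪kp e (0 : Fin 2 → F), kp e 0⟫ = 0 := by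
    rw [kp_form, hee.1, hermForm_zero_left, add_zero]
  obtain ⟨k, hk⟩ := exists_SU_single hF (by omega) (kp_ne_zero_left he0 (0 : Fin 2 → F)) hu0
    (hk0.trans hu.symm)
  subst hk
  rw [← Out_cj hF k M hk0 hu]
  obtain ⟨h1, h2, h3⟩ := step4_std hF he0 he (cj k M) (by rw [index_cj]; exact hM) hk0
    (by rw [Xs_le_cj hF hk0 hu rfl]; exact hX)
  refine ⟨h1, h2, ?_⟩
  -- shape of flags
  have hFl : ∀ y, Fl q (kp e (0 : Fin 2 → F)) y → ∃ (c : F) (w : Fin 2 → F), y = kp (c • e) w ∧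
      w ≠ 0 ∧ ⟪w, w⟫ = 0 := by
    rintro y ⟨hli, hyy, huy⟩
    obtain ⟨a, w, rfl⟩ := kp_surj y
    rw [kp_form, hermForm_zero_left, add_zero] at huy
    obtain ⟨c, rfl⟩ := eq_smul_of_perp2 hF he0 he huy
    refine ⟨c, w, rfl, ?_, ?_⟩
    · rintro rfl
      have h4 := (LinearIndependent.pair_iff.1 hli) c (-1) (by
        rw [← kp_smul_left]; module)
      exact one_ne_zero (neg_eq_zero.1 h4.2)
    · rw [kp_form, hermForm_smul_left, hermForm_smul_right, he] at hyy
      linear_combination hyy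
  rcases h3 with ⟨r, hr0, hrr, hr⟩ | ⟨hev, hr⟩
  · left
    constructor
    · refine ⟨kp ((0 : F) • e) r, ⟨?_, ?_, ?_⟩, ?_⟩
      · rw [LinearIndependent.pair_iff]
        intro s t hst
        rw [← kp_smul, ← kp_smul, ← kp_add, kp_eq_zero, smul_zero, zero_add, zero_smul, smul_zero,
          add_zero] at hst
        exact ⟨(smul_eq_zero.1 hst.1).resolve_right he0, (smul_eq_zero.1 hst.2).resolve_right hr0⟩
      · rw [zero_smul, kp_form, hermForm_zero_left, zero_add, hrr]
      · rw [zero_smul, kp_form, hermForm_zero_right hF, hermForm_zero_left, add_zero]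
      · rw [DD_std hF he0 _ hk0 h1 hr0]
        have e2 : Cw ((WB hF (kp e 0) hk0 (cj k M)).comap (kp0 2 F)) r = ⊤ := by
          rw [AddSubgroup.eq_top_iff']
          intro c
          rw [mem_Cw, hr]
          exact ⟨c, rfl⟩
        rw [e2]
        rw [← hF, ← Nat.card_eq_fintype_card]
        exact AddSubgroup.card_top
    · intro y hy
      obtain ⟨c, w, rfl, hw0, hw⟩ := hFl y hy
      rw [DD_std hF he0 _ hk0 h1 hw0]
      by_cases hwr : ∃ d : F, w = d • r
      · left
        obtain ⟨d, rfl⟩ := hwr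
        have e2 : Cw ((WB hF (kp e 0) hk0 (cj k M)).comap (kp0 2 F)) (d • r) = ⊤ := by
          rw [AddSubgroup.eq_top_iff']
          intro c
          rw [mem_Cw, hr]
          exact ⟨c * d, by rw [smul_smul]⟩
        rw [e2]
        rw [← hF, ← Nat.card_eq_fintype_card]
        exact AddSubgroup.card_top
      · right
        have e2 : Cw ((WB hF (kp e 0) hk0 (cj k M)).comap (kp0 2 F)) w = ⊥ := by
          rw [AddSubgroup.eq_bot_iff_forall]
          intro c hc
          rw [mem_Cw, hr] at hc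
          by_contra hc0
          apply hwr
          obtain ⟨d, hd⟩ := hc
          refine ⟨c⁻¹ * d, ?_⟩
          rw [← smul_smul, ← hd, smul_smul, inv_mul_cancel₀ hc0, one_smul]
        rw [e2]
        exact AddSubgroup.card_bot
  · right
    refine ⟨hev, fun y hy => ?_⟩
    obtain ⟨c, w, rfl, hw0, hw⟩ := hFl y hy
    rw [DD_std hF he0 _ hk0 h1 hw0]
    exact hr w hw0 hw

end Cfsg.Agent.MinU
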