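import Cfsg.Agent.MinU.N4L

/-!
# Step 2 in dimension four: `C` is empty or `M` fixes a line
-/

set_option autoImplicit false
set_option linter.unusedSectionVars false

namespace Cfsg.Agent.MinU

open Cfsg.Agent.Uni Finset

/-- Two different orbits on cosets. -/
theorem two_orbits {G : Type*} [Group G] [Finite G] (P M : Subgroup G) (k : G)
    (h : ∀ p ∈ P, ∀ m ∈ M, k⁻¹ ≠ p * m) :
    M.relIndex P + (M.comap (MulAut.conj k).toMonoidHom).relIndex P ≤ M.index := by
  classical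
  set M' := M.comap (MulAut.conj k).toMonoidHom with hM'
  have hmem : ∀ x, x ∈ M' ↔ k * x * k⁻¹ ∈ M := fun x => Iff.rfl
  let f : (P ⧸ M.subgroupOf P) ⊕ (P ⧸ M'.subgroupOf P) → G ⧸ M := fun o =>
    match o with
    | Sum.inl a => QuotientGroup.mk (a.out : G)
    | Sum.inr a => QuotientGroup.mk ((a.out : G) * k⁻¹)
  have key : ∀ (a : P ⧸ M.subgroupOf P) (b : P ⧸ M'.subgroupOf P), f (Sum.inl a) ≠ f (Sum.inr b) := by
    intro a b hab
    have h1 := QuotientGroup.eq.1 hab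
    refine h ((b.out : G)⁻¹ * (a.out : G)) (P.mul_mem (P.inv_mem b.out.2) a.out.2) _ h1 ?_
    group
  have hf : Function.Injective f := by
    intro o o' hoo
    rcases o with a | a <;> rcases o' with b | b
    · have h1 := QuotientGroup.eq.1 hoo
      have h2 : (QuotientGroup.mk a.out : P ⧸ M.subgroupOf P) = QuotientGroup.mk b.out := by
        rw [QuotientGroup.eq, Subgroup.mem_subgroupOf]
        exact h1
      have e1 : (QuotientGroup.mk a.out : P ⧸ M.subgroupOf P) = a := Quotient.out_eq' a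
      have e2 : (QuotientGroup.mk b.out : P ⧸ M.subgroupOf P) = b := Quotient.out_eq' b
      rw [e1, e2] at h2
      rw [h2]
    · exact absurd hoo (key a b)
    · exact absurd hoo.symm (key b a)
    · have h1 := QuotientGroup.eq.1 hoo
      have h2 : (QuotientGroup.mk a.out : P ⧸ M'.subgroupOf P) = QuotientGroup.mk b.out := by
        rw [QuotientGroup.eq, Subgroup.mem_subgroupOf, hmem]
        have e : k * ((a.out⁻¹ * b.out : P) : G) * k⁻¹ =
            ((a.out : G) * k⁻¹)⁻¹ * ((b.out : G) * k⁻¹) := by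
          rw [Subgroup.coe_mul, Subgroup.coe_inv]; group
        rw [e]
        exact h1
      have e1 : (QuotientGroup.mk a.out : P ⧸ M'.subgroupOf P) = a := Quotient.out_eq' a
      have e2 : (QuotientGroup.mk b.out : P ⧸ M'.subgroupOf P) = b := Quotient.out_eq' b
      rw [e1, e2] at h2
      rw [h2]
  have h1 := Nat.card_le_card_of_injective f hf
  rw [Nat.card_sum] at h1
  exact h1

variable {F : Type*} [Field F] [Fintype F] {q n m : ℕ}

local notation "⟪" x ", " y "⟫" => hermForm _ _ q x y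

/-- Duality of invariant subgroups. -/
theorem exists_dualB (hF : Fintype.card F = q ^ 2) (B : AddSubgroup (Fin n → F)) :
    ∃ T : AddSubgroup (Fin n → F), Nat.card B * Nat.card T = q ^ (2 * n) ∧
      stabB q B ≤ stabB q T := by
  classical
  obtain ⟨s₀, hs0, hs₀⟩ := exists_skew hF
  obtain ⟨ψ, hψ, -⟩ := exists_char hF ⊥ hs₀ (by rw [AddSubgroup.mem_bot]; exact hs0)
  let A : AddSubgroup (Fin n → F) := B.map (frobV hF)
  have hA : Nat.card A = Nat.card B :=
    Nat.card_congr (B.equivMapOfInjective (frobV hF) (frobV_inj hF)).symm.toEquiv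
  have h1 := Mdx.card_mul_card_dp hψ (fun b hb => dotB_nd b hb) A
  rw [hA, card_vec hF] at h1
  refine ⟨Mdx.dp ψ (dotB n F) A, h1, ?_⟩
  intro g hg y hy b hb
  obtain ⟨x, hx, rfl⟩ := hb
  rw [dotB_frobV]
  have h2 : act g⁻¹ x ∈ B := (stabB q B).inv_mem hg x hx
  have h3 := hy (frobV hF (act g⁻¹ x)) ⟨_, h2, rfl⟩
  rw [dotB_frobV] at h3
  have h4 : ⟪act g y, x⟫ = ⟪y, act g⁻¹ x⟫ := by
    rw [← act_form g y, act_act_inv]
  rw [h4, h3]

/-- Step 2, standard point. -/
theorem step42_std (hF : Fintype.card F = q ^ 2) {e : Fin 2 → F} (he0 : e ≠ 0) (he : ⟪e, e⟫ = 0)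
    (M : Subgroup (SU (2 + 2) F q))
    (hu : ⟪kp e (0 : Fin 2 → F), kp e 0⟫ = 0) (hX : Xs hF (kp e 0) hu ≤ M)
    (hρ : M.relIndex (PP (kp e 0)) ≤ q) : Qs hF (kp e 0) hu ≤ M := by
  classical
  set u := kp e (0 : Fin 2 → F) with hudef
  have hu0 : u ≠ 0 := kp_ne_zero_left he0 _
  obtain ⟨B, hBd⟩ : ∃ B, B = (WB hF u hu M).comap (kp0 2 F) := ⟨_, rfl⟩
  have hq := two_le_q hF
  have h1 := index_ge_fix hF hu M
  have h3 := card_eq_relIndex_mul M (Qs hF u hu)
  have h4 := card_inf_Qs hF hu0 hu M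
  have h5 := card_Qs hF hu0 hu
  rw [card_WB_std hF he0 he M hu, ← hBd, inf_eq_right.2 hX, card_Xs hF hu0 hu] at h4
  have h6 : (stabB q B).index ≤ (KK hF u hu M).relIndex (fixs u) := by
    calc (stabB q B).index ≤ ((KK hF u hu M).comap (emb2 2 F q)).index := by
          apply Subgroup.index_antitone
          rw [hBd]
          exact KK_le_stabB hF M hu
      _ = (KK hF u hu M).relIndex (emb2 2 F q).range := Subgroup.index_comap _ _
      _ ≤ _ := by
          apply Subgroup.relIndex_le_of_le_right _ (rel_ne_zero _ _)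
          rintro _ ⟨g, rfl⟩
          change act _ u = u
          rw [hudef, act_emb2, act_zero]
  have h11 : M.relIndex (fixs u) ≤ M.relIndex (PP u) :=
    Subgroup.relIndex_le_of_le_right (fixs_le_PP u) (rel_ne_zero _ _)
  have hq2pos : 0 < q ^ 2 := pow_pos (by omega) _
  have h4' : Nat.card ↥(M ⊓ Qs hF u hu) = q * Nat.card B := by
    apply Nat.eq_of_mul_eq_mul_right hq2pos
    rw [h4]; ring
  have h5' : Nat.card (Qs hF u hu) = q ^ 5 := by
    apply Nat.eq_of_mul_eq_mul_right hq2pos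
    rw [h5]; ring
  have hRb : M.relIndex (Qs hF u hu) * Nat.card B = q ^ 4 := by
    apply Nat.eq_of_mul_eq_mul_right (show 0 < q by omega)
    rw [h5', h4'] at h3
    rw [mul_assoc, mul_comm (Nat.card B), ← h3]; ring
  have hRpos : 0 < M.relIndex (Qs hF u hu) := Nat.pos_of_ne_zero (rel_ne_zero _ _)
  have hIpos : 0 < (stabB q B).index := Nat.pos_of_ne_zero Subgroup.index_ne_zero_of_finite
  have hRI : M.relIndex (Qs hF u hu) * (stabB q B).index ≤ q :=
    ((Nat.mul_le_mul_left _ h6).trans h1).trans (h11.trans hρ)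
  by_contra hcon
  have hR1 : M.relIndex (Qs hF u hu) ≠ 1 := fun h => hcon (Subgroup.relIndex_eq_one.1 h)
  have hR2 : 2 ≤ M.relIndex (Qs hF u hu) := by omega
  obtain ⟨T, hT, hTs⟩ := exists_dualB hF B
  have hTR : Nat.card T = M.relIndex (Qs hF u hu) := by
    have hb : 0 < Nat.card B := Nat.card_pos
    apply Nat.eq_of_mul_eq_mul_left hb
    rw [hT, mul_comm (Nat.card B), hRb]
  have hTI : (stabB q T).index < q := by
    have h7 := Subgroup.index_antitone hTs
    have h8 : 2 * (stabB q B).index ≤ q := (Nat.mul_le_mul_right _ hR2).trans hRI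
    omega
  have hTne : T ≠ ⊥ := by
    rintro rfl
    rw [AddSubgroup.card_bot] at hTR
    omega
  have h9 := (struct2 hF hTne hTI).1
  have h10 : M.relIndex (Qs hF u hu) ≤ q := by
    calc M.relIndex (Qs hF u hu) = M.relIndex (Qs hF u hu) * 1 := (mul_one _).symm
      _ ≤ M.relIndex (Qs hF u hu) * (stabB q B).index := Nat.mul_le_mul_left _ hIpos
      _ ≤ q := hRI
  rw [hTR] at h9
  nlinarith

/-- Step 2. -/
theorem step42 (hF : Fintype.card F = q ^ 2) (M : Subgroup (SU (2 + 2) F q)) (hMt : M ≠ ⊤)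
    (hM : M.index < (q + 1) * (q ^ 3 + 1)) {u : Fin (2 + 2) → F} (hu0 : u ≠ 0)
    (hu : ⟪u, u⟫ = 0) (hX : Xs hF u hu ≤ M) : Qs hF u hu ≤ M := by
  obtain ⟨u', hu'0, hu', hCc⟩ := exists_not_Cc hF (by omega) (by omega) hMt
  obtain ⟨k, hk⟩ := exists_SU_single hF (by omega) hu0 hu'0 (hu.trans hu'.symm)
  have hX' : ¬ Xs hF u hu ≤ cj k M := by
    rw [Xs_le_cj hF hu hu' hk]
    intro h
    exact hCc ⟨hu'0, hu', h⟩
  have h1 := (step4 hF (cj k M) (by rw [index_cj]; exact hM) hu0 hu hX').2.1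
  have h2 := two_orbits (PP (q := q) u) M k (by
    rintro p ⟨c, hc, hp⟩ m hm hkp
    apply hCc
    have e1 : act k⁻¹ u' = u := by rw [← hk, act_inv_act]
    have e2 : act m u' = act p⁻¹ u := by
      rw [← e1, hkp, act_mul, act_inv_act]
    have hp' : act p⁻¹ u = c⁻¹ • u := by
      have : u = c⁻¹ • act p u := by rw [hp, smul_smul, inv_mul_cancel₀ hc, one_smul]
      conv_lhs => rw [this]
      rw [act_smul, act_inv_act]
    have e3 : u' = act m⁻¹ (c⁻¹ • u) := by rw [← hp', ← e2, act_inv_act]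
    rw [e3]
    exact Cc_act hF (M.inv_mem hm) (Cc_smul hF ⟨hu0, hu, hX⟩ (inv_ne_zero hc)))
  have h3 : M.relIndex (PP u) ≤ q := by
    have h4 : M.relIndex (PP u) + q ^ 3 * (q + 1) ≤ M.index := by
      refine le_trans ?_ h2
      exact Nat.add_le_add_left h1 _
    have h5 : (q + 1) * (q ^ 3 + 1) = q ^ 3 * (q + 1) + (q + 1) := by ring
    omega
  -- transport to the standard point
  obtain ⟨e, e', hee⟩ := exists_e2 hF
  have he0 : e ≠ 0 := hee.left_ne
  have hk0 : ⟪kp e (0 : Fin 2 → F), kp e 0⟫ = 0 := by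
    rw [kp_form, hee.1, hermForm_zero_left, add_zero]
  obtain ⟨j, hj⟩ := exists_SU_single hF (by omega) (kp_ne_zero_left he0 (0 : Fin 2 → F)) hu0
    (hk0.trans hu.symm)
  subst hj
  have h6 := step42_std hF he0 hee.1 (cj j M) hk0
    (by rw [← cj_Xs hF j hk0 hu]; exact Subgroup.comap_mono hX)
    (by rw [← cj_PP j, relIndex_cj]; exact h3)
  rw [← cj_Qs hF j hk0 hu] at h6
  intro g hg
  have h7 : j⁻¹ * g * j ∈ cj j (Qs hF (act j (kp e 0)) hu) := by
    rw [mem_cj]
    have : j * (j⁻¹ * g * j) * j⁻¹ = g := by group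
    rwa [this]
  have h8 := h6 h7
  rw [mem_cj] at h8
  have : j * (j⁻¹ * g * j) * j⁻¹ = g := by group
  rwa [this] at h8

/-- `Q_a` acts transitively on points not orthogonal to `a`. -/
theorem Cc_move (hF : Fintype.card F = q ^ 2) {M : Subgroup (SU n F q)} {a b w : Fin n → F}
    (ha : ⟪a, a⟫ = 0) (hQ : Qs hF a ha ≤ M) (hb : Cc hF M b) (hba : ⟪b, a⟫ ≠ 0)
    (hw : ⟪w, w⟫ = 0) (hwa : ⟪w, a⟫ ≠ 0) : Cc hF M w := by
  set b' := (⟪b, a⟫)⁻¹ • b with hb'
  set w' := (⟪w, a⟫)⁻¹ • w with hw'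
  have hb'a : ⟪b', a⟫ = 1 := by rw [hb', hermForm_smul_left, inv_mul_cancel₀ hba]
  have hw'a : ⟪w', a⟫ = 1 := by rw [hw', hermForm_smul_left, inv_mul_cancel₀ hwa]
  have hb'b' : ⟪b', b'⟫ = 0 := by
    rw [hb', hermForm_smul_left, hermForm_smul_right, hb.2.1, mul_zero, mul_zero]
  have hw'w' : ⟪w', w'⟫ = 0 := by
    rw [hw', hermForm_smul_left, hermForm_smul_right, hw, mul_zero, mul_zero]
  have hab' : ⟪a, b'⟫ = 1 := by rw [← hermForm_symm hF, hb'a, one_pow]
  have haw' : ⟪a, w'⟫ = 1 := by rw [← hermForm_symm hF, hw'a, one_pow]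
  have hsym : ⟪b', w'⟫ ^ q = ⟪w', b'⟫ := hermForm_symm hF _ _
  obtain ⟨g, hg⟩ := exists_eich hF a (w' - b') ⟪b', w'⟫ ha (by
    rw [hermForm_sub_right hF, hab', haw', sub_self]) (by
    rw [hermForm_sub_left, hermForm_sub_right hF, hermForm_sub_right hF, hw'w', hb'b', hsym]
    ring)
  have hgM : g ∈ M := by
    apply hQ
    refine ⟨w' - b', ⟪b', w'⟫, ?_, ?_, hg⟩
    · rw [hermForm_sub_right hF, hab', haw', sub_self]
    · rw [hermForm_sub_left, hermForm_sub_right hF, hermForm_sub_right hF, hw'w', hb'b', hsym]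
      ring
  have h1 : act g b' = w' := by
    rw [hg b', hb'a, hermForm_sub_right hF, hb'b']
    module
  have h2 : Cc hF M b' := Cc_smul hF hb (inv_ne_zero hba)
  have h3 : Cc hF M w' := by rw [← h1]; exact Cc_act hF hgM h2
  have h4 : w = ⟪w, a⟫ • w' := by rw [hw', smul_smul, mul_inv_cancel₀ hwa, one_smul]
  rw [h4]
  exact Cc_smul hF h3 hwa

/-- The points of `C` are pairwise orthogonal. -/
theorem Cc_perp (hF : Fintype.card F = q ^ 2) (hn : 2 ≤ n) (h32 : ¬ (n = 3 ∧ q = 2))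
    {M : Subgroup (SU n F q)} (hMt : M ≠ ⊤)
    (hQ : ∀ (u : Fin n → F) (_ : u ≠ 0) (hu : ⟪u, u⟫ = 0), Xs hF u hu ≤ M → Qs hF u hu ≤ M)
    {u v : Fin n → F} (hu : Cc hF M u) (hv : Cc hF M v) : ⟪v, u⟫ = 0 := by
  by_contra hvu
  have huv : ⟪u, v⟫ ≠ 0 := fun h => hvu ((hermForm_eq_zero_comm hF).1 h)
  obtain ⟨w, hw0, hw, hwC⟩ := exists_not_Cc hF hn h32 hMt
  apply hwC
  have hQu := hQ u hu.1 hu.2.1 hu.2.2
  have hQv := hQ v hv.1 hv.2.1 hv.2.2
  by_cases h1 : ⟪w, u⟫ = 0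
  · by_cases h2 : ⟪w, v⟫ = 0
    · obtain ⟨x, hx, hux, hwx⟩ := exists_isotropic_form_ne_two hF hn hu.1 hw0
      have hxC : Cc hF M x := Cc_move hF hu.2.1 hQu hv hvu hx
        (fun h => hux ((hermForm_eq_zero_comm hF).1 h))
      exact Cc_move hF hx (hQ x hxC.1 hx hxC.2.2) hu hux hw hwx
    · exact Cc_move hF hv.2.1 hQv hu huv hw h2
  · exact Cc_move hF hu.2.1 hQu hv hvu hw h1

end Cfsg.Agent.MinU
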