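import Cfsg.Agent.MinU.N4L

/-!
# The index of the stabiliser of a totally isotropic line
-/

set_option autoImplicit false
set_option linter.unusedSectionVars false

namespace Cfsg.Agent.MinU

open Cfsg.Agent.Uni Finset

variable {F : Type*} [Field F] [Fintype F] {q n m : ℕ}

local notation "⟪" x ", " y "⟫" => hermForm _ _ q x y

/-- Transitivity on totally isotropic pairs, up to a scalar. -/
theorem pair_trans (hF : Fintype.card F = q ^ 2) {u y u' y' : Fin n → F}
    (hu : ⟪u, u⟫ = 0) (hy : Fl q u y) (hu' : ⟪u', u'⟫ = 0) (hy' : Fl q u' y') :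
    ∃ (g : SU n F q) (c : F), c ≠ 0 ∧ act g u = u' ∧ act g y = c • y' := by
  obtain ⟨hli, hyy, huy⟩ := hy
  obtain ⟨hli', hyy', huy'⟩ := hy'
  have hyu := (hermForm_eq_zero_comm hF).1 huy
  have hyu' := (hermForm_eq_zero_comm hF).1 huy'
  obtain ⟨g, hg⟩ := exists_GU_of_family hF (x := ![u, y]) (y := ![u', y']) hli hli' (by
    intro i j
    fin_cases i <;> fin_cases j <;> simp [hu, hu', hyy, hyy', huy, huy', hyu, hyu'])
  have hg0 : gact g u = u' := hg 0
  have hg1 : gact g y = y' := hg 1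
  set d : Fˣ := (detHom hF n g : Fˣ) with hd
  have hdn : ((d : F))⁻¹ ^ (q + 1) = 1 := by
    have h1 := (GU_pres g).det_norm hF
    have h2 : (d : F) = ((g : GL (Fin n) F) : Matrix (Fin n) (Fin n) F).det := detHom_coe hF g
    rw [← h2] at h1
    rw [inv_pow, h1, inv_one]
  -- the hyperbolic partner of `y'` orthogonal to `u'`
  obtain ⟨v, hvu, hvy⟩ := exists_dual2 hF hli'
  obtain ⟨c, hc⟩ := exists_trace_eq hF (c := -⟪v, v⟫) (by
    rw [neg_pow_q hF, hermForm_self_pow_q hF])
  have hyv : ⟪y', v⟫ = 1 := by rw [← hermForm_symm hF, hvy, one_pow]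
  have huv : ⟪u', v⟫ = 0 := (hermForm_eq_zero_comm hF).1 hvu
  have hH : Hyp q y' (v + c • y') := by
    refine ⟨hyy', ?_, ?_⟩
    · simp only [hermForm_add_left, hermForm_add_right hF, hermForm_smul_left,
        hermForm_smul_right, hvy, hyv, hyy']
      linear_combination hc
    · rw [hermForm_add_right hF, hermForm_smul_right, hyv, hyy']; ring
  obtain ⟨a, ha0, ha⟩ := exists_hilbert90 hF hdn
  obtain ⟨t, ht, htd⟩ := exists_gtorus hF hH (a := a) ha0
  have haq : a ^ q ≠ 0 := pow_ne_zero _ ha0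
  have hdet : detHom hF n (t * g) = 1 := by
    apply Subtype.ext
    apply Units.ext
    rw [map_mul]
    change ((detHom hF n t : Fˣ) : F) * ((detHom hF n g : Fˣ) : F) = 1
    rw [htd, ← hd]
    have e1 : a * (a ^ q)⁻¹ = ((d : F))⁻¹ := by
      calc a * (a ^ q)⁻¹ = (((d : F))⁻¹ * a ^ q) * (a ^ q)⁻¹ := by rw [← ha]
        _ = _ := by rw [mul_assoc, mul_inv_cancel₀ haq, mul_one]
    rw [e1, inv_mul_cancel₀ d.ne_zero]
  have hmem : t * g ∈ (suToGU hF n).range := by
    rw [suToGU_range, MonoidHom.mem_ker]; exact hdet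
  obtain ⟨s, hs⟩ := hmem
  refine ⟨s, a, ha0, ?_, ?_⟩
  · rw [← gact_suToGU hF, hs, gact_mul, hg0, ht, hermForm_add_right hF, hermForm_smul_right, huv,
      huy']
    module
  · rw [← gact_suToGU hF, hs, gact_mul, hg1, ht, hH.2.2, hyy']
    module

/-- The plane spanned by two vectors as an additive group. -/
def spn (u y : Fin n → F) : AddSubgroup (Fin n → F) := (Submodule.span F {u, y}).toAddSubgroup

theorem mem_spn {u y x : Fin n → F} : x ∈ spn u y ↔ ∃ a b : F, x = a • u + b • y := by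
  change x ∈ Submodule.span F {u, y} ↔ _
  rw [Submodule.mem_span_pair]
  exact ⟨fun ⟨a, b, h⟩ => ⟨a, b, h.symm⟩, fun ⟨a, b, h⟩ => ⟨a, b, h.symm⟩⟩

theorem mem_stab_spn {u y : Fin n → F} {g : SU n F q} (h1 : act g u ∈ spn u y)
    (h2 : act g y ∈ spn u y) : g ∈ stabB q (spn u y) := by
  intro x hx
  obtain ⟨a, b, rfl⟩ := mem_spn.1 hx
  rw [act_add, act_smul, act_smul]
  exact Submodule.add_mem _ (Submodule.smul_mem _ _ h1) (Submodule.smul_mem _ _ h2)

theorem card_spn (hF : Fintype.card F = q ^ 2) {u y : Fin n → F}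
    (hli : LinearIndependent F ![u, y]) : Nat.card (spn u y) = q ^ 4 := by
  have h1 := card_submod hF (Submodule.span F {u, y})
  have h2 : Module.finrank F (Submodule.span F ({u, y} : Set (Fin n → F))) = 2 := by
    have := finrank_span_eq_card hli
    rw [Fintype.card_fin, Matrix.range_cons, Matrix.range_cons, Matrix.range_empty,
      Set.union_empty, Set.singleton_union] at this
    exact this
  rw [h2] at h1
  exact h1

theorem Fl.symm {u y : Fin n → F} (hF : Fintype.card F = q ^ 2) (hu : ⟪u, u⟫ = 0)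
    (h : Fl q u y) : Fl q y u :=
  ⟨li_swap h.1, hu, (hermForm_eq_zero_comm hF).1 h.2.2⟩

/-- The orbit of `u` under the stabiliser of the line. -/
theorem relIndex_line_one (hF : Fintype.card F = q ^ 2) {u y : Fin n → F}
    (hu : ⟪u, u⟫ = 0) (hy : Fl q u y) :
    (fixs u).relIndex (stabB q (spn u y)) = q ^ 4 - 1 := by
  classical
  rw [relIndex_fixs]
  have hli' := LinearIndependent.pair_iff.1 hy.1
  have hu0 : u ≠ 0 := by
    intro h
    have := hli' 1 0 (by rw [h]; module)
    exact one_ne_zero this.1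
  have hyu := (hermForm_eq_zero_comm hF).1 hy.2.2
  have h1 : Nat.card {v : Fin n → F // ∃ g ∈ stabB q (spn u y), act g u = v} =
      Nat.card {v : spn u y // v ≠ 0} := by
    refine Nat.card_congr ⟨fun v => ⟨⟨v.1, ?_⟩, ?_⟩, fun v => ⟨v.1.1, ?_⟩, fun v => rfl,
      fun v => rfl⟩
    · obtain ⟨g, hg, h⟩ := v.2
      rw [← h]
      exact hg u (mem_spn.2 ⟨1, 0, by module⟩)
    · intro h
      obtain ⟨g, hg, h'⟩ := v.2
      have h2 : v.1 = 0 := congrArg Subtype.val h
      rw [h2] at h'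
      exact act_ne_zero hu0 h'
    · obtain ⟨⟨v, hv⟩, hv0⟩ := v
      have hv0' : v ≠ 0 := fun h => hv0 (Subtype.ext h)
      obtain ⟨a, b, rfl⟩ := mem_spn.1 hv
      have hvv : ⟪a • u + b • y, a • u + b • y⟫ = 0 := by
        simp only [hermForm_add_left, hermForm_add_right hF, hermForm_smul_left,
          hermForm_smul_right, hu, hy.2.1, hy.2.2, hyu]
        ring
      by_cases hb : b = 0
      · have ha : a ≠ 0 := by
          rintro rfl
          apply hv0'
          rw [hb]; module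
        obtain ⟨g, c, hc, hgu, hgy⟩ := pair_trans hF hu hy (u' := a • u + b • y) (y' := y) hvv
          ⟨by
            rw [LinearIndependent.pair_iff]
            intro s t hst
            have h3 := hli' (s * a) (s * b + t) (by rw [← hst]; module)
            rw [hb, mul_zero, zero_add] at h3
            exact ⟨(mul_eq_zero.1 h3.1).resolve_right ha, h3.2⟩, hy.2.1, by
            rw [hermForm_add_left, hermForm_smul_left, hermForm_smul_left, hy.2.1, hy.2.2]
            ring⟩
        refine ⟨g, mem_stab_spn ?_ ?_, hgu⟩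
        · rw [hgu]; exact hv
        · rw [hgy]; exact mem_spn.2 ⟨0, c, by module⟩
      · obtain ⟨g, c, hc, hgu, hgy⟩ := pair_trans hF hu hy (u' := a • u + b • y) (y' := u) hvv
          ⟨by
            rw [LinearIndependent.pair_iff]
            intro s t hst
            have h3 := hli' (s * a + t) (s * b) (by rw [← hst]; module)
            have h4 := (mul_eq_zero.1 h3.2).resolve_right hb
            rw [h4, zero_mul, zero_add] at h3
            exact ⟨h4, h3.1⟩, hu, by
            rw [hermForm_add_left, hermForm_smul_left, hermForm_smul_left, hu, hyu]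
            ring⟩
        refine ⟨g, mem_stab_spn ?_ ?_, hgu⟩
        · rw [hgu]; exact hv
        · rw [hgy]; exact mem_spn.2 ⟨c, 0, by module⟩
  rw [h1]
  have h2 := card_spn hF hy.1
  have := Fintype.ofFinite (spn u y)
  rw [Nat.card_eq_fintype_card] at h2 ⊢
  rw [Fintype.card_subtype_compl, h2]
  simp

/-- The number of lines through a point. -/
theorem relIndex_line_two (hF : Fintype.card F = q ^ 2) {e : Fin 2 → F} (he0 : e ≠ 0)
    (he : ⟪e, e⟫ = 0) {w₀ : Fin 2 → F} (hw₀0 : w₀ ≠ 0) (hw₀ : ⟪w₀, w₀⟫ = 0) :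
    (stabB q (spn (kp e (0 : Fin 2 → F)) (kp 0 w₀))).relIndex (fixs (kp e 0)) = q + 1 := by
  classical
  set u := kp e (0 : Fin 2 → F) with hudef
  set S := stabB q (spn u (kp 0 w₀)) with hS
  have hu : ⟪u, u⟫ = 0 := by rw [hudef, kp_form, he, hermForm_zero_left, add_zero]
  have hu0 : u ≠ 0 := kp_ne_zero_left he0 _
  have hFl : ∀ w : Fin 2 → F, w ≠ 0 → ⟪w, w⟫ = 0 → Fl q u (kp 0 w) := by
    intro w hw0 hw
    refine ⟨?_, ?_, ?_⟩
    · rw [LinearIndependent.pair_iff]
      intro s t hst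
      rw [hudef, ← kp_smul, ← kp_smul, ← kp_add, kp_eq_zero, smul_zero, smul_zero, add_zero,
        zero_add] at hst
      exact ⟨(smul_eq_zero.1 hst.1).resolve_right he0, (smul_eq_zero.1 hst.2).resolve_right hw0⟩
    · rw [kp_form, hermForm_zero_left, zero_add, hw]
    · rw [hudef, kp_form, hermForm_zero_right hF, hermForm_zero_left, add_zero]
  let Ω := {w : Fin 2 → F // w ≠ 0 ∧ ⟪w, w⟫ = 0}
  have hex : ∀ w : Ω, ∃ (h : SU (2 + 2) F q) (c : F), c ≠ 0 ∧ act h u = u ∧
      act h (kp 0 w₀) = c • kp 0 w.1 := fun w =>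
    pair_trans hF hu (hFl w₀ hw₀0 hw₀) hu (hFl w.1 w.2.1 w.2.2)
  choose h c hc0 hhu hhw using hex
  -- action of elements of `fixs u`
  have hact : ∀ g : SU (2 + 2) F q, act g u = u → ∃ (a : F) (w : Ω),
      act g (kp 0 w₀) = kp (a • e) w.1 := by
    intro g hg
    obtain ⟨a, w, haw⟩ := act_kp_std hF he0 he one_ne_zero (g := g) (by rw [one_smul]; exact hg) w₀
    refine ⟨a, ⟨w, ?_, ?_⟩, haw⟩
    · rintro rfl
      have h1 : act g (kp 0 w₀ - a • u) = 0 := by
        rw [act_sub, act_smul, hg, haw, kp_smul_left, sub_self]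
      have h2 : kp 0 w₀ - a • u = 0 := by
        rw [← act_inv_act g (kp 0 w₀ - a • u), h1, act_zero]
      have h3 := (LinearIndependent.pair_iff.1 (hFl w₀ hw₀0 hw₀).1) (-a) 1 (by
        rw [← h2]; module)
      exact one_ne_zero h3.2
    · have h1 := act_form g (kp 0 w₀) (kp 0 w₀)
      rw [haw, kp_form, kp_form, hermForm_smul_left, hermForm_smul_right, he, hermForm_zero_left,
        zero_add, hw₀, mul_zero, mul_zero, zero_add] at h1
      exact h1
  let f : Ω → (fixs (q := q) u) ⧸ (S.subgroupOf (fixs u)) := fun w =>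
    QuotientGroup.mk ⟨h w, hhu w⟩
  have hfib : ∀ b, Nat.card {w // f w = b} = q ^ 2 - 1 := by
    intro b
    obtain ⟨g, rfl⟩ := QuotientGroup.mk_surjective b
    obtain ⟨a, w₁, hgw⟩ := hact g.1 g.2
    have hiff : ∀ w : Ω, f w = QuotientGroup.mk g ↔ ∃ d : F, w.1 = d • w₁.1 := by
      intro w
      have e1 : f w = QuotientGroup.mk g ↔ (h w)⁻¹ * g.1 ∈ S := by
        change (QuotientGroup.mk (⟨h w, hhu w⟩ : fixs u) : (fixs (q := q) u) ⧸ _) = _ ↔ _
        rw [QuotientGroup.eq, Subgroup.mem_subgroupOf]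
        rfl
      rw [e1]
      have hgu : act g.1 u = u := g.2
      constructor
      · intro hS1
        have h2 := hS1 (kp 0 w₀) (mem_spn.2 ⟨0, 1, by module⟩)
        obtain ⟨x, y, hxy⟩ := mem_spn.1 h2
        rw [act_mul, hgw] at hxy
        have h3 : kp (a • e) w₁.1 = x • u + (y * c w) • kp 0 w.1 := by
          have h4 := congrArg (act (h w)) hxy
          rw [act_act_inv, act_add, act_smul, act_smul, hhu, hhw] at h4
          rw [h4, smul_smul]
        rw [hudef, ← kp_smul, ← kp_smul, ← kp_add] at h3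
        have h4 := (kp_inj h3).2
        rw [smul_zero, zero_add] at h4
        have hyc : y * c w ≠ 0 := by
          intro h5
          rw [h5, zero_smul] at h4
          exact w₁.2.1 h4
        exact ⟨(y * c w)⁻¹, by rw [h4, smul_smul, inv_mul_cancel₀ hyc, one_smul]⟩
      · rintro ⟨d, hd⟩
        have hd0 : d ≠ 0 := by
          rintro rfl
          rw [zero_smul] at hd
          exact w.2.1 hd
        have hcu : act (h w)⁻¹ u = u := (fixs u).inv_mem (hhu w)
        apply mem_stab_spn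
        · rw [act_mul, hgu, hcu]
          exact mem_spn.2 ⟨1, 0, by module⟩
        · have h2 : kp (a • e) w₁.1 = a • u + (d⁻¹ * (c w)⁻¹) • (c w • kp 0 w.1) := by
            rw [smul_smul, mul_assoc, inv_mul_cancel₀ (hc0 w), mul_one, hudef, ← kp_smul, ← kp_smul,
              ← kp_add, smul_zero, smul_zero, add_zero, zero_add, hd, smul_smul,
              inv_mul_cancel₀ hd0, one_smul]
          rw [act_mul, hgw, h2, ← hhw w, act_add, act_smul, act_smul, act_inv_act, hcu]
          exact mem_spn.2 ⟨_, _, rfl⟩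
    have e2 : {d : F // d ≠ 0} ≃ {w : Ω // f w = QuotientGroup.mk g} := by
      refine Equiv.ofBijective (fun d => ⟨⟨d.1 • w₁.1, smul_ne_zero d.2 w₁.2.1, by
        rw [hermForm_smul_left, hermForm_smul_right, w₁.2.2, mul_zero, mul_zero]⟩,
        (hiff _).2 ⟨d.1, rfl⟩⟩) ⟨?_, ?_⟩
      · intro d d' hdd
        have h1 : d.1 • w₁.1 = d'.1 • w₁.1 := congrArg (fun z => z.1.1) hdd
        exact Subtype.ext (smul_left_injective F w₁.2.1 h1)
      · rintro ⟨w, hw⟩
        obtain ⟨d, hd⟩ := (hiff w).1 hw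
        refine ⟨⟨d, ?_⟩, Subtype.ext (Subtype.ext hd.symm)⟩
        rintro rfl
        rw [zero_smul] at hd
        exact w.2.1 hd
    rw [← Nat.card_congr e2, Nat.card_eq_fintype_card, Fintype.card_subtype_compl, hF]
    simp
  have h1 := card_of_fibers f (q ^ 2 - 1) hfib
  have h2 : Nat.card Ω = cnt 2 F q 0 - 1 := by
    have e1 : Nat.card {v : Fin 2 → F // ⟪v, v⟫ = 0} = Nat.card Ω + 1 := by
      rw [Nat.card_eq_fintype_card, Nat.card_eq_fintype_card, Fintype.card_subtype,
        Fintype.card_subtype]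
      have : (univ.filter fun v : Fin 2 → F => ⟪v, v⟫ = 0) =
          insert 0 (univ.filter fun v : Fin 2 → F => v ≠ 0 ∧ ⟪v, v⟫ = 0) := by
        ext v
        simp only [mem_filter, mem_univ, true_and, mem_insert]
        constructor
        · intro h
          by_cases hv : v = 0
          · exact Or.inl hv
          · exact Or.inr ⟨hv, h⟩
        · rintro (h | h)
          · rw [h]; exact hermForm_zero_left _
          · exact h.2
      rw [this, card_insert_of_notMem (by simp)]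
    unfold cnt
    omega
  have h3 := cnt_zero_sub_one hF (F := F) (q := q) 1
  have h4 : ((Nat.card Ω : ℕ) : ℤ) = ((q : ℤ) ^ 2 - 1) * ((q : ℤ) + 1) := by
    rw [h2, h3]; ring
  have h5 : (S.relIndex (fixs u) : ℤ) * ((q : ℤ) ^ 2 - 1) = ((q : ℤ) + 1) * ((q : ℤ) ^ 2 - 1) := by
    have e1 : Nat.card Ω = S.relIndex (fixs u) * (q ^ 2 - 1) := h1
    have e2 : 1 ≤ q ^ 2 := pow_pos (q_pos hF) _
    rw [e1] at h4
    push_cast [Nat.cast_sub e2] at h4
    linarith
  have hq := two_le_q hF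
  have hqz : (2 : ℤ) ≤ q := by exact_mod_cast hq
  have h6 := mul_right_cancel₀ (show ((q : ℤ) ^ 2 - 1) ≠ 0 by nlinarith) h5
  exact_mod_cast h6

/-- The index of the stabiliser of a totally isotropic line, standard position. -/
theorem index_line_std (hF : Fintype.card F = q ^ 2) {e : Fin 2 → F} (he0 : e ≠ 0)
    (he : ⟪e, e⟫ = 0) {w₀ : Fin 2 → F} (hw₀0 : w₀ ≠ 0) (hw₀ : ⟪w₀, w₀⟫ = 0) :
    (stabB q (spn (kp e (0 : Fin 2 → F)) (kp 0 w₀))).index = (q + 1) * (q ^ 3 + 1) := by
  have hu : ⟪kp e (0 : Fin 2 → F), kp e 0⟫ = 0 := by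
    rw [kp_form, he, hermForm_zero_left, add_zero]
  have hu0 : kp e (0 : Fin 2 → F) ≠ 0 := kp_ne_zero_left he0 _
  have hFl : Fl q (kp e (0 : Fin 2 → F)) (kp 0 w₀) := by
    refine ⟨?_, ?_, ?_⟩
    · rw [LinearIndependent.pair_iff]
      intro s t hst
      rw [← kp_smul, ← kp_smul, ← kp_add, kp_eq_zero, smul_zero, smul_zero, add_zero,
        zero_add] at hst
      exact ⟨(smul_eq_zero.1 hst.1).resolve_right he0, (smul_eq_zero.1 hst.2).resolve_right hw₀0⟩
    · rw [kp_form, hermForm_zero_left, zero_add, hw₀]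
    · rw [kp_form, hermForm_zero_right hF, hermForm_zero_left, add_zero]
  have h1 := inf_index (stabB q (spn (kp e (0 : Fin 2 → F)) (kp 0 w₀))) (fixs (kp e 0))
  rw [relIndex_line_two hF he0 he hw₀0 hw₀, relIndex_line_one hF hu hFl,
    index_fixs_iso hF (by omega) hu0 hu] at h1
  have h2 := cnt_zero_sub_one hF (F := F) (q := q) 3
  have h2' : ((cnt (2 + 2) F q 0 - 1 : ℕ) : ℤ) = ((q : ℤ) ^ 4 - 1) * ((q : ℤ) ^ 3 + 1) := by
    rw [show (2 + 2 : ℕ) = 3 + 1 from rfl, h2]; norm_num
  have e2 : 1 ≤ q ^ 4 := pow_pos (q_pos hF) _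
  have h3 : ((q : ℤ) + 1) * (((q : ℤ) ^ 4 - 1) * ((q : ℤ) ^ 3 + 1)) = ((q : ℤ) ^ 4 - 1) *
      ((stabB q (spn (kp e (0 : Fin 2 → F)) (kp 0 w₀))).index : ℤ) := by
    rw [← h2']
    have : (((q + 1) * (cnt (2 + 2) F q 0 - 1) : ℕ) : ℤ) = (((q ^ 4 - 1) *
      (stabB q (spn (kp e (0 : Fin 2 → F)) (kp 0 w₀))).index : ℕ) : ℤ) := by rw [h1]
    push_cast [Nat.cast_sub e2] at this
    exact this
  have hq := two_le_q hF
  have hqz : (2 : ℤ) ≤ q := by exact_mod_cast hq
  have h4 : ((stabB q (spn (kp e (0 : Fin 2 → F)) (kp 0 w₀))).index : ℤ) =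
      ((q : ℤ) + 1) * ((q : ℤ) ^ 3 + 1) := by
    apply mul_left_cancel₀ (show ((q : ℤ) ^ 4 - 1) ≠ 0 by
      have : (2 : ℤ) ^ 4 ≤ (q : ℤ) ^ 4 := pow_le_pow_left₀ (by norm_num) hqz 4
      linarith)
    rw [← h3]; ring
  exact_mod_cast h4

/-- The index of the stabiliser of a totally isotropic line. -/
theorem index_line (hF : Fintype.card F = q ^ 2) {u y : Fin (2 + 2) → F} (hu : ⟪u, u⟫ = 0)
    (hy : Fl q u y) : (stabB q (spn u y)).index = (q + 1) * (q ^ 3 + 1) := by
  obtain ⟨e, e', hee⟩ := exists_e2 hF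
  have he0 := hee.left_ne
  have hu' : ⟪kp e (0 : Fin 2 → F), kp e 0⟫ = 0 := by
    rw [kp_form, hee.1, hermForm_zero_left, add_zero]
  have hFl : Fl q (kp e (0 : Fin 2 → F)) (kp 0 e) := by
    refine ⟨?_, ?_, ?_⟩
    · rw [LinearIndependent.pair_iff]
      intro s t hst
      rw [← kp_smul, ← kp_smul, ← kp_add, kp_eq_zero, smul_zero, smul_zero, add_zero,
        zero_add] at hst
      exact ⟨(smul_eq_zero.1 hst.1).resolve_right he0, (smul_eq_zero.1 hst.2).resolve_right he0⟩
    · rw [kp_form, hermForm_zero_left, zero_add, hee.1]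
    · rw [kp_form, hermForm_zero_right hF, hermForm_zero_left, add_zero]
  obtain ⟨k, c, hc, hk1, hk2⟩ := pair_trans hF hu' hFl hu hy
  rw [← index_line_std hF he0 hee.1 he0 hee.1, ← index_cj k (stabB q (spn u y))]
  congr 1
  have hky : act k⁻¹ y = c⁻¹ • kp 0 e := by
    have : y = c⁻¹ • act k (kp 0 e) := by
      rw [hk2, smul_smul, inv_mul_cancel₀ hc, one_smul]
    rw [this, act_smul, act_inv_act]
  have hku : act k⁻¹ u = kp e 0 := by rw [← hk1, act_inv_act]
  have hsp : ∀ x, x ∈ spn (kp e (0 : Fin 2 → F)) (kp 0 e) ↔ act k x ∈ spn u y := by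
    intro x
    rw [mem_spn, mem_spn]
    constructor
    · rintro ⟨a, b, rfl⟩
      exact ⟨a, b * c, by rw [act_add, act_smul, act_smul, hk1, hk2]; module⟩
    · rintro ⟨a, b, h⟩
      refine ⟨a, b * c⁻¹, ?_⟩
      rw [← act_inv_act k x, h, act_add, act_smul, act_smul, hku, hky]; module
  ext g
  rw [mem_cj, mem_stabB, mem_stabB]
  constructor
  · intro h x hx
    rw [hsp]
    have := h (act k x) ((hsp x).1 hx)
    rwa [act_mul, act_inv_act, act_mul] at this
  · intro h x hx
    have h1 : act k⁻¹ x ∈ spn (kp e (0 : Fin 2 → F)) (kp 0 e) := by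
      rw [hsp, act_act_inv]; exact hx
    have h2 := h _ h1
    rw [hsp] at h2
    rw [act_mul, act_mul]
    exact h2

end Cfsg.Agent.MinU
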