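import Cfsg.Agent.MinU.N4O
import Cfsg.Agent.MinU.N4P

/-!
# Double counting on a totally isotropic line
-/

set_option autoImplicit false
set_option linter.unusedSectionVars false

namespace Cfsg.Agent.MinU

open Cfsg.Agent.Uni Finset

variable {F : Type*} [Field F] [Fintype F] {q n m : ℕ}

local notation "⟪" x ", " y "⟫" => hermForm _ _ q x y

/-- Membership in the unipotent radical as a predicate. -/
def InQ (v : Fin n → F) (g : SU n F q) : Prop :=
  ∃ (w : Fin n → F) (s : F), hermForm n F q v w = 0 ∧ s + s ^ q = -hermForm n F q w w ∧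
    IsEich g v w s

theorem mem_Qs_iff_InQ {hF : Fintype.card F = q ^ 2} {v : Fin n → F} {hv : ⟪v, v⟫ = 0}
    {g : SU n F q} : g ∈ Qs hF v hv ↔ InQ v g := Iff.rfl

theorem InQ_smul (hF : Fintype.card F = q ^ 2) {v : Fin n → F} {g : SU n F q} {c : F}
    (hc : c ≠ 0) (h : InQ v g) : InQ (c • v) g := by
  obtain ⟨w, s, h1, h2, h3⟩ := h
  have hcq : c ^ q ≠ 0 := pow_ne_zero _ hc
  refine ⟨(c ^ q)⁻¹ • w, s / (c ^ q * c), ?_, ?_, ?_⟩
  · rw [hermForm_smul_left, hermForm_smul_right, h1, mul_zero, mul_zero]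
  · rw [hermForm_smul_left, hermForm_smul_right, div_pow, mul_pow, inv_pow, pow_q_pow_q hF]
    field_simp
    linear_combination h2
  · intro x
    rw [h3 x, hermForm_smul_right, hermForm_smul_right, inv_pow, pow_q_pow_q hF, smul_smul,
      smul_smul, smul_smul]
    have e1 : c ^ q * ⟪x, v⟫ * (c ^ q)⁻¹ = ⟪x, v⟫ := by field_simp
    have e2 : c⁻¹ * ⟪x, w⟫ * c = ⟪x, w⟫ := by field_simp
    have e3 : s / (c ^ q * c) * (c ^ q * ⟪x, v⟫) * c = s * ⟪x, v⟫ := by field_simp
    rw [e1, e2, e3]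

theorem InQ_smul_iff (hF : Fintype.card F = q ^ 2) {v : Fin n → F} {g : SU n F q} {c : F}
    (hc : c ≠ 0) : InQ (c • v) g ↔ InQ v g := by
  refine ⟨fun h => ?_, InQ_smul hF hc⟩
  have := InQ_smul hF (inv_ne_zero hc) h
  rwa [smul_smul, inv_mul_cancel₀ hc, one_smul] at this

/-- Every element trivial on `ℓ^⊥` belongs to some unipotent radical. -/
theorem exists_InQ (hF : Fintype.card F = q ^ 2) {u y : Fin n → F} (hu : ⟪u, u⟫ = 0)
    (hy : Fl q u y) {c : SU n F q} (hc : c ∈ EL u y) :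
    ∃ v ∈ spn u y, v ≠ 0 ∧ InQ v c := by
  obtain ⟨hli, hyy, huy⟩ := hy
  have hli' := LinearIndependent.pair_iff.1 hli
  have hyu : ⟪y, u⟫ = 0 := (hermForm_eq_zero_comm hF).1 huy
  have hu0 : u ≠ 0 := by
    intro h
    have := hli' 1 0 (by rw [h]; module)
    exact one_ne_zero this.1
  obtain ⟨t, α, f, hts, hfs, hca⟩ := triv_form hF hli hu hyy huy hc
  by_cases hf0 : f = 0
  · refine ⟨u, mem_spn.2 ⟨1, 0, by module⟩, hu0, α • y, t, ?_, ?_, ?_⟩
    · rw [hermForm_smul_right, huy, mul_zero]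
    · rw [hermForm_smul_left, hermForm_smul_right, hyy, hts]; ring
    · intro x
      rw [hca x, hf0, hermForm_smul_right]
      module
  obtain ⟨Y, hY⟩ := exists_norm_quad hF α hf0 hfs hts
  set w := (-(Y ^ q)) • u + (1 : F) • y with hw
  have hw0 : w ≠ 0 := by
    intro h
    exact one_ne_zero (hli' _ _ h).2
  set μ := f * Y ^ q - α ^ q with hμ
  have hμq : μ ^ q = -(f * Y) - α := by
    rw [hμ, sub_pow_q hF, mul_pow, pow_q_pow_q hF, pow_q_pow_q hF, hfs]; ring
  have hcE : IsEich c w (μ • u) f := by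
    intro x
    have e3 : ⟪x, w⟫ = ⟪x, y⟫ - Y * ⟪x, u⟫ := by
      rw [hw, hermForm_add_right hF, hermForm_smul_right, hermForm_smul_right, neg_pow_q hF,
        pow_q_pow_q hF, one_pow]
      ring
    rw [hca x, hermForm_smul_right, e3, hμq, hw, hμ]
    have e4 : t = -(f * (Y * Y ^ q) + α * Y ^ q - α ^ q * Y) := by linear_combination hY
    rw [e4]
    module
  have hwu : ⟪w, μ • u⟫ = 0 := by
    rw [hw, hermForm_smul_right]
    simp only [hermForm_add_left, hermForm_smul_left, hu, hyu]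
    ring
  refine ⟨w, mem_spn.2 ⟨_, _, hw⟩, hw0, μ • u, f, hwu, ?_, hcE⟩
  rw [hermForm_smul_left, hermForm_smul_right, hu, hfs]; ring

/-- Completing a vector of the line to a basis. -/
theorem exists_basis (hF : Fintype.card F = q ^ 2) {u y v : Fin n → F} (hu : ⟪u, u⟫ = 0)
    (hy : Fl q u y) (hv : v ∈ spn u y) (hv0 : v ≠ 0) :
    ∃ y', ⟪v, v⟫ = 0 ∧ Fl q v y' ∧ Submodule.span F {v, y'} = Submodule.span F {u, y} := by
  obtain ⟨hli, hyy, huy⟩ := hy
  have hli' := LinearIndependent.pair_iff.1 hli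
  have hyu : ⟪y, u⟫ = 0 := (hermForm_eq_zero_comm hF).1 huy
  obtain ⟨a, b, rfl⟩ := mem_spn.1 hv
  have hvv : ⟪a • u + b • y, a • u + b • y⟫ = 0 := by
    simp only [hermForm_add_left, hermForm_add_right hF, hermForm_smul_left,
      hermForm_smul_right, hu, hyy, huy, hyu]
    ring
  have hspan : ∀ y' : Fin n → F, y' ∈ Submodule.span F {u, y} →
      LinearIndependent F ![a • u + b • y, y'] →
      Submodule.span F {a • u + b • y, y'} = Submodule.span F {u, y} := by
    intro y' hy' hli2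
    apply Submodule.eq_of_le_of_finrank_le
    · rw [Submodule.span_le]
      rintro x (rfl | rfl)
      · exact hv
      · exact hy'
    · have h1 := finrank_span_eq_card hli2
      have h2 := finrank_span_eq_card hli
      rw [Fintype.card_fin, Matrix.range_cons, Matrix.range_cons, Matrix.range_empty,
        Set.union_empty, Set.singleton_union] at h1 h2
      rw [h1, h2]
  by_cases hb : b = 0
  · have ha : a ≠ 0 := by
      rintro rfl
      apply hv0
      rw [hb]; module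
    have hli2 : LinearIndependent F ![a • u + b • y, y] := by
      rw [LinearIndependent.pair_iff]
      intro s t hst
      have h3 := hli' (s * a) (s * b + t) (by rw [← hst]; module)
      rw [hb, mul_zero, zero_add] at h3
      exact ⟨(mul_eq_zero.1 h3.1).resolve_right ha, h3.2⟩
    refine ⟨y, hvv, ⟨hli2, hyy, ?_⟩, hspan y (Submodule.subset_span (by simp)) hli2⟩
    rw [hermForm_add_left, hermForm_smul_left, hermForm_smul_left, hyy, huy]
    ring
  · have hli2 : LinearIndependent F ![a • u + b • y, u] := by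
      rw [LinearIndependent.pair_iff]
      intro s t hst
      have h3 := hli' (s * a + t) (s * b) (by rw [← hst]; module)
      have h4 := (mul_eq_zero.1 h3.2).resolve_right hb
      rw [h4, zero_mul, zero_add] at h3
      exact ⟨h4, h3.1⟩
    refine ⟨u, hvv, ⟨hli2, hu, ?_⟩, hspan u (Submodule.subset_span (by simp)) hli2⟩
    rw [hermForm_add_left, hermForm_smul_left, hermForm_smul_left, hu, hyu]
    ring

/-- The solutions of the additive equation. -/
theorem card_sol (hF : Fintype.card F = q ^ 2) {α t : F} (hα : α ≠ 0) (ht : t ^ q = -t) :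
    Nat.card {Y : F // α * Y ^ q - α ^ q * Y + t = 0} = q := by
  have hαq : α ^ q ≠ 0 := pow_ne_zero _ hα
  obtain ⟨κ, hκ0, hκ⟩ := exists_skew hF
  -- a solution
  obtain ⟨Y₀, hY₀⟩ : ∃ Y : F, α * Y ^ q - α ^ q * Y + t = 0 := by
    obtain ⟨d, hd⟩ := exists_trace_eq hF (c := κ * (t / (α * α ^ q))) (by
      rw [mul_pow, div_pow, mul_pow, pow_q_pow_q hF, hκ, ht]
      field_simp)
    refine ⟨α * (d / κ), ?_⟩
    have h1 : (d / κ) ^ q = -(d ^ q / κ) := by rw [div_pow, hκ, div_neg]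
    rw [mul_pow, h1]
    have h2 : α * (α ^ q * -(d ^ q / κ)) - α ^ q * (α * (d / κ)) =
        -(α * α ^ q) * ((d + d ^ q) / κ) := by ring
    rw [h2, hd]
    field_simp
    ring
  refine Eq.trans ?_ (card_fixed hF)
  refine Nat.card_congr ⟨fun Y => ⟨(Y.1 - Y₀) / α, ?_⟩, fun c => ⟨Y₀ + α * c.1, ?_⟩, ?_, ?_⟩
  · have h1 : α * (Y.1 ^ q - Y₀ ^ q) = α ^ q * (Y.1 - Y₀) := by
      linear_combination Y.2 - hY₀
    rw [div_pow, sub_pow_q hF]
    field_simp
    linear_combination h1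
  · rw [add_pow_q hF, mul_pow, c.2]
    linear_combination hY₀
  · intro Y
    apply Subtype.ext
    change Y₀ + α * ((Y.1 - Y₀) / α) = Y.1
    field_simp
    ring
  · intro c
    apply Subtype.ext
    change (Y₀ + α * c.1 - Y₀) / α = c.1
    field_simp
    ring

/-- The number of vectors `v` of the line with `a ∈ Q_v`. -/
theorem card_InQ (hF : Fintype.card F = q ^ 2) {u y : Fin n → F} (hu : ⟪u, u⟫ = 0)
    (hy : Fl q u y) {a : SU n F q} (ha : a ∈ EL u y)
    (hX : ∀ v ∈ spn u y, v ≠ 0 → ∀ s : F, s ^ q = -s → ¬ IsEich a v 0 s) :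
    Nat.card {v : {v : spn u y // v ≠ 0} // InQ ((v : spn u y) : Fin n → F) a} =
      (q ^ 2 - 1) * (q + 1) := by
  classical
  obtain ⟨v₀, hv₀, hv₀0, hQ⟩ := exists_InQ hF hu hy ha
  obtain ⟨y₀, hv₀v₀, hFl, hsp⟩ := exists_basis hF hu hy hv₀ hv₀0
  have haE : a ∈ EL v₀ y₀ := by rw [EL_span hF hsp]; exact ha
  have hy₀v₀ : ⟪y₀, v₀⟫ = 0 := (hermForm_eq_zero_comm hF).1 hFl.2.2
  have hli' := LinearIndependent.pair_iff.1 hFl.1
  obtain ⟨t, α, f, hts, hfs, hca⟩ := triv_form hF hFl.1 hv₀v₀ hFl.2.1 hFl.2.2 haE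
  obtain ⟨x₂, hx₂v, hx₂y⟩ := exists_dual2 hF hFl.1
  obtain ⟨x₁, hx₁y, hx₁v⟩ := exists_dual2 hF (li_swap hFl.1)
  have hmem : ∀ z : Fin n → F, z ∈ spn u y ↔ ∃ c d : F, z = c • v₀ + d • y₀ := by
    intro z
    rw [← mem_spn]
    change z ∈ Submodule.span F {u, y} ↔ z ∈ Submodule.span F {v₀, y₀}
    rw [hsp]
  -- `f = 0`
  have hf0 : f = 0 := by
    obtain ⟨w, s, h1, h2, h3⟩ := hQ
    have h4 := hca x₂
    rw [h3 x₂, hx₂v, hx₂y] at h4
    have h5 : (α ^ q - ⟪x₂, w⟫) • v₀ + (-f) • y₀ = 0 := by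
      have : (α ^ q - ⟪x₂, w⟫) • v₀ + (-f) • y₀ =
        (x₂ + (0 : F) • w - ⟪x₂, w⟫ • v₀ + (s * 0) • v₀) -
        (x₂ + (0 : F) • (t • v₀ + α • y₀) + (1 : F) • ((-α ^ q) • v₀ + f • y₀)) := by module
      rw [this, h4, sub_self]
    exact neg_eq_zero.1 (hli' _ _ h5).2
  rw [hf0] at hca
  -- `α ≠ 0`
  have hα : α ≠ 0 := by
    rintro rfl
    apply hX v₀ hv₀ hv₀0 t hts
    intro x
    rw [hca x, hermForm_zero_right hF, zero_pow_q hF]
    module
  -- the criterion
  have hcrit : ∀ Y : F, InQ (y₀ - Y ^ q • v₀) a ↔ α * Y ^ q - α ^ q * Y + t = 0 := by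
    intro Y
    have hxv : ∀ x, ⟪x, y₀ - Y ^ q • v₀⟫ = ⟪x, y₀⟫ - Y * ⟪x, v₀⟫ := by
      intro x
      rw [hermForm_sub_right hF, hermForm_smul_right, pow_q_pow_q hF]
    constructor
    · rintro ⟨w, s, h1, h2, h3⟩
      have h4 := hca (x₁ + Y • x₂)
      rw [h3, hxv] at h4
      simp only [hermForm_add_left, hermForm_smul_left, hx₁v, hx₁y, hx₂v, hx₂y] at h4
      set W := ⟪x₁, w⟫ + Y * ⟪x₂, w⟫ with hW
      have h5 : (W * Y ^ q - t + α ^ q * Y) • v₀ + (-W - α) • y₀ = 0 := by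
        have : (W * Y ^ q - t + α ^ q * Y) • v₀ + (-W - α) • y₀ =
          (x₁ + Y • x₂ + (0 + Y * 1 - Y * (1 + Y * 0)) • w - W • (y₀ - Y ^ q • v₀) +
            (s * (0 + Y * 1 - Y * (1 + Y * 0))) • (y₀ - Y ^ q • v₀)) -
          (x₁ + Y • x₂ + (1 + Y * 0) • (t • v₀ + α • y₀) +
            (0 + Y * 1) • ((-α ^ q) • v₀ + (0 : F) • y₀)) := by module
        rw [this, h4, sub_self]
      obtain ⟨h6, h7⟩ := hli' _ _ h5
      linear_combination -h6 - Y ^ q * h7
    · intro hY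
      refine ⟨(-(α ^ q)) • v₀, 0, ?_, ?_, ?_⟩
      · rw [hermForm_smul_right, hermForm_sub_left, hermForm_smul_left, hy₀v₀, hv₀v₀]; ring
      · rw [hermForm_smul_left, hermForm_smul_right, hv₀v₀, zero_pow_q hF]; ring
      · intro x
        rw [hca x, hxv, hermForm_smul_right, neg_pow_q hF, pow_q_pow_q hF]
        have e4 : t = -(α * Y ^ q - α ^ q * Y) := by linear_combination hY
        rw [e4]
        module
  -- the bijection
  let g : {c : F // c ≠ 0} × Option {Y : F // α * Y ^ q - α ^ q * Y + t = 0} →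
      {v : {v : spn u y // v ≠ 0} // InQ ((v : spn u y) : Fin n → F) a} := fun p =>
    match p with
    | (c, none) => ⟨⟨⟨c.1 • v₀, (hmem _).2 ⟨c.1, 0, by module⟩⟩, fun h =>
        smul_ne_zero c.2 hv₀0 (congrArg Subtype.val h)⟩, InQ_smul hF c.2 hQ⟩
    | (c, some Y) => ⟨⟨⟨c.1 • (y₀ - Y.1 ^ q • v₀), (hmem _).2 ⟨-(c.1 * Y.1 ^ q), c.1, by module⟩⟩,
        fun h => c.2 (hli' (-(c.1 * Y.1 ^ q)) c.1 (by
          have h1 : c.1 • (y₀ - Y.1 ^ q • v₀) = 0 := congrArg Subtype.val h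
          rw [← h1]; module)).2⟩, InQ_smul hF c.2 ((hcrit Y.1).2 Y.2)⟩
  have hg : Function.Bijective g := by
    constructor
    · rintro ⟨c, o⟩ ⟨c', o'⟩ h
      rcases o with _ | Y <;> rcases o' with _ | Y'
      · have h1 : c.1 • v₀ = c'.1 • v₀ := congrArg (fun z => ((z.1.1 : spn u y) : Fin n → F)) h
        have h2 : c = c' := Subtype.ext (smul_left_injective F hv₀0 h1)
        rw [h2]
      · exfalso
        have h1 : c.1 • v₀ = c'.1 • (y₀ - Y'.1 ^ q • v₀) :=
          congrArg (fun z => ((z.1.1 : spn u y) : Fin n → F)) h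
        have h2 := hli' (c.1 + c'.1 * Y'.1 ^ q) (-c'.1) (by
          have : (c.1 + c'.1 * Y'.1 ^ q) • v₀ + (-c'.1) • y₀ =
            c.1 • v₀ - c'.1 • (y₀ - Y'.1 ^ q • v₀) := by module
          rw [this, h1, sub_self])
        exact c'.2 (neg_eq_zero.1 h2.2)
      · exfalso
        have h1 : c.1 • (y₀ - Y.1 ^ q • v₀) = c'.1 • v₀ :=
          congrArg (fun z => ((z.1.1 : spn u y) : Fin n → F)) h
        have h2 := hli' (-(c.1 * Y.1 ^ q) - c'.1) c.1 (by
          have : (-(c.1 * Y.1 ^ q) - c'.1) • v₀ + c.1 • y₀ =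
            c.1 • (y₀ - Y.1 ^ q • v₀) - c'.1 • v₀ := by module
          rw [this, h1, sub_self])
        exact c.2 h2.2
      · have h1 : c.1 • (y₀ - Y.1 ^ q • v₀) = c'.1 • (y₀ - Y'.1 ^ q • v₀) :=
          congrArg (fun z => ((z.1.1 : spn u y) : Fin n → F)) h
        have h2 := hli' (-(c.1 * Y.1 ^ q) + c'.1 * Y'.1 ^ q) (c.1 - c'.1) (by
          have : (-(c.1 * Y.1 ^ q) + c'.1 * Y'.1 ^ q) • v₀ + (c.1 - c'.1) • y₀ =
            c.1 • (y₀ - Y.1 ^ q • v₀) - c'.1 • (y₀ - Y'.1 ^ q • v₀) := by module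
          rw [this, h1, sub_self])
        have h3 : c.1 = c'.1 := sub_eq_zero.1 h2.2
        have h4 : Y.1 ^ q = Y'.1 ^ q := by
          have h5 := h2.1
          rw [h3] at h5
          apply mul_left_cancel₀ c'.2
          linear_combination -h5
        have h5 : Y.1 = Y'.1 := by
          rw [← pow_q_pow_q hF Y.1, h4, pow_q_pow_q hF]
        rw [Subtype.ext h3, Subtype.ext h5]
    · rintro ⟨⟨⟨v, hv⟩, hv0⟩, hvQ⟩
      obtain ⟨c, d, hcd⟩ := (hmem v).1 hv
      by_cases hd : d = 0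
      · have hc : c ≠ 0 := by
          rintro rfl
          apply hv0
          apply Subtype.ext
          change v = 0
          rw [hcd, hd]; module
        refine ⟨(⟨c, hc⟩, none), ?_⟩
        apply Subtype.ext
        apply Subtype.ext
        apply Subtype.ext
        change c • v₀ = v
        rw [hcd, hd]; module
      · set Y := (-(c / d)) ^ q with hYd
        have hYq : Y ^ q = -(c / d) := by rw [hYd, pow_q_pow_q hF]
        have h1 : v = d • (y₀ - Y ^ q • v₀) := by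
          rw [hcd, hYq, smul_sub, smul_smul]
          have : d * -(c / d) = -c := by field_simp
          rw [this]; module
        have h2 : InQ (y₀ - Y ^ q • v₀) a := by
          rw [← InQ_smul_iff hF hd, ← h1]
          exact hvQ
        refine ⟨(⟨d, hd⟩, some ⟨Y, (hcrit Y).1 h2⟩), ?_⟩
        apply Subtype.ext
        apply Subtype.ext
        apply Subtype.ext
        exact h1.symm
  rw [← Nat.card_congr (Equiv.ofBijective g hg), Nat.card_prod, Finite.card_option,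
    card_sol hF hα hts]
  congr 1
  rw [Nat.card_eq_fintype_card, Fintype.card_subtype_compl, hF]
  simp

end Cfsg.Agent.MinU
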