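import Cfsg.Agent.MinU.N4Q
import Cfsg.Agent.MinU.Fin

/-!
# The minimal index of a proper subgroup of `SU_4(q)`
-/

set_option autoImplicit false
set_option linter.unusedSectionVars false

namespace Cfsg.Agent.MinU

open Cfsg.Agent.Uni Finset

variable {F : Type*} [Field F] [Fintype F] {q n m : ℕ}

local notation "⟪" x ", " y "⟫" => hermForm _ _ q x y

theorem InQ_one (hF : Fintype.card F = q ^ 2) (v : Fin n → F) : InQ v (1 : SU n F q) :=
  ⟨0, 0, hermForm_zero_right hF v, by rw [hermForm_zero_right hF, zero_pow_q hF]; ring,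
    isEich_one hF v⟩

/-- Double counting. -/
theorem dcount (hF : Fintype.card F = q ^ 2) {u y : Fin n → F} (hu : ⟪u, u⟫ = 0)
    (hy : Fl q u y) {A : Subgroup (SU n F q)} (hA : A ≤ EL u y)
    (hX : ∀ v ∈ spn u y, v ≠ 0 → ∀ a ∈ A, a ≠ 1 → ∀ s : F, s ^ q = -s → ¬ IsEich a v 0 s)
    {c : ℕ} (hc : ∀ v ∈ spn u y, v ≠ 0 → Nat.card {a : A // InQ v (a : SU n F q)} = c) :
    (Nat.card A - 1) * ((q ^ 2 - 1) * (q + 1)) = (q ^ 4 - 1) * (c - 1) := by
  classical
  let T := {p : {a : A // a ≠ 1} × {v : spn u y // v ≠ 0} //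
    InQ ((p.2 : spn u y) : Fin n → F) ((p.1 : A) : SU n F q)}
  let f1 : T → {a : A // a ≠ 1} := fun p => p.1.1
  let f2 : T → {v : spn u y // v ≠ 0} := fun p => p.1.2
  have c1 : Nat.card T = Nat.card {a : A // a ≠ 1} * ((q ^ 2 - 1) * (q + 1)) := by
    apply card_of_fibers f1
    intro a
    have ha1 : ((a : A) : SU n F q) ≠ 1 := fun h => a.2 (Subtype.ext h)
    rw [← card_InQ hF hu hy (hA (a : A).2) (fun v hv hv0 s hs =>
      hX v hv hv0 _ (a : A).2 ha1 s hs)]
    refine Nat.card_congr ⟨fun p => ⟨p.1.1.2, by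
        have h := p.1.2
        have h' : p.1.1.1 = a := p.2
        rw [h'] at h
        exact h⟩,
      fun v => ⟨⟨(a, v.1), v.2⟩, rfl⟩, ?_, fun v => rfl⟩
    rintro ⟨⟨⟨a', v⟩, h⟩, h'⟩
    have : a' = a := h'
    subst this
    rfl
  have c2 : Nat.card T = Nat.card {v : spn u y // v ≠ 0} * (c - 1) := by
    apply card_of_fibers f2
    intro v
    have hv0 : ((v : spn u y) : Fin n → F) ≠ 0 := fun h => v.2 (Subtype.ext h)
    have h1 := hc _ (v : spn u y).2 hv0
    have h2 : Nat.card {a : {a : A // a ≠ 1} // InQ ((v : spn u y) : Fin n → F)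
        ((a : A) : SU n F q)} + 1 = c := by
      rw [← h1, ← Finite.card_option]
      refine Nat.card_congr (Equiv.ofBijective (fun o : Option {a : {a : A // a ≠ 1} //
        InQ ((v : spn u y) : Fin n → F) ((a : A) : SU n F q)} => match o with
        | none => (⟨1, InQ_one hF _⟩ : {a : A // InQ ((v : spn u y) : Fin n → F) (a : SU n F q)})
        | some a => ⟨a.1.1, a.2⟩) ⟨?_, ?_⟩)
      · intro o o' hoo
        rcases o with _ | a <;> rcases o' with _ | a'
        · rfl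
        · exact absurd (congrArg Subtype.val hoo).symm a'.1.2
        · exact absurd (congrArg Subtype.val hoo) a.1.2
        · have h3 : a.1.1 = a'.1.1 := congrArg
            (fun z : {a : A // InQ ((v : spn u y) : Fin n → F) (a : SU n F q)} => z.1) hoo
          rw [Subtype.ext (Subtype.ext h3)]
      · rintro ⟨a, ha⟩
        by_cases ha1 : a = 1
        · exact ⟨none, Subtype.ext ha1.symm⟩
        · exact ⟨some ⟨⟨a, ha1⟩, ha⟩, rfl⟩
    rw [← h2, Nat.add_sub_cancel]
    refine Nat.card_congr ⟨fun p => ⟨p.1.1.1, by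
        have h := p.1.2
        have h' : p.1.1.2 = v := p.2
        rw [h'] at h
        exact h⟩,
      fun a => ⟨⟨(a.1, v), a.2⟩, rfl⟩, ?_, fun a => rfl⟩
    rintro ⟨⟨⟨a, v'⟩, h⟩, h'⟩
    have : v' = v := h'
    subst this
    rfl
  have e1 : Nat.card {a : A // a ≠ 1} = Nat.card A - 1 := by
    have := Fintype.ofFinite A
    rw [Nat.card_eq_fintype_card, Nat.card_eq_fintype_card, Fintype.card_subtype_compl]
    simp
  have e2 : Nat.card {v : spn u y // v ≠ 0} = q ^ 4 - 1 := by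
    have h2 := card_spn hF hy.1
    have := Fintype.ofFinite (spn u y)
    rw [Nat.card_eq_fintype_card] at h2 ⊢
    rw [Fintype.card_subtype_compl, h2]
    simp
  rw [← e1, ← e2, ← c1, c2]

/-- If only the identity of `A` lies in `Q_v` then `A` is small. -/
theorem small_of_triv (hF : Fintype.card F = q ^ 2) {u y : Fin n → F} (hu : ⟪u, u⟫ = 0)
    (hy : Fl q u y) {A : Subgroup (SU n F q)} (hA : A ≤ EL u y) {v : Fin n → F}
    (hv : v ∈ spn u y) (hv0 : v ≠ 0) (h : ∀ a ∈ A, InQ v a → a = 1) : Nat.card A ≤ q := by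
  classical
  obtain ⟨y', hvv, hFl, hsp⟩ := exists_basis hF hu hy hv hv0
  have hAE : A ≤ EL v y' := by rw [EL_span hF hsp]; exact hA
  obtain ⟨x, hxv, hxy⟩ := exists_dual2 hF hFl.1
  have hvx : ⟪v, x⟫ = 0 := (hermForm_eq_zero_comm hF).1 hxv
  have hyx : ⟪y', x⟫ = 1 := by rw [← hermForm_symm hF, hxy, one_pow]
  have hli' := LinearIndependent.pair_iff.1 hFl.1
  have hyv : ⟪y', v⟫ = 0 := (hermForm_eq_zero_comm hF).1 hFl.2.2
  have hfix : ∀ a ∈ A, ∀ c d : F, act a (c • v + d • y') = c • v + d • y' := by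
    intro a ha c d
    apply hAE ha
    · rw [hermForm_add_left, hermForm_smul_left, hermForm_smul_left, hvv, hyv]; ring
    · rw [hermForm_add_left, hermForm_smul_left, hermForm_smul_left, hFl.2.1, hFl.2.2]; ring
  have hform : ∀ a : A, ∃ β f : F, f ^ q = -f ∧ act (a : SU n F q) x = x + β • v + f • y' := by
    intro a
    obtain ⟨t, α, f, ht, hf, hca⟩ := triv_form hF hFl.1 hvv hFl.2.1 hFl.2.2 (hAE a.2)
    exact ⟨-α ^ q, f, hf, by rw [hca x, hxv, hxy]; module⟩
  choose β f hf hax using hform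
  refine le_trans (Nat.card_le_card_of_injective
    (fun a => (⟨f a, hf a⟩ : {s : F // s ^ q = -s})) ?_) (card_skew hF).le
  intro a b hab
  have hab' : f a = f b := congrArg Subtype.val hab
  have h1 : act ((b⁻¹ * a : A) : SU n F q) x = x + (β a - β b) • v := by
    rw [Subgroup.coe_mul, Subgroup.coe_inv, act_mul, hax a]
    have h2 : act (b : SU n F q)⁻¹ x = x - (β b • v + f b • y') := by
      have h3 : x = act (b : SU n F q) (x - (β b • v + f b • y')) := by
        rw [act_sub, hfix _ b.2, hax b]; abel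
      conv_lhs => rw [h3]
      rw [act_inv_act]
    have h4 : act (b : SU n F q)⁻¹ (β a • v + f a • y') = β a • v + f a • y' :=
      hfix _ (A.inv_mem b.2) _ _
    rw [add_assoc, act_add, h2, h4, hab']
    module
  have h2 : ((b⁻¹ * a : A) : SU n F q) = 1 := by
    apply h _ (b⁻¹ * a : A).2
    obtain ⟨t, α, f', ht, hf', hca⟩ := triv_form hF hFl.1 hvv hFl.2.1 hFl.2.2
      (hAE (b⁻¹ * a : A).2)
    have h3 := hca x
    rw [h1, hxv, hxy] at h3
    have h4 := hli' (β a - β b + α ^ q) (-f') (by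
      have : (β a - β b + α ^ q) • v + (-f') • y' = (x + (β a - β b) • v) -
        (x + (0 : F) • (t • v + α • y') + (1 : F) • ((-α ^ q) • v + f' • y')) := by module
      rw [this, h3, sub_self])
    have hf0 : f' = 0 := neg_eq_zero.1 h4.2
    refine ⟨α • y', t, ?_, ?_, ?_⟩
    · rw [hermForm_smul_right, hFl.2.2, mul_zero]
    · rw [hermForm_smul_left, hermForm_smul_right, hFl.2.1, ht]; ring
    · intro z
      rw [hca z, hf0, hermForm_smul_right]
      module
  have h3 : b⁻¹ * a = 1 := Subtype.ext h2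
  rw [inv_mul_eq_one] at h3
  exact h3.symm

/-- The local order without proof arguments. -/
noncomputable def DQ (M : Subgroup (SU n F q)) (u y : Fin n → F) : ℕ :=
  Nat.card {a : ↥(M ⊓ EL u y) // InQ u (a : SU n F q)}

theorem DD_eq_DQ (hF : Fintype.card F = q ^ 2) (M : Subgroup (SU n F q)) {u : Fin n → F}
    (hu : ⟪u, u⟫ = 0) (y : Fin n → F) : DD hF M u hu y = DQ M u y :=
  Nat.card_congr ⟨fun a => ⟨⟨a.1, a.2.1⟩, a.2.2⟩, fun a => ⟨a.1.1, a.1.2, a.2⟩, fun _ => rfl,
    fun _ => rfl⟩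

theorem DQ_smul (hF : Fintype.card F = q ^ 2) (M : Subgroup (SU n F q)) {u : Fin n → F} {c : F}
    (hc : c ≠ 0) (y : Fin n → F) : DQ M (c • u) y = DQ M u y := by
  have h1 : EL (q := q) (c • u) y = EL u y := by
    ext g
    rw [mem_EL, mem_EL]
    have e : ∀ v : Fin n → F, ⟪v, c • u⟫ = 0 ↔ ⟪v, u⟫ = 0 := by
      intro v
      rw [hermForm_smul_right, mul_eq_zero, or_iff_right (pow_ne_zero _ hc)]
    simp only [e]
  unfold DQ
  rw [h1]
  exact Nat.card_congr (Equiv.subtypeEquivRight fun a => InQ_smul_iff hF hc)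

/-- `ℓ^⊥ = ℓ` in dimension four. -/
theorem perp4 (hF : Fintype.card F = q ^ 2) {u y : Fin (2 + 2) → F} (hu : ⟪u, u⟫ = 0)
    (hy : Fl q u y) {v : Fin (2 + 2) → F} (h1 : ⟪v, u⟫ = 0) (h2 : ⟪v, y⟫ = 0) : v ∈ spn u y := by
  have hyu : ⟪y, u⟫ = 0 := (hermForm_eq_zero_comm hF).1 hy.2.2
  have h3 : Module.finrank F (Submodule.span F ({u, y} : Set (Fin (2 + 2) → F))) = 2 := by
    have := finrank_span_eq_card hy.1
    rw [Fintype.card_fin, Matrix.range_cons, Matrix.range_cons, Matrix.range_empty,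
      Set.union_empty, Set.singleton_union] at this
    exact this
  have h4 := finrank_perp hF (Submodule.span F ({u, y} : Set (Fin (2 + 2) → F)))
  have h5 : Submodule.span F ({u, y} : Set (Fin (2 + 2) → F)) ≤
      perp q (Submodule.span F ({u, y} : Set (Fin (2 + 2) → F))) := by
    rw [Submodule.span_le]
    rintro x (rfl | rfl)
    · change x ∈ perp q _
      rw [mem_perp_span hF]
      rintro w (rfl | rfl)
      · exact hu
      · exact hy.2.2
    · change x ∈ perp q _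
      rw [mem_perp_span hF]
      rintro w (rfl | rfl)
      · exact hyu
      · exact hy.2.1
  have h6 := Submodule.eq_of_le_of_finrank_le h5 (by omega)
  change v ∈ Submodule.span F {u, y}
  rw [h6, mem_perp_span hF]
  rintro w (rfl | rfl)
  · exact h1
  · exact h2

/-- Step 3: `C` is empty. -/
theorem no_Cc4 (hF : Fintype.card F = q ^ 2) (M : Subgroup (SU (2 + 2) F q)) (hMt : M ≠ ⊤)
    (hM : M.index < (q + 1) * (q ^ 3 + 1)) (u : Fin (2 + 2) → F) : ¬ Cc hF M u := by
  intro huC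
  have hq := two_le_q hF
  have hQ : ∀ (u : Fin (2 + 2) → F) (_ : u ≠ 0) (hu : ⟪u, u⟫ = 0), Xs hF u hu ≤ M →
      Qs hF u hu ≤ M := fun u hu0 hu hX => step42 hF M hMt hM hu0 hu hX
  have hperp : ∀ a b : Fin (2 + 2) → F, Cc hF M a → Cc hF M b → ⟪b, a⟫ = 0 :=
    fun a b ha hb => Cc_perp hF (by omega) (by omega) hMt hQ ha hb
  by_cases hex : ∃ y, Cc hF M y ∧ LinearIndependent F ![u, y]
  · obtain ⟨y, hyC, hli⟩ := hex
    have hFl : Fl q u y := ⟨hli, hyC.2.1, hperp y u hyC huC⟩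
    have h1 : M ≤ stabB q (spn u y) := by
      intro g hg
      have h2 : ∀ a, Cc hF M a → act g a ∈ spn u y := by
        intro a ha
        have h3 := Cc_act hF hg ha
        exact perp4 hF huC.2.1 hFl (hperp u _ huC h3) (hperp y _ hyC h3)
      exact mem_stab_spn (h2 u huC) (h2 y hyC)
    have h2 := Subgroup.index_antitone h1
    rw [index_line hF huC.2.1 hFl] at h2
    omega
  · push Not at hex
    have h1 : M ≤ PP u := by
      intro g hg
      have h2 := Cc_act hF hg huC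
      have h3 := hex _ h2
      rw [LinearIndependent.pair_iff' huC.1] at h3
      push Not at h3
      obtain ⟨c, hc⟩ := h3
      refine ⟨c, ?_, hc.symm⟩
      rintro rfl
      rw [zero_smul] at hc
      exact h2.1 hc.symm
    have h2 := Subgroup.index_antitone h1
    have h3 := index_PP_iso hF (by omega) huC.1 huC.2.1
    have hqz : (2 : ℤ) ≤ q := by exact_mod_cast hq
    have h2z : ((PP (q := q) u).index : ℤ) ≤ M.index := by exact_mod_cast h2
    have hMz : (M.index : ℤ) < ((q : ℤ) + 1) * ((q : ℤ) ^ 3 + 1) := by exact_mod_cast hM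
    have hq2 : (0 : ℤ) < (q : ℤ) ^ 2 - 1 := by nlinarith
    have h4 : ((PP (q := q) u).index : ℤ) * ((q : ℤ) ^ 2 - 1) <
        (((q : ℤ) + 1) * ((q : ℤ) ^ 3 + 1)) * ((q : ℤ) ^ 2 - 1) :=
      mul_lt_mul_of_pos_right (by linarith) hq2
    rw [h3] at h4
    norm_num at h4
    have h5 : (((q : ℤ) + 1) * ((q : ℤ) ^ 3 + 1)) * ((q : ℤ) ^ 2 - 1) ≤
        ((q : ℤ) ^ 4 - 1) * ((q : ℤ) ^ 3 + 1) := by
      obtain ⟨a, ha⟩ : ∃ a : ℤ, (q : ℤ) = 2 + a := ⟨q - 2, by ring⟩
      have ha0 : 0 ≤ a := by linarith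
      rw [ha, ← sub_nonneg]; ring_nf; positivity
    linarith

/-- `M` is transitive on isotropic points. -/
theorem trans4 (hF : Fintype.card F = q ^ 2) (M : Subgroup (SU (2 + 2) F q))
    (hM : M.index < (q + 1) * (q ^ 3 + 1))
    (hρ : ∀ u : Fin (2 + 2) → F, u ≠ 0 → ⟪u, u⟫ = 0 → q ^ 3 * (q + 1) ≤ M.relIndex (PP u))
    {u u' : Fin (2 + 2) → F} (hu0 : u ≠ 0) (hu : ⟪u, u⟫ = 0) (hu'0 : u' ≠ 0)
    (hu' : ⟪u', u'⟫ = 0) : ∃ m ∈ M, ∃ c : F, c ≠ 0 ∧ act m u' = c • u := by
  by_contra hcon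
  push Not at hcon
  have hq := two_le_q hF
  obtain ⟨k, hk⟩ := exists_SU_single hF (by omega) hu0 hu'0 (hu.trans hu'.symm)
  have h2 := two_orbits (PP (q := q) u) M k (by
    rintro p ⟨c, hc, hp⟩ m hm hkp
    apply hcon m hm c⁻¹ (inv_ne_zero hc)
    have e1 : act k⁻¹ u' = u := by rw [← hk, act_inv_act]
    have hp' : act p⁻¹ u = c⁻¹ • u := by
      have : u = c⁻¹ • act p u := by rw [hp, smul_smul, inv_mul_cancel₀ hc, one_smul]
      conv_lhs => rw [this]
      rw [act_smul, act_inv_act]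
    have e2 : act m u' = act p⁻¹ (act k⁻¹ u') := by rw [hkp, act_mul, act_inv_act]
    rw [e2, e1, hp'])
  have h3 : (cj k M).relIndex (PP u) = M.relIndex (PP u') := by
    rw [← cj_PP k u, relIndex_cj, hk]
  have h4 := hρ u hu0 hu
  have h5 := hρ u' hu'0 hu'
  have h6 : M.relIndex (PP u) + M.relIndex (PP u') ≤ M.index := by
    rw [← h3]; exact h2
  have h7 : (q + 1) * (q ^ 3 + 1) = q ^ 3 * (q + 1) + (q + 1) := by ring
  have h8 : q + 1 ≤ q ^ 3 * (q + 1) := Nat.le_mul_of_pos_left _ (pow_pos (by omega) _)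
  omega

/-- The minimal index for `SU_4(q)`. -/
theorem main4 (hF : Fintype.card F = q ^ 2) (M : Subgroup (SU (2 + 2) F q)) (hMt : M ≠ ⊤) :
    (q + 1) * (q ^ 3 + 1) ≤ M.index := by
  by_contra hcon
  push Not at hcon
  have hq := two_le_q hF
  have hqz : (2 : ℤ) ≤ q := by exact_mod_cast hq
  have hOut : ∀ (u : Fin (2 + 2) → F) (_ : u ≠ 0) (hu : ⟪u, u⟫ = 0), Out hF M u hu := by
    intro u hu0 hu
    apply step4 hF M hcon hu0 hu
    intro h
    exact no_Cc4 hF M hMt hcon u ⟨hu0, hu, h⟩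
  have htr : ∀ {u u' : Fin (2 + 2) → F}, u ≠ 0 → ⟪u, u⟫ = 0 → u' ≠ 0 → ⟪u', u'⟫ = 0 →
      ∃ m ∈ M, ∃ c : F, c ≠ 0 ∧ act m u' = c • u := fun hu0 hu hu'0 hu' =>
    trans4 hF M hcon (fun u hu0 hu => (hOut u hu0 hu).2.1) hu0 hu hu'0 hu'
  -- no transvections
  have hnoX : ∀ v : Fin (2 + 2) → F, v ≠ 0 → ⟪v, v⟫ = 0 → ∀ a ∈ M, a ≠ 1 →
      ∀ s : F, s ^ q = -s → ¬ IsEich a v 0 s := by
    intro v hv0 hv a ha ha1 s hs h
    have h1 := (hOut v hv0 hv).1
    have h2 := Subgroup.card_eq_one.1 h1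
    have h3 : a ∈ M ⊓ Xs hF v hv := ⟨ha, s, hs, h⟩
    rw [h2, Subgroup.mem_bot] at h3
    exact ha1 h3
  -- local orders on a line
  have hloc : ∀ {u y : Fin (2 + 2) → F}, ⟪u, u⟫ = 0 → Fl q u y → ∀ v ∈ spn u y, v ≠ 0 →
      ∃ y', ⟪v, v⟫ = 0 ∧ Fl q v y' ∧
        Nat.card {a : ↥(M ⊓ EL u y) // InQ v (a : SU (2 + 2) F q)} = DQ M v y' := by
    intro u y hu hy v hv hv0
    obtain ⟨y', hvv, hFl, hsp⟩ := exists_basis hF hu hy hv hv0
    refine ⟨y', hvv, hFl, ?_⟩
    unfold DQ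
    rw [EL_span hF hsp]
  have hc2 : ∀ {u y : Fin (2 + 2) → F}, ⟪u, u⟫ = 0 → Fl q u y → ∀ c : ℕ,
      (∀ v ∈ spn u y, v ≠ 0 → Nat.card {a : ↥(M ⊓ EL u y) // InQ v (a : SU (2 + 2) F q)} = c) →
      (((Nat.card ↥(M ⊓ EL u y) : ℕ) : ℤ) - 1) * (((q : ℤ) ^ 2 - 1) * (q + 1)) =
        ((q : ℤ) ^ 4 - 1) * ((c : ℤ) - 1) ∧ c ∣ Nat.card ↥(M ⊓ EL u y) := by
    intro u y hu hy c hc
    have hli' := LinearIndependent.pair_iff.1 hy.1
    have hu0 : u ≠ 0 := by
      intro h
      have := hli' 1 0 (by rw [h]; module)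
      exact one_ne_zero this.1
    have hud : u ∈ spn u y := mem_spn.2 ⟨1, 0, by module⟩
    have hdv : c ∣ Nat.card ↥(M ⊓ EL u y) := by
      rw [← hc u hud hu0]
      have e1 : Nat.card {a : ↥(M ⊓ EL u y) // InQ u (a : SU (2 + 2) F q)} =
          Nat.card ↥((Qs hF u hu).subgroupOf (M ⊓ EL u y)) := rfl
      rw [e1]
      exact Subgroup.card_subgroup_dvd_card _
    refine ⟨?_, hdv⟩
    have h1 := dcount hF hu hy (A := M ⊓ EL u y) inf_le_right (by
      intro v hv hv0 a ha ha1 s hs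
      obtain ⟨y', hvv, -, -⟩ := exists_basis hF hu hy hv hv0
      exact hnoX v hv0 hvv a ha.1 ha1 s hs) hc
    have hA1 : 1 ≤ Nat.card ↥(M ⊓ EL u y) := Nat.card_pos
    have hc1 : 1 ≤ c := by
      rw [← hc u hud hu0]
      have : Nonempty {a : ↥(M ⊓ EL u y) // InQ u (a : SU (2 + 2) F q)} := ⟨1, InQ_one hF u⟩
      exact Nat.card_pos
    have hq2 : 1 ≤ q ^ 2 := Nat.one_le_pow _ _ (by omega)
    have hq4 : 1 ≤ q ^ 4 := Nat.one_le_pow _ _ (by omega)
    zify [hA1, hc1, hq2, hq4] at h1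
    exact h1
  by_cases hex : ∃ (u y : Fin (2 + 2) → F), u ≠ 0 ∧ ⟪u, u⟫ = 0 ∧ Fl q u y ∧ DQ M u y = q ^ 2
  · obtain ⟨u, y, hu0, hu, hy, hD⟩ := hex
    have hall : ∀ v ∈ spn u y, v ≠ 0 →
        Nat.card {a : ↥(M ⊓ EL u y) // InQ v (a : SU (2 + 2) F q)} = q ^ 2 := by
      intro v hv hv0
      obtain ⟨y', hvv, hFl, heq⟩ := hloc hu hy v hv hv0
      rcases (hOut v hv0 hvv).2.2 with ⟨-, h1⟩ | ⟨-, h1⟩
      · rcases h1 y' hFl with h2 | h2
        · rw [heq, ← DD_eq_DQ hF M hvv]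
          exact h2
        · exfalso
          rw [DD_eq_DQ hF M hvv, ← heq] at h2
          have h3 : Nat.card ↥(M ⊓ EL u y) ≤ q := by
            apply small_of_triv hF hu hy inf_le_right hv hv0
            intro a ha haQ
            have h4 : Subsingleton {a : ↥(M ⊓ EL u y) // InQ v (a : SU (2 + 2) F q)} :=
              (Nat.card_eq_one_iff_unique.1 h2).1
            have h5 := h4.elim ⟨⟨a, ha⟩, haQ⟩ ⟨1, InQ_one hF v⟩
            exact congrArg (fun z => ((z.1 : ↥(M ⊓ EL u y)) : SU (2 + 2) F q)) h5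
          have h4 : q ^ 2 ≤ Nat.card ↥(M ⊓ EL u y) := by
            rw [← hD]
            exact Nat.card_le_card_of_injective Subtype.val Subtype.val_injective
          nlinarith
      · exfalso
        obtain ⟨m, hm, c, hc, hmv⟩ := htr hu0 hu hv0 hvv
        have hcj : cj m M = M := by
          ext g
          rw [mem_cj]
          constructor
          · intro h
            have := M.mul_mem (M.mul_mem (M.inv_mem hm) h) hm
            have e : m⁻¹ * (m * g * m⁻¹) * m = g := by group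
            rwa [e] at this
          · intro h
            exact M.mul_mem (M.mul_mem hm h) (M.inv_mem hm)
        have hmy : act m (act m⁻¹ y) = y := act_act_inv m y
        have hFl2 : Fl q v (act m⁻¹ y) := by
          rw [← Fl_act m, hmv, hmy]
          refine ⟨?_, hy.2.1, by rw [hermForm_smul_left, hy.2.2, mul_zero]⟩
          have hli' := LinearIndependent.pair_iff.1 hy.1
          rw [LinearIndependent.pair_iff]
          intro s t hst
          have h3 := hli' (s * c) t (by rw [← hst]; module)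
          exact ⟨(mul_eq_zero.1 h3.1).resolve_right hc, h3.2⟩
        have h2 := h1 _ hFl2
        have hmvv : ⟪act m v, act m v⟫ = 0 := by rw [act_form, hvv]
        have h3 := DD_cj hF m M hvv hmvv (act m⁻¹ y)
        rw [hcj, h2, DD_eq_DQ hF M hmvv, hmy, hmv, DQ_smul hF M hc, hD] at h3
        nlinarith
    obtain ⟨h1, d, hd⟩ := hc2 hu hy (q ^ 2) hall
    have hdz : ((Nat.card ↥(M ⊓ EL u y) : ℕ) : ℤ) = (q : ℤ) ^ 2 * d := by exact_mod_cast hd
    rw [hdz] at h1
    push_cast at h1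
    have hq2 : ((q : ℤ) ^ 2 - 1) * ((q : ℤ) + 1) ≠ 0 := by
      have : 0 < (q : ℤ) ^ 2 - 1 := by nlinarith
      positivity
    have h2 : ((q : ℤ) ^ 2 * d - 1) = ((q : ℤ) ^ 2 + 1) * (q - 1) := by
      apply mul_right_cancel₀ hq2
      linear_combination h1
    have h3 : (q : ℤ) * ((q : ℤ) * ((q : ℤ) * d - q ^ 2 + q - 1)) = 0 := by
      linear_combination (q : ℤ) * h2
    have hq0 : (q : ℤ) ≠ 0 := by linarith
    have h4 := (mul_eq_zero.1 ((mul_eq_zero.1 h3).resolve_left hq0)).resolve_left hq0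
    have h5 : (q : ℤ) * (d - q + 1) = 1 := by linear_combination h4
    have h6 : (q : ℤ) ∣ 1 := ⟨_, h5.symm⟩
    have h7 := Int.le_of_dvd (by norm_num) h6
    linarith
  · push Not at hex
    obtain ⟨u, hu0, hu⟩ := exists_isotropic hF (F := F) (q := q) (n := 2 + 2) (by omega)
    have hT2 : ∀ (v : Fin (2 + 2) → F) (_ : v ≠ 0) (hv : ⟪v, v⟫ = 0), Even q ∧
        ∀ y, Fl q v y → DQ M v y = q := by
      intro v hv0 hv
      rcases (hOut v hv0 hv).2.2 with ⟨⟨y, hy, h1⟩, -⟩ | ⟨h0, h1⟩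
      · exfalso
        rw [DD_eq_DQ hF M hv] at h1
        exact hex v y hv0 hv hy h1
      · exact ⟨h0, fun y hy => by rw [← DD_eq_DQ hF M hv]; exact h1 y hy⟩
    obtain ⟨y, hy⟩ : ∃ y, Fl q u y := by
      obtain ⟨e, e', hee⟩ := exists_e2 hF
      have he0 := hee.left_ne
      have hu' : ⟪kp e (0 : Fin 2 → F), kp e 0⟫ = 0 := by
        rw [kp_form, hee.1, hermForm_zero_left, add_zero]
      have hFl : Fl q (kp e (0 : Fin 2 → F)) (kp 0 e) := by
        refine ⟨?_, ?_, ?_⟩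
        · rw [LinearIndependent.pair_iff]
          intro s t hst
          rw [← kp_smul, ← kp_smul, ← kp_add, kp_eq_zero, smul_zero, smul_zero, add_zero,
            zero_add] at hst
          exact ⟨(smul_eq_zero.1 hst.1).resolve_right he0,
            (smul_eq_zero.1 hst.2).resolve_right he0⟩
        · rw [kp_form, hermForm_zero_left, zero_add, hee.1]
        · rw [kp_form, hermForm_zero_right hF, hermForm_zero_left, add_zero]
      obtain ⟨k, hk⟩ := exists_SU_single hF (by omega) (kp_ne_zero_left he0 (0 : Fin 2 → F)) hu0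
        (hu'.trans hu.symm)
      refine ⟨act k (kp 0 e), ?_⟩
      rw [← hk, Fl_act]
      exact hFl
    have hall : ∀ v ∈ spn u y, v ≠ 0 →
        Nat.card {a : ↥(M ⊓ EL u y) // InQ v (a : SU (2 + 2) F q)} = q := by
      intro v hv hv0
      obtain ⟨y', hvv, hFl, heq⟩ := hloc hu hy v hv hv0
      rw [heq]
      exact (hT2 v hv0 hvv).2 y' hFl
    obtain ⟨h1, d, hd⟩ := hc2 hu hy q hall
    have hev := (hT2 u hu0 hu).1
    have hdz : ((Nat.card ↥(M ⊓ EL u y) : ℕ) : ℤ) = (q : ℤ) * d := by exact_mod_cast hd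
    rw [hdz] at h1
    have hq2 : ((q : ℤ) ^ 2 - 1) ≠ 0 := by nlinarith
    have h2 : ((q : ℤ) * d - 1) * (q + 1) = ((q : ℤ) ^ 2 + 1) * (q - 1) := by
      apply mul_right_cancel₀ hq2
      linear_combination h1
    have hq0 : (q : ℤ) ≠ 0 := by linarith
    have h3 : ((q : ℤ) + 1) * (d - q + 2) = 4 := by
      apply mul_left_cancel₀ hq0
      linear_combination h2
    have h4 : (0 : ℤ) < d - q + 2 := by
      by_contra hc
      push Not at hc
      nlinarith
    have h5 : (d : ℤ) - q + 2 < 2 := by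
      by_contra hc
      push Not at hc
      nlinarith
    have h6 : (d : ℤ) - q + 2 = 1 := by omega
    rw [h6, mul_one] at h3
    have h7 : q = 3 := by
      have : (q : ℤ) = 3 := by linarith
      exact_mod_cast this
    rw [h7] at hev
    exact absurd hev (by decide)

theorem center_le_stab (hF : Fintype.card F = q ^ 2) (hn : 2 ≤ n) (u y : Fin n → F) :
    Subgroup.center (SU n F q) ≤ stabB q (spn u y) := by
  intro g hg
  obtain ⟨c, hc⟩ := (mem_center_SU_iff hF hn g).1 hg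
  have h1 : ∀ x, act g x = c • x := by
    intro x
    rw [act_def, hc]
    funext i
    rw [Matrix.mulVec_diagonal]; rfl
  intro x hx
  rw [h1]
  exact Submodule.smul_mem _ _ hx

end Cfsg.Agent.MinU
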