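import Cfsg.Agent.MinU.N4D

/-!
# Step 1 in dimension four
-/

set_option autoImplicit false
set_option linter.unusedSectionVars false
set_option maxHeartbeats 1000000

namespace Cfsg.Agent.MinU

open Cfsg.Agent.Uni Finset

variable {F : Type*} [Field F] [Fintype F] {q n m : ℕ}

local notation "⟪" x ", " y "⟫" => hermForm _ _ q x y

/-- Twisted action on the plane. -/
theorem B_twist (hF : Fintype.card F = q ^ 2) {e : Fin 2 → F} (he0 : e ≠ 0) (he : ⟪e, e⟫ = 0)
    {M : Subgroup (SU (m + 2) F q)} (hu : ⟪kp e (0 : Fin m → F), kp e 0⟫ = 0)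
    {g : SU (m + 2) F q} (hg : g ∈ M) {l : F} (hl : l ≠ 0)
    (hgu : act g (kp e (0 : Fin m → F)) = l • kp e 0)
    {w : Fin m → F} (hw : w ∈ (WB hF (kp e 0) hu M).comap (kp0 m F)) :
    ∃ (c : F) (w' : Fin m → F), act g (kp 0 w) = kp (c • e) w' ∧
      (l ^ q) • w' ∈ (WB hF (kp e 0) hu M).comap (kp0 m F) := by
  obtain ⟨c, w', h⟩ := act_kp_std hF he0 he hl hgu w
  refine ⟨c, w', h, ?_⟩
  have h1 := WB_twist hF hu hl hg hgu (show kp 0 w ∈ WB hF (kp e 0) hu M from hw)
  rw [h, ← kp_smul, smul_smul] at h1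
  exact (kp_mem_WB hF M hu _ _).1 h1

/-- In even characteristic multipliers of a stabiliser of a subfield-type subgroup are in the
fixed field. -/
theorem TM_fixed (hF : Fintype.card F = q ^ 2) (hq2 : Even q) {e : Fin 2 → F} (he0 : e ≠ 0)
    (he : ⟪e, e⟫ = 0)
    {M : Subgroup (SU (2 + 2) F q)} (hu : ⟪kp e (0 : Fin 2 → F), kp e 0⟫ = 0)
    {B : AddSubgroup (Fin 2 → F)} (hBd : B = (WB hF (kp e 0) hu M).comap (kp0 2 F))
    {x y : Fin 2 → F} (hx : x ∈ B) (hy : y ∈ B)
    (hxx : ⟪x, x⟫ = 0) (hyy : ⟪y, y⟫ = 0) (hxy : ⟪x, y⟫ ≠ 0) (hs : ⟪x, y⟫ ^ q = -⟪x, y⟫)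
    (hB : ∀ z, z ∈ B ↔ ∃ α β : F, α ^ q = α ∧ β ^ q = β ∧ z = α • x + β • y)
    {l : Fˣ} (hl : l ∈ TM (kp e (0 : Fin 2 → F)) M) : (l : F) ^ q = l := by
  obtain ⟨g, hg, hgu⟩ := hl
  obtain ⟨e', hee⟩ := exists_hyp' hF he0 he
  have hl0 : (l : F) ≠ 0 := l.ne_zero
  have hlq : (l : F) ^ q ≠ 0 := pow_ne_zero _ hl0
  rw [hBd] at hx hy
  obtain ⟨a₀, x', hgx, hx'⟩ := B_twist hF he0 he hu hg hl0 hgu hx
  obtain ⟨b₀, y', hgy, hy'⟩ := B_twist hF he0 he hu hg hl0 hgu hy
  rw [← hBd, hB] at hx' hy'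
  obtain ⟨α, β, hα, hβ, hxe⟩ := hx'
  obtain ⟨γ, δ, hγ, hδ, hye⟩ := hy'
  set lam := ((l : F) ^ q)⁻¹ with hlam
  have hlamq : lam ^ q = (l : F)⁻¹ := by rw [hlam, inv_pow, pow_q_pow_q hF]
  have hx2 : x' = (lam * α) • x + (lam * β) • y := by
    have : x' = lam • ((l : F) ^ q • x') := by rw [smul_smul, inv_mul_cancel₀ hlq, one_smul]
    rw [this, hxe]; module
  have hy2 : y' = (lam * γ) • x + (lam * δ) • y := by
    have : y' = lam • ((l : F) ^ q • y') := by rw [smul_smul, inv_mul_cancel₀ hlq, one_smul]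
    rw [this, hye]; module
  rw [hx2] at hgx
  rw [hy2] at hgy
  have h1 := det_rel hF hee hxx hyy hxy hl0 hgu hgx hgy
  have hyx : ⟪y, x⟫ = -⟪x, y⟫ := by rw [← hermForm_symm hF, hs]
  have h2 : ⟪act g (kp 0 x), act g (kp 0 y)⟫ = ⟪x, y⟫ := by
    rw [act_form, kp_form, hermForm_zero_left, zero_add]
  rw [hgx, hgy, kp_form] at h2
  simp only [hermForm_add_left, hermForm_add_right hF, hermForm_smul_left,
    hermForm_smul_right, he, hxx, hyy, hyx, mul_pow, hα, hβ, hγ, hδ, hlamq] at h2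
  have h3 : lam * (l : F)⁻¹ * (α * δ - β * γ) = 1 := by
    apply mul_right_cancel₀ hxy
    linear_combination h2
  rw [← hlam] at h1
  -- combine
  have e1 : α * δ - β * γ = (l : F) ^ q * l := by
    have : (l : F) ^ q * l * (lam * (l : F)⁻¹ * (α * δ - β * γ)) = (l : F) ^ q * l * 1 := by
      rw [h3]
    rw [mul_one] at this
    rw [← this, hlam]
    field_simp
  have e2 : (l : F) * (lam * lam * (α * δ - β * γ)) * lam = 1 := by
    rw [← h1]; ring
  rw [e1, hlam] at e2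
  have e3 : (l : F) * l = (l : F) ^ q * (l : F) ^ q := by
    field_simp at e2
    linear_combination e2
  have h20 := two_eq_zero hF hq2
  have e4 : ((l : F) ^ q - l) * ((l : F) ^ q - l) = 0 := by
    linear_combination -e3 + (l * l - (l : F) ^ q * l) * h20
  exact sub_eq_zero.1 (mul_self_eq_zero.1 e4)

/-- Anisotropic vectors are excluded, even case. -/
theorem noniso_even (hF : Fintype.card F = q ^ 2) (hq2 : Even q) {u : Fin n → F}
    (hu : ⟪u, u⟫ = 0) {M : Subgroup (SU n F q)} (hXB : XB hF u hu M = ⊥) {w : Fin n → F}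
    (hw : w ∈ WB hF u hu M) : ⟪w, w⟫ = 0 := by
  obtain ⟨h1, g, hg, s, hs, h⟩ := hw
  have h20 := two_eq_zero hF hq2
  have h2 := h.mul hF hu h1 h1 h
  have e1 : w + w = 0 := by rw [← two_smul F, h20, zero_smul]
  have e2 : s + s = 0 := by rw [← two_mul, h20, zero_mul]
  rw [e1, e2, zero_sub] at h2
  have h3 : -⟪w, w⟫ ∈ XB hF u hu M := by
    refine ⟨?_, g * g, M.mul_mem hg hg, h2⟩
    rw [neg_pow_q hF, hermForm_self_pow_q hF, neg_neg]
    linear_combination (-⟪w, w⟫) * h20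
  rw [hXB, AddSubgroup.mem_bot, neg_eq_zero] at h3
  exact h3

/-- Counting vectors of given norm. -/
theorem norm_count (hF : Fintype.card F = q ^ 2) {B : AddSubgroup (Fin 2 → F)}
    {k : ℕ} (h : ∀ ν : F, ν ^ q = ν → ν ≠ 0 → k ≤ Nat.card {x : B // ⟪(x : Fin 2 → F), (x : Fin 2 → F)⟫ = ν}) :
    (q - 1) * k ≤ Nat.card B := by
  classical
  let S := {x : B // ⟪(x : Fin 2 → F), (x : Fin 2 → F)⟫ ≠ 0}
  let f : S → {c : F // c ^ q = c ∧ c ≠ 0} := fun x =>
    ⟨⟪((x : B) : Fin 2 → F), ((x : B) : Fin 2 → F)⟫, hermForm_self_pow_q hF _, x.2⟩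
  have h1 : Nat.card S = ∑ c, Nat.card {x : S // f x = c} := by
    rw [← Nat.card_congr (Equiv.sigmaFiberEquiv f), Nat.card_sigma]
  have h2 : ∀ c, k ≤ Nat.card {x : S // f x = c} := by
    intro c
    refine (h c.1 c.2.1 c.2.2).trans (le_of_eq ?_)
    refine Nat.card_congr ⟨fun x => ⟨⟨x.1, by rw [x.2]; exact c.2.2⟩, Subtype.ext x.2⟩,
      fun x => ⟨x.1.1, congrArg Subtype.val x.2⟩, fun x => rfl, fun x => rfl⟩
  have h3 : Nat.card S ≤ Nat.card B := Nat.card_le_card_of_injective (fun x => x.1)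
    Subtype.val_injective
  refine le_trans ?_ h3
  rw [h1, ← card_fixed_ne_zero hF, Nat.card_eq_fintype_card, ← Finset.card_univ, ← smul_eq_mul]
  exact Finset.card_nsmul_le_sum _ _ _ (fun c _ => h2 c)

/-- Anisotropic vectors are excluded, odd case. -/
theorem noniso_odd (hF : Fintype.card F = q ^ 2) (hq3 : 3 ≤ q) {e : Fin 2 → F} (he0 : e ≠ 0)
    (he : ⟪e, e⟫ = 0)
    {M : Subgroup (SU (2 + 2) F q)} (hu : ⟪kp e (0 : Fin 2 → F), kp e 0⟫ = 0)
    {B : AddSubgroup (Fin 2 → F)} (hBd : B = (WB hF (kp e 0) hu M).comap (kp0 2 F))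
    (hb : Nat.card B = q ^ 2) (hT : TM (kp e (0 : Fin 2 → F)) M = ⊤)
    (hI : (stabB q B).index ≤ q + 1) : ∀ a ∈ B, ⟪a, a⟫ = 0 := by
  classical
  intro a ha
  by_contra haa
  have key : ∀ ν : F, ν ^ q = ν → ν ≠ 0 → ∃ a' ∈ B, ⟪a', a'⟫ = ν := by
    intro ν hν hν0
    have hμ := hermForm_self_pow_q hF (F := F) a
    obtain ⟨l, hl⟩ := exists_norm_eq hF (c := ν / ⟪a, a⟫) (by rw [div_pow, hν, hμ])
    have hl0 : l ≠ 0 := by
      rintro rfl
      rw [zero_pow (by omega)] at hl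
      exact (div_ne_zero hν0 haa) hl.symm
    have h1 : Units.mk0 l hl0 ∈ TM (kp e (0 : Fin 2 → F)) M := by rw [hT]; exact Subgroup.mem_top _
    obtain ⟨g, hg, hgu⟩ := h1
    rw [Units.val_mk0] at hgu
    have ha' := ha
    rw [hBd] at ha'
    obtain ⟨c, w', hgw, hw'⟩ := B_twist hF he0 he hu hg hl0 hgu ha'
    rw [← hBd] at hw'
    refine ⟨_, hw', ?_⟩
    have h2 : ⟪act g (kp 0 a), act g (kp 0 a)⟫ = ⟪a, a⟫ := by
      rw [act_form, kp_form, hermForm_zero_left, zero_add]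
    rw [hgw, kp_form, hermForm_smul_left, hermForm_smul_right, he, mul_zero, mul_zero,
      zero_add] at h2
    rw [hermForm_smul_left, hermForm_smul_right, h2, pow_q_pow_q hF]
    rw [pow_succ] at hl
    field_simp at hl
    linear_combination hl
  have hcnt : ∀ ν : F, ν ^ q = ν → ν ≠ 0 →
      q * (q - 1) ≤ Nat.card {x : B // ⟪(x : Fin 2 → F), (x : Fin 2 → F)⟫ = ν} := by
    intro ν hν hν0
    obtain ⟨a', ha', haν⟩ := key ν hν hν0
    have h1 := inf_index (stabB q B) (fixs a')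
    have h2 : (fixs (q := q) a').relIndex (stabB q B) ≤
        Nat.card {x : B // ⟪(x : Fin 2 → F), (x : Fin 2 → F)⟫ = ν} := by
      rw [relIndex_fixs]
      refine Nat.card_le_card_of_injective
        (fun v : {v : Fin 2 → F // ∃ g ∈ stabB q B, act g a' = v} =>
        (⟨⟨v.1, ?_⟩, ?_⟩ : {x : B // ⟪(x : Fin 2 → F), (x : Fin 2 → F)⟫ = ν})) ?_
      · obtain ⟨g, hg, h⟩ := v.2
        rw [← h]; exact hg a' ha'
      · obtain ⟨g, hg, h⟩ := v.2
        change ⟪v.1, v.1⟫ = ν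
        rw [← h, act_form, haν]
      · intro v w hvw
        exact Subtype.ext (congrArg (fun z => z.1.1) hvw)
    have h3 := index_fixs_two hF (a := a') (by rw [haν]; exact hν0)
    have h4 : 0 < (stabB q B).relIndex (fixs a') := Nat.pos_of_ne_zero (rel_ne_zero _ _)
    set n₀ := Nat.card {x : B // ⟪(x : Fin 2 → F), (x : Fin 2 → F)⟫ = ν} with hn₀
    have h5 : (fixs (q := q) a').index ≤ n₀ * (q + 1) := by
      calc (fixs (q := q) a').index = 1 * (fixs (q := q) a').index := (one_mul _).symm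
        _ ≤ (stabB q B).relIndex (fixs a') * (fixs a').index := Nat.mul_le_mul_right _ h4
        _ = (fixs a').relIndex (stabB q B) * (stabB q B).index := h1
        _ ≤ n₀ * (q + 1) := Nat.mul_le_mul h2 hI
    have h6 : ((fixs (q := q) a').index : ℤ) ≤ n₀ * (q + 1) := by exact_mod_cast h5
    rw [h3] at h6
    have h7 : ((q : ℤ) * ((q : ℤ) - 1)) * ((q : ℤ) + 1) ≤ n₀ * (q + 1) := by linarith
    have h8 := le_of_mul_le_mul_right h7 (by positivity)
    have h9 : 1 ≤ q := by omega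
    zify [h9]
    exact h8
  have h1 := norm_count hF hcnt
  rw [hb] at h1
  have h9 : 1 ≤ q := by omega
  zify [h9] at h1
  have hq3z : (3 : ℤ) ≤ q := by exact_mod_cast hq3
  have h2 : ((q : ℤ) - 1) * (q - 1) * q ≤ q * q := by nlinarith
  have h3 := le_of_mul_le_mul_right h2 (by linarith)
  nlinarith

/-- Step 1 in dimension four, standard point. -/
theorem step4_std (hF : Fintype.card F = q ^ 2) {e : Fin 2 → F} (he0 : e ≠ 0) (he : ⟪e, e⟫ = 0)
    (M : Subgroup (SU (2 + 2) F q)) (hM : M.index < (q + 1) * (q ^ 3 + 1))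
    (hu : ⟪kp e (0 : Fin 2 → F), kp e 0⟫ = 0) (hX : ¬ Xs hF (kp e 0) hu ≤ M) :
    Nat.card ↥(M ⊓ Xs hF (kp e 0) hu) = 1 ∧ q ^ 3 * (q + 1) ≤ M.relIndex (PP (kp e 0)) ∧
    ((∃ r : Fin 2 → F, r ≠ 0 ∧ ⟪r, r⟫ = 0 ∧
        ∀ x, x ∈ (WB hF (kp e 0) hu M).comap (kp0 2 F) ↔ ∃ c : F, x = c • r) ∨
      (Even q ∧ ∀ w, w ≠ 0 → ⟪w, w⟫ = 0 →
        Nat.card (Cw ((WB hF (kp e 0) hu M).comap (kp0 2 F)) w) = q)) := by
  classical
  set u := kp e (0 : Fin 2 → F) with hudef
  have hu0 : u ≠ 0 := kp_ne_zero_left he0 _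
  obtain ⟨B, hBd⟩ : ∃ B, B = (WB hF u hu M).comap (kp0 2 F) := ⟨_, rfl⟩
  have hq := two_le_q hF
  have hqz : (2 : ℤ) ≤ q := by exact_mod_cast hq
  -- numbers
  have h1 := index_ge_fix hF hu M
  have h3 := card_eq_relIndex_mul M (Qs hF u hu)
  have h4 := card_inf_Qs hF hu0 hu M
  have h5 := card_Qs hF hu0 hu
  rw [card_WB_std hF he0 he M hu] at h4
  have h6 : (stabB q B).index ≤ (KK hF u hu M).relIndex (fixs u) := by
    calc (stabB q B).index ≤ ((KK hF u hu M).comap (emb2 2 F q)).index := by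
          apply Subgroup.index_antitone
          rw [hBd]
          exact KK_le_stabB hF M hu
      _ = (KK hF u hu M).relIndex (emb2 2 F q).range := Subgroup.index_comap _ _
      _ ≤ _ := by
          apply Subgroup.relIndex_le_of_le_right _ (rel_ne_zero _ _)
          rintro _ ⟨g, rfl⟩
          change act _ u = u
          rw [hudef, act_emb2, act_zero]
  rw [← hBd] at h4 ⊢
  have h7 := TM_count hF (by omega) hu0 hu M
  have h8 := TM_le hF hu M
  have h9 := Lam_count hF hu0 hu M hX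
  have h10 : M.relIndex (PP u) ≤ M.index := by
    rw [← Subgroup.relIndex_top_right M]
    exact Subgroup.relIndex_le_of_le_right le_top (rel_ne_zero _ _)
  have h11 : M.relIndex (fixs u) ≤ M.relIndex (PP u) :=
    Subgroup.relIndex_le_of_le_right (fixs_le_PP u) (rel_ne_zero _ _)
  set z := Nat.card ↥(M ⊓ Xs hF u hu) with hz
  set b := Nat.card B with hbd
  set R := M.relIndex (Qs hF u hu) with hR
  set I' := (KK hF u hu M).relIndex (fixs u) with hI'
  set I := (stabB q B).index with hI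
  set ρ := M.relIndex (PP u) with hρ
  set φ := M.relIndex (fixs u) with hφ
  set t := Nat.card (TM u M) with ht
  set L := Nat.card (Lam hF u hu M) with hL
  have hzpos : 0 < z := Nat.card_pos
  have hbpos : 0 < b := Nat.card_pos
  have hIpos : 0 < I := Nat.pos_of_ne_zero Subgroup.index_ne_zero_of_finite
  have hI'pos : 0 < I' := Nat.pos_of_ne_zero (rel_ne_zero _ _)
  have hRpos : 0 < R := Nat.pos_of_ne_zero (rel_ne_zero _ _)
  have hq2pos : 0 < q ^ 2 := pow_pos (by omega) _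
  have h4' : Nat.card ↥(M ⊓ Qs hF u hu) = z * b := by
    apply Nat.eq_of_mul_eq_mul_right hq2pos
    rw [h4]; ring
  have h5' : Nat.card (Qs hF u hu) = q ^ 5 := by
    apply Nat.eq_of_mul_eq_mul_right hq2pos
    rw [h5]; ring
  have hRzb : R * (z * b) = q ^ 5 := by rw [← h5', h3, h4']
  have hRI : R * I ≤ φ := (Nat.mul_le_mul_left _ h6).trans h1
  have hφL : φ * (q - 1) ≤ ρ * L := by
    have e1 : φ * (q - 1) * (q + 1) ≤ ρ * L * (q + 1) := by
      have e2 : (q - 1) * (q + 1) = q ^ 2 - 1 := by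
        zify [show 1 ≤ q by omega, show 1 ≤ q ^ 2 from hq2pos]; ring
      calc φ * (q - 1) * (q + 1) = φ * (q ^ 2 - 1) := by rw [mul_assoc, e2]
        _ = ρ * t := h7.symm
        _ ≤ ρ * ((q + 1) * L) := Nat.mul_le_mul_left _ h8
        _ = ρ * L * (q + 1) := by ring
    exact Nat.le_of_mul_le_mul_right e1 (by omega)
  -- integers
  have hq1 : 1 ≤ q := by omega
  have zR : (0 : ℤ) ≤ R := by positivity
  have zI : (1 : ℤ) ≤ I := by exact_mod_cast hIpos
  have zz : (1 : ℤ) ≤ z := by exact_mod_cast hzpos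
  have zb : (1 : ℤ) ≤ b := by exact_mod_cast hbpos
  have zρ : (0 : ℤ) ≤ ρ := by positivity
  have zk : (ρ : ℤ) < (q + 1) * (q ^ 3 + 1) := by exact_mod_cast lt_of_le_of_lt h10 hM
  have zRzb : (R : ℤ) * (z * b) = q ^ 5 := by exact_mod_cast hRzb
  have zRI : (R : ℤ) * I ≤ φ := by exact_mod_cast hRI
  have zφL : (φ : ℤ) * (q - 1) ≤ ρ * L := by
    have := hφL
    zify [hq1] at this
    exact this
  have zLz : ((L : ℤ) + 1) * z ≤ q := by exact_mod_cast h9
  have hcomb := comb q ρ φ R I z b L hqz zR (by linarith) zz zb zρ zRzb zRI zφL zLz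
  -- `b ≤ q²`
  have hBY : ∀ x ∈ B, ∀ y ∈ B, ⟪x, y⟫ - ⟪y, x⟫ ∈ XB hF u hu M := by
    intro x hx y hy
    rw [hBd] at hx hy
    have := WB_comm hF hu hx hy
    rw [kp0_apply, kp0_apply, kp_form, kp_form, hermForm_zero_left, zero_add, zero_add] at this
    exact this
  obtain ⟨s₀, hs₀, hs₀M⟩ := exists_skew_notMem hF hu hX
  have hble : b ≤ q ^ 2 := by
    have h := ti_bound hF (XB hF u hu M) hs₀ hs₀M ⊤ B (fun x _ => Submodule.mem_top) hBY
    have e1 : Nat.card (⊤ : Submodule F (Fin 2 → F)) = q ^ (2 * 2) := by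
      rw [card_submod hF, finrank_top, Module.finrank_fin_fun]
    have e2 : (⊤ : Submodule F (Fin 2 → F)) ⊓ perp q ⊤ = ⊥ := (nd_iff_inf ⊤).1 (nd_top hF)
    rw [e1, e2] at h
    have e3 : Nat.card (⊥ : Submodule F (Fin 2 → F)) = 1 := by
      rw [card_submod hF, finrank_bot]; rfl
    rw [e3, mul_one] at h
    apply le_of_sq_le
    rw [← pow_add]
    exact h
  have hBne : B ≠ ⊥ := by
    intro h0
    have hb1 : b = 1 := by rw [hbd, h0]; exact AddSubgroup.card_bot
    rw [hb1, Nat.cast_one] at hcomb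
    exact m1 q ρ I z hqz zI zz zρ zk hcomb
  -- the subfield case
  have hW0 : b = q ^ 2 → (∀ x ∈ B, ⟪x, x⟫ = 0) → (∃ x ∈ B, ∃ y ∈ B, ⟪x, y⟫ ≠ 0 ∧
      ⟪x, y⟫ ^ q = -⟪x, y⟫ ∧
      ∀ z, z ∈ B ↔ ∃ α β : F, α ^ q = α ∧ β ^ q = β ∧ z = α • x + β • y) →
      z = 1 ∧ q ^ 3 * (q + 1) ≤ ρ ∧ ((∃ r : Fin 2 → F, r ≠ 0 ∧ ⟪r, r⟫ = 0 ∧
        ∀ x, x ∈ B ↔ ∃ c : F, x = c • r) ∨ (Even q ∧ ∀ w, w ≠ 0 → ⟪w, w⟫ = 0 →
        Nat.card (Cw B w) = q)) := by
    rintro hb hiso ⟨x, hx, y, hy, hxy, hsk, hB⟩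
    have hyx : ⟪y, x⟫ = -⟪x, y⟫ := by rw [← hermForm_symm hF, hsk]
    rcases Nat.even_or_odd q with hev | hodd
    · have htL : t ≤ L := by
        have hfix : ∀ l ∈ TM u M, (l : F) ^ q = l := fun l hl =>
          TM_fixed hF hev he0 he hu hBd hx hy (hiso x hx) (hiso y hy) hxy hsk hB hl
        have hmem : ∀ l : TM u M, (((l : Fˣ) : F) ^ (q + 1)) ^ q = ((l : Fˣ) : F) ^ (q + 1) ∧
            ((l : Fˣ) : F) ^ (q + 1) ≠ 0 ∧
            ∀ s ∈ XB hF u hu M, ((l : Fˣ) : F) ^ (q + 1) * s ∈ XB hF u hu M := by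
          intro l
          obtain ⟨g, hg, h⟩ := l.2
          exact norm_mem_Lam hF hu (l : Fˣ).ne_zero hg h
        refine Nat.card_le_card_of_injective
          (fun l : TM u M => (⟨((l : Fˣ) : F) ^ (q + 1), hmem l⟩ : Lam hF u hu M)) ?_
        intro l l' hll
        have e1 : ((l : Fˣ) : F) ^ (q + 1) = ((l' : Fˣ) : F) ^ (q + 1) :=
          congrArg Subtype.val hll
        rw [pow_succ, pow_succ, hfix l l.2, hfix l' l'.2] at e1
        have h20 := two_eq_zero hF hev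
        have e2 : (((l : Fˣ) : F) - ((l' : Fˣ) : F)) * (((l : Fˣ) : F) - ((l' : Fˣ) : F)) = 0 := by
          linear_combination e1 + (((l' : Fˣ) : F) * ((l' : Fˣ) : F) -
            ((l : Fˣ) : F) * ((l' : Fˣ) : F)) * h20
        exact Subtype.ext (Units.ext (sub_eq_zero.1 (mul_self_eq_zero.1 e2)))
      have zq2 : (0 : ℤ) ≤ (q : ℤ) ^ 2 - 1 := by nlinarith
      have e1 : (φ : ℤ) * ((q : ℤ) ^ 2 - 1) ≤ ρ * L := by
        have e2 : φ * (q ^ 2 - 1) ≤ ρ * L := by
          rw [← h7]; exact Nat.mul_le_mul_left _ htL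
        have e3 : 1 ≤ q ^ 2 := hq2pos
        zify [e3] at e2
        exact e2
      have e2 : (R : ℤ) ≤ φ := by nlinarith
      have e3 : (R : ℤ) * z = q ^ 3 := by
        have e4 : ((R : ℤ) * z) * q ^ 2 = q ^ 3 * q ^ 2 := by
          have e5 : (b : ℤ) = q ^ 2 := by exact_mod_cast hb
          rw [e5] at zRzb
          linear_combination zRzb
        exact mul_right_cancel₀ (pow_ne_zero _ (by linarith)) e4
      have e4 : (q : ℤ) ^ 3 * ((q : ℤ) ^ 2 - 1) ≤ ρ * (q - z) := by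
        calc (q : ℤ) ^ 3 * ((q : ℤ) ^ 2 - 1) = (R * ((q : ℤ) ^ 2 - 1)) * z := by
              rw [← e3]; ring
          _ ≤ (φ * ((q : ℤ) ^ 2 - 1)) * z := by
              apply mul_le_mul_of_nonneg_right _ (by linarith)
              exact mul_le_mul_of_nonneg_right e2 zq2
          _ ≤ (ρ * L) * z := mul_le_mul_of_nonneg_right e1 (by linarith)
          _ = ρ * (L * z) := by ring
          _ ≤ ρ * (q - z) := mul_le_mul_of_nonneg_left (by linarith) zρ
      have hz1 : z = 1 := by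
        by_contra hz1
        have hz2 : (2 : ℤ) ≤ z := by
          have : 2 ≤ z := by omega
          exact_mod_cast this
        exact m4 q ρ z hqz hz2 zρ zk e4
      refine ⟨hz1, ?_, Or.inr ⟨hev, fun w hw0 hw =>
        Cw_sub hF (hiso x hx) (hiso y hy) hxy hsk hB hw0 hw⟩⟩
      rw [hz1, Nat.cast_one] at e4
      have e5 : ((q : ℤ) ^ 3 * (q + 1)) * (q - 1) ≤ ρ * (q - 1) := by linarith
      have e6 := le_of_mul_le_mul_right e5 (by linarith)
      exact_mod_cast e6
    · exfalso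
      have h20 := two_ne_zero' hF hodd
      apply hs₀M
      have hα : (s₀ / (2 * ⟪x, y⟫)) ^ q = s₀ / (2 * ⟪x, y⟫) := by
        have e2 : (2 : F) ^ q = 2 := by
          rw [← one_add_one_eq_two, add_pow_q hF, one_pow]
        rw [div_pow, mul_pow, hsk, hs₀, e2, mul_neg, neg_div_neg_eq]
      set α := s₀ / (2 * ⟪x, y⟫) with hαd
      have hαx : α • x ∈ B := (hB _).2 ⟨α, 0, hα, zero_pow_q hF, by module⟩
      have e1 := hBY _ hαx _ hy
      rw [hermForm_smul_left, hermForm_smul_right, hα, hyx] at e1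
      have e2 : α * ⟪x, y⟫ - α * -⟪x, y⟫ = s₀ := by
        rw [hαd]
        field_simp
        ring
      rwa [e2] at e1
  -- the two cases
  rcases Nat.lt_or_ge I q with hIq | hIq
  · obtain ⟨hb1, hb2⟩ := struct2 hF hBne hIq
    have hb : b = q ^ 2 := le_antisymm hble hb1
    obtain ⟨hiso, hCw⟩ := hb2 hb
    rcases iso_dich hF hb hiso with ⟨r, hr0, hrr, hr⟩ | h
    · exfalso
      have e1 := hCw r hr0 hrr
      have e2 : Cw B r = ⊤ := by
        rw [AddSubgroup.eq_top_iff']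
        intro c
        rw [mem_Cw, hr]
        exact ⟨c, rfl⟩
      rw [e2] at e1
      have e3 : Nat.card (⊤ : AddSubgroup F) = q ^ 2 := by
        rw [← hF, ← Nat.card_eq_fintype_card]
        exact AddSubgroup.card_top
      rw [e3] at e1
      nlinarith
    · exact hW0 hb hiso h
  · have zIq : (q : ℤ) ≤ I := by exact_mod_cast hIq
    have hb : b = q ^ 2 := by
      rcases card_pow2 hF B hble with h | h
      · exact h
      · exfalso
        exact m2 q ρ I z b hqz zIq zz zb zρ zk (by exact_mod_cast h) hcomb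
    have hbz : (b : ℤ) = q ^ 2 := by exact_mod_cast hb
    rw [hbz] at hcomb
    have hz1 : z = 1 := by
      by_contra hz1
      have hz2 : (2 : ℤ) ≤ z := by
        have : 2 ≤ z := by omega
        exact_mod_cast this
      exact m3 q ρ I z hqz zIq hz2 zρ zk hcomb
    have hR3 : R = q ^ 3 := by
      rw [hz1, one_mul, hb] at hRzb
      apply Nat.eq_of_mul_eq_mul_right hq2pos
      rw [hRzb]; ring
    have hXBbot : XB hF u hu M = ⊥ := by
      apply AddSubgroup.card_eq_one.1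
      rw [card_XB hF hu0 hu]
      exact hz1
    have hiso : ∀ x ∈ B, ⟪x, x⟫ = 0 := by
      rcases Nat.even_or_odd q with hev | hodd
      · intro x hx
        rw [hBd] at hx
        have := noniso_even hF hev hu hXBbot hx
        rw [kp0_apply, kp_form, hermForm_zero_left, zero_add] at this
        exact this
      · have hq3 : 3 ≤ q := by
          rcases hodd with ⟨j, hj⟩
          omega
        have hφ4 : q ^ 4 ≤ φ := by
          calc q ^ 4 = R * q := by rw [hR3]; ring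
            _ ≤ R * I := Nat.mul_le_mul_left _ hIq
            _ ≤ φ := hRI
        have hub : (q + 1) * (q ^ 3 + 1) ≤ 2 * q ^ 4 := by
          have : ((q : ℤ) + 1) * ((q : ℤ) ^ 3 + 1) ≤ 2 * (q : ℤ) ^ 4 := by
            obtain ⟨a, ha⟩ : ∃ a : ℤ, (q : ℤ) = 2 + a := ⟨q - 2, by ring⟩
            have ha0 : 0 ≤ a := by linarith
            rw [ha, ← sub_nonneg]; ring_nf; positivity
          exact_mod_cast this
        refine noniso_odd hF hq3 he0 he hu hBd hb ?_ ?_
        · by_contra hne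
          have hcF : Nat.card Fˣ = q ^ 2 - 1 := by
            rw [Nat.card_eq_fintype_card, Fintype.card_units, hF]
          have hd : t ∣ q ^ 2 - 1 := by
            rw [← hcF]; exact Subgroup.card_subgroup_dvd_card _
          have ht1 : t ≠ q ^ 2 - 1 := by
            intro h
            apply hne
            apply Subgroup.eq_top_of_card_eq
            rw [hcF]; exact h
          obtain ⟨j, hj⟩ := hd
          have hj2 : 2 ≤ j := by
            by_contra hc
            push Not at hc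
            have h41 : 2 ^ 2 ≤ q ^ 2 := Nat.pow_le_pow_left hq 2
            rcases (by omega : j = 0 ∨ j = 1) with h0 | h0
            · rw [h0, mul_zero] at hj; omega
            · rw [h0, mul_one] at hj; exact ht1 hj.symm
          have htpos : 0 < t := Nat.card_pos
          rw [hj] at h7
          have e1 : ρ = φ * j := by
            apply Nat.eq_of_mul_eq_mul_right htpos
            rw [h7]; ring
          have e2 : q ^ 4 * 2 ≤ ρ := by rw [e1]; exact Nat.mul_le_mul hφ4 hj2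
          omega
        · by_contra hc
          push Not at hc
          have e1 : q ^ 3 * (q + 2) ≤ φ := by
            calc q ^ 3 * (q + 2) ≤ R * I := by
                  rw [hR3]; exact Nat.mul_le_mul_left _ (by omega)
              _ ≤ φ := hRI
          have e2 : (q + 1) * (q ^ 3 + 1) ≤ q ^ 3 * (q + 2) := by
            have : ((q : ℤ) + 1) * ((q : ℤ) ^ 3 + 1) ≤ (q : ℤ) ^ 3 * (q + 2) := by
              obtain ⟨a, ha⟩ : ∃ a : ℤ, (q : ℤ) = 2 + a := ⟨q - 2, by ring⟩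
              have ha0 : 0 ≤ a := by linarith
              rw [ha, ← sub_nonneg]; ring_nf; positivity
            exact_mod_cast this
          omega
    rcases iso_dich hF hb hiso with ⟨r, hr0, hrr, hr⟩ | h
    · refine ⟨hz1, ?_, Or.inl ⟨r, hr0, hrr, hr⟩⟩
      have e1 : stabB q B ≤ PP r := by
        intro g hg
        have hrB : r ∈ B := (hr r).2 ⟨1, (one_smul _ _).symm⟩
        obtain ⟨c, hc⟩ := (hr _).1 (hg r hrB)
        refine ⟨c, ?_, hc⟩
        rintro rfl
        rw [zero_smul] at hc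
        exact act_ne_zero hr0 hc
      have e2 : q + 1 ≤ I := (index_PP_two hF hr0 hrr).trans (Subgroup.index_antitone e1)
      calc q ^ 3 * (q + 1) ≤ R * I := by rw [hR3]; exact Nat.mul_le_mul_left _ e2
        _ ≤ φ := hRI
        _ ≤ ρ := h11
    · exact hW0 hb hiso h

end Cfsg.Agent.MinU
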