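import Cfsg.Agent.MinU.N4B

/-!
# The torus part of a point stabiliser
-/

set_option autoImplicit false
set_option linter.unusedSectionVars false

namespace Cfsg.Agent.MinU

open Cfsg.Agent.Uni Finset

variable {F : Type*} [Field F] [Fintype F] {q n m : ℕ}

local notation "⟪" x ", " y "⟫" => hermForm _ _ q x y

/-- The multipliers of `M` at `u`. -/
def TM (u : Fin n → F) (M : Subgroup (SU n F q)) : Subgroup Fˣ where
  carrier := {l | ∃ g ∈ M, act g u = (l : F) • u}
  mul_mem' := by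
    rintro l l' ⟨g, hg, h⟩ ⟨g', hg', h'⟩
    exact ⟨g * g', M.mul_mem hg hg', by
      rw [act_mul, h', act_smul, h, smul_smul, Units.val_mul, mul_comm]⟩
  one_mem' := ⟨1, M.one_mem, by rw [act_one, Units.val_one, one_smul]⟩
  inv_mem' := by
    rintro l ⟨g, hg, h⟩
    refine ⟨g⁻¹, M.inv_mem hg, ?_⟩
    have h1 : u = ((l⁻¹ : Fˣ) : F) • act g u := by
      rw [h, smul_smul, ← Units.val_mul, inv_mul_cancel, Units.val_one, one_smul]
    conv_lhs => rw [h1]
    rw [act_smul, act_inv_act]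

theorem mem_TM {u : Fin n → F} {M : Subgroup (SU n F q)} {l : Fˣ} :
    l ∈ TM u M ↔ ∃ g ∈ M, act g u = (l : F) • u := Iff.rfl

/-- Counting with multipliers. -/
theorem TM_count (hF : Fintype.card F = q ^ 2) (hn : 3 ≤ n) {u : Fin n → F} (hu0 : u ≠ 0)
    (hu : ⟪u, u⟫ = 0) (M : Subgroup (SU n F q)) :
    M.relIndex (PP u) * Nat.card (TM u M) = M.relIndex (fixs u) * (q ^ 2 - 1) := by
  have a1 := card_eq_relIndex_mul M (PP u)
  have a2 := card_eq_relIndex_mul (fixs u) (M ⊓ PP u)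
  have a3 := card_eq_relIndex_mul M (fixs u)
  have a4 := card_eq_relIndex_mul (fixs u) (PP (q := q) u)
  rw [relIndex_fixs_PP_iso hF hn hu0 hu, inf_eq_left.2 (fixs_le_PP u)] at a4
  have e1 : fixs u ⊓ (M ⊓ PP u) = M ⊓ fixs u := by
    ext g
    constructor
    · rintro ⟨h1, h2, -⟩
      exact ⟨h2, h1⟩
    · rintro ⟨h1, h2⟩
      exact ⟨h2, h1, fixs_le_PP u h2⟩
  rw [e1] at a2
  have e2 : (fixs u).relIndex (M ⊓ PP u) = Nat.card (TM u M) := by
    rw [relIndex_fixs]
    symm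
    refine Nat.card_congr (Equiv.ofBijective (fun l : TM u M =>
      (⟨((l : Fˣ) : F) • u, ?_⟩ : {v : Fin n → F // ∃ g ∈ M ⊓ PP u, act g u = v})) ⟨?_, ?_⟩)
    · obtain ⟨g, hg, h⟩ := l.2
      exact ⟨g, ⟨hg, _, (l : Fˣ).ne_zero, h⟩, h⟩
    · intro l l' hll
      have h1 : ((l : Fˣ) : F) • u = ((l' : Fˣ) : F) • u := congrArg Subtype.val hll
      apply Subtype.ext
      apply Units.ext
      have h2 : (((l : Fˣ) : F) - ((l' : Fˣ) : F)) • u = 0 := by rw [sub_smul, h1, sub_self]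
      rcases smul_eq_zero.1 h2 with h3 | h3
      · exact sub_eq_zero.1 h3
      · exact absurd h3 hu0
    · rintro ⟨v, g, ⟨hgM, c, hc, h⟩, hv⟩
      refine ⟨⟨Units.mk0 c hc, g, hgM, h⟩, ?_⟩
      apply Subtype.ext
      change c • u = v
      rw [← h, hv]
  rw [e2] at a2
  have hpos : 0 < Nat.card ↥(M ⊓ fixs u) := Nat.card_pos
  apply Nat.eq_of_mul_eq_mul_right hpos
  calc M.relIndex (PP u) * Nat.card (TM u M) * Nat.card ↥(M ⊓ fixs u)
      = M.relIndex (PP u) * (Nat.card (TM u M) * Nat.card ↥(M ⊓ fixs u)) := by ring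
    _ = Nat.card (PP (q := q) u) := by rw [← a2, ← a1]
    _ = (q ^ 2 - 1) * Nat.card (fixs (q := q) u) := a4
    _ = _ := by rw [a3]; ring

/-- The multipliers of the transvection part. -/
def Lam (hF : Fintype.card F = q ^ 2) (u : Fin n → F) (hu : hermForm n F q u u = 0)
    (M : Subgroup (SU n F q)) : Type _ :=
  {d : F // d ^ q = d ∧ d ≠ 0 ∧ ∀ s ∈ XB hF u hu M, d * s ∈ XB hF u hu M}

instance (hF : Fintype.card F = q ^ 2) (u : Fin n → F) (hu : hermForm n F q u u = 0)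
    (M : Subgroup (SU n F q)) : Finite (Lam hF u hu M) := by unfold Lam; infer_instance

theorem Lam_count (hF : Fintype.card F = q ^ 2) {u : Fin n → F} (hu0 : u ≠ 0)
    (hu : ⟪u, u⟫ = 0) (M : Subgroup (SU n F q)) (hX : ¬ Xs hF u hu ≤ M) :
    (Nat.card (Lam hF u hu M) + 1) * Nat.card ↥(M ⊓ Xs hF u hu) ≤ q := by
  classical
  obtain ⟨s₀, hs₀, hs₀M⟩ := exists_skew_notMem hF hu hX
  set X := XB hF u hu M with hXdef
  have hbij : ∀ d : F, d ≠ 0 → (∀ s ∈ X, d * s ∈ X) → ∀ t : F, d * t ∈ X → t ∈ X := by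
    intro d hd hdX t ht
    let f : X → X := fun s => ⟨d * s, hdX s s.2⟩
    have hf : Function.Injective f := by
      intro x y hxy
      exact Subtype.ext (mul_left_cancel₀ hd (congrArg Subtype.val hxy))
    obtain ⟨⟨t', ht'⟩, h⟩ := Finite.surjective_of_injective hf ⟨d * t, ht⟩
    have h1 : d * t' = d * t := congrArg Subtype.val h
    rw [← mul_left_cancel₀ hd h1]
    exact ht'
  let g : Option (Lam hF u hu M) × X → {s : F // s ^ q = -s} := fun p =>
    match p with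
    | (none, s) => ⟨s.1, s.2.1⟩
    | (some d, s) => ⟨d.1 * s₀ + s.1, by
        rw [add_pow_q hF, mul_pow, d.2.1, hs₀, s.2.1]; ring⟩
  have hg : Function.Injective g := by
    rintro ⟨o, s⟩ ⟨o', s'⟩ hss
    rcases o with _ | d <;> rcases o' with _ | d'
    · have h1 : s.1 = s'.1 := congrArg (fun z : {s : F // s ^ q = -s} => z.1) hss
      rw [Subtype.ext h1]
    · exfalso
      have h1 : s.1 = d'.1 * s₀ + s'.1 := congrArg (fun z : {s : F // s ^ q = -s} => z.1) hss
      apply hs₀M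
      apply hbij d'.1 d'.2.2.1 d'.2.2.2
      have : d'.1 * s₀ = s.1 - s'.1 := by rw [h1]; ring
      rw [this]
      exact X.sub_mem s.2 s'.2
    · exfalso
      have h1 : d.1 * s₀ + s.1 = s'.1 := congrArg (fun z : {s : F // s ^ q = -s} => z.1) hss
      apply hs₀M
      apply hbij d.1 d.2.2.1 d.2.2.2
      have : d.1 * s₀ = s'.1 - s.1 := by rw [← h1]; ring
      rw [this]
      exact X.sub_mem s'.2 s.2
    · have h1 : d.1 * s₀ + s.1 = d'.1 * s₀ + s'.1 :=
        congrArg (fun z : {s : F // s ^ q = -s} => z.1) hss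
      by_cases hdd : d.1 = d'.1
      · have h2 : d = d' := Subtype.ext hdd
        subst h2
        rw [add_right_inj] at h1
        rw [Subtype.ext h1]
      · exfalso
        apply hs₀M
        apply hbij (d.1 - d'.1) (sub_ne_zero.2 hdd)
        · intro t ht
          rw [sub_mul]
          exact X.sub_mem (d.2.2.2 t ht) (d'.2.2.2 t ht)
        · have : (d.1 - d'.1) * s₀ = s'.1 - s.1 := by linear_combination h1
          rw [this]
          exact X.sub_mem s'.2 s.2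
  have h1 := Nat.card_le_card_of_injective g hg
  rw [Nat.card_prod, Finite.card_option, card_XB hF hu0 hu] at h1
  exact h1.trans (card_skew hF).le

/-- The norm of a multiplier acts on the transvection part. -/
theorem norm_mem_Lam (hF : Fintype.card F = q ^ 2) {u : Fin n → F}
    (hu : ⟪u, u⟫ = 0) {M : Subgroup (SU n F q)} {l : F} (hl : l ≠ 0) {g : SU n F q} (hg : g ∈ M)
    (hgu : act g u = l • u) : (l ^ (q + 1)) ^ q = l ^ (q + 1) ∧ l ^ (q + 1) ≠ 0 ∧
      ∀ s ∈ XB hF u hu M, l ^ (q + 1) * s ∈ XB hF u hu M := by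
  have hnorm : (l ^ (q + 1)) ^ q = l ^ (q + 1) := norm_pow_q hF l
  refine ⟨hnorm, pow_ne_zero _ hl, ?_⟩
  rintro s ⟨hs, x, hx, h⟩
  refine ⟨by rw [mul_pow, hnorm, hs]; ring, g * x * g⁻¹,
    M.mul_mem (M.mul_mem hg hx) (M.inv_mem hg), ?_⟩
  have h1 := h.conj g
  rw [act_zero, hgu, isEich_smul hF, mul_comm] at h1
  exact h1

theorem TM_le (hF : Fintype.card F = q ^ 2) {u : Fin n → F}
    (hu : ⟪u, u⟫ = 0) (M : Subgroup (SU n F q)) :
    Nat.card (TM u M) ≤ (q + 1) * Nat.card (Lam hF u hu M) := by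
  classical
  have h1 : ∀ l : TM u M, (((l : Fˣ) : F) ^ (q + 1)) ^ q = ((l : Fˣ) : F) ^ (q + 1) ∧
      ((l : Fˣ) : F) ^ (q + 1) ≠ 0 ∧
      ∀ s ∈ XB hF u hu M, ((l : Fˣ) : F) ^ (q + 1) * s ∈ XB hF u hu M := by
    intro l
    obtain ⟨g, hg, h⟩ := l.2
    exact norm_mem_Lam hF hu (l : Fˣ).ne_zero hg h
  let f : TM u M → Σ d : Lam hF u hu M, {x : F // x ^ (q + 1) = d.1} := fun l =>
    ⟨⟨((l : Fˣ) : F) ^ (q + 1), h1 l⟩, ⟨((l : Fˣ) : F), rfl⟩⟩
  have hf : Function.Injective f := by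
    intro l l' hll
    have h2 : (f l).2.1 = (f l').2.1 := by rw [hll]
    exact Subtype.ext (Units.ext h2)
  have := Fintype.ofFinite (Lam hF u hu M)
  have h2 := Nat.card_le_card_of_injective f hf
  rw [Nat.card_sigma, Finset.sum_congr rfl (fun d _ => card_norm_eq hF d.2.1 d.2.2.1)] at h2
  rw [Finset.sum_const, Finset.card_univ, smul_eq_mul, ← Nat.card_eq_fintype_card] at h2
  rw [mul_comm]
  exact h2

/-- Twisted action of the point stabiliser. -/
theorem WB_twist (hF : Fintype.card F = q ^ 2) {u : Fin n → F}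
    (hu : ⟪u, u⟫ = 0) {M : Subgroup (SU n F q)} {l : F} (hl : l ≠ 0) {g : SU n F q} (hg : g ∈ M)
    (hgu : act g u = l • u) {w : Fin n → F} (hw : w ∈ WB hF u hu M) :
    (l ^ q) • act g w ∈ WB hF u hu M := by
  obtain ⟨h1, x, hx, s, hs, h⟩ := hw
  have h2 : ⟪u, act g w⟫ = 0 := by
    have h3 : ⟪act g u, act g w⟫ = 0 := by rw [act_form, h1]
    rw [hgu, hermForm_smul_left] at h3
    exact (mul_eq_zero.1 h3).resolve_left hl
  refine ⟨by rw [hermForm_smul_right, h2, mul_zero], g * x * g⁻¹,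
    M.mul_mem (M.mul_mem hg hx) (M.inv_mem hg), s * l ^ (q + 1), ?_, ?_⟩
  · rw [hermForm_smul_left, hermForm_smul_right, act_form, mul_pow, norm_pow_q hF, pow_q_pow_q hF,
      pow_succ]
    linear_combination (l ^ q * l) * hs
  · intro y
    have h4 := h.conj g y
    rw [hgu] at h4
    rw [h4, hermForm_smul_right, hermForm_smul_right, pow_q_pow_q hF, pow_succ]
    module

/-- Membership in `WB` for the standard point. -/
theorem kp_mem_WB (hF : Fintype.card F = q ^ 2) {e : Fin 2 → F}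
    (M : Subgroup (SU (m + 2) F q)) (hu : ⟪kp e (0 : Fin m → F), kp e 0⟫ = 0) (c : F)
    (w : Fin m → F) : kp (c • e) w ∈ WB hF (kp e 0) hu M ↔
      w ∈ (WB hF (kp e 0) hu M).comap (kp0 m F) := by
  have h1 : c • kp e (0 : Fin m → F) ∈ WB hF (kp e 0) hu M := smul_mem_WB hF hu M c
  have h2 : kp (c • e) w = c • kp e (0 : Fin m → F) + kp 0 w := by
    rw [kp_split, kp_smul_left]
  rw [h2]
  exact (WB hF (kp e 0) hu M).add_mem_cancel_left h1

/-- The image of `kp 0 w` under an element of the point stabiliser. -/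
theorem act_kp_std (hF : Fintype.card F = q ^ 2) {e : Fin 2 → F} (he0 : e ≠ 0) (he : ⟪e, e⟫ = 0)
    {g : SU (m + 2) F q} {l : F} (hl : l ≠ 0) (hgu : act g (kp e (0 : Fin m → F)) = l • kp e 0)
    (w : Fin m → F) : ∃ (c : F) (w' : Fin m → F), act g (kp 0 w) = kp (c • e) w' := by
  obtain ⟨a, w', h⟩ := kp_surj (act g (kp 0 w))
  have h1 : ⟪act g (kp e (0 : Fin m → F)), act g (kp 0 w)⟫ = 0 := by
    rw [act_form, kp_form, hermForm_zero_right hF, hermForm_zero_left, add_zero]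
  rw [hgu, hermForm_smul_left, h, kp_form, hermForm_zero_left, add_zero] at h1
  obtain ⟨c, rfl⟩ := eq_smul_of_perp2 hF he0 he ((mul_eq_zero.1 h1).resolve_left hl)
  exact ⟨c, w', h⟩

end Cfsg.Agent.MinU
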