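import Cfsg.Agent.MinU.Ti
import Cfsg.Agent.Uni.Iso

/-!
# Orbits of `SU` on vectors
-/

set_option autoImplicit false
set_option linter.unusedSectionVars false

namespace Cfsg.Agent.MinU

open Cfsg.Agent.Uni Finset

variable {F : Type*} [Field F] [Fintype F] {q n : ℕ}

local notation "⟪" x ", " y "⟫" => hermForm _ _ q x y

/-- Witt's theorem in `SU`. -/
theorem exists_SU_of_family (hF : Fintype.card F = q ^ 2) {k : ℕ} {x y : Fin k → Fin n → F}
    (hx : LinearIndependent F x) (hy : LinearIndependent F y)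
    (hxy : ∀ i j, ⟪x i, x j⟫ = ⟪y i, y j⟫) {z : Fin n → F} (hz : ⟪z, z⟫ = 1)
    (hzy : ∀ i, ⟪y i, z⟫ = 0) : ∃ g : SU n F q, ∀ i, act g (x i) = y i := by
  obtain ⟨g, hg⟩ := exists_GU_of_family hF hx hy hxy
  set d : Fˣ := (detHom hF n g : Fˣ) with hd
  have hdn : ((d : F))⁻¹ ^ (q + 1) = 1 := by
    have h1 := (GU_pres g).det_norm hF
    have h2 : (d : F) = ((g : GL (Fin n) F) : Matrix (Fin n) (Fin n) F).det := detHom_coe hF g
    rw [← h2] at h1
    rw [inv_pow, h1, inv_one]
  obtain ⟨r, hr, hrd⟩ := exists_grefl hF hz hdn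
  have hdet : detHom hF n (r * g) = 1 := by
    apply Subtype.ext
    apply Units.ext
    rw [map_mul]
    change ((detHom hF n r : Fˣ) : F) * ((detHom hF n g : Fˣ) : F) = 1
    rw [hrd, ← hd, inv_mul_cancel₀ d.ne_zero]
  have hmem : r * g ∈ (suToGU hF n).range := by
    rw [suToGU_range, MonoidHom.mem_ker]; exact hdet
  obtain ⟨s, hs⟩ := hmem
  refine ⟨s, fun i => ?_⟩
  rw [← gact_suToGU hF, hs, gact_mul]
  have h3 : gact g (x i) = y i := hg i
  rw [h3, hr, hzy, mul_zero, zero_smul, add_zero]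

theorem span_singleton_card (hF : Fintype.card F = q ^ 2) (hn : 3 ≤ n) {a : Fin n → F}
    (ha : a ≠ 0) : ∃ z : Fin n → F, ⟪z, z⟫ = 1 ∧ ⟪a, z⟫ = 0 := by
  have hex : ∃ x ∈ vp q a, ∃ y ∈ vp q a, ⟪x, y⟫ ≠ 0 := by
    by_contra hcon
    push Not at hcon
    have hle : vp q a ≤ Submodule.span F {a} := by
      rw [← perp_vp hF a]
      intro x hx y hy
      exact hcon x hx y hy
    have h1 := Submodule.finrank_mono hle
    rw [finrank_vp hF ha, finrank_span_singleton ha] at h1
    omega
  obtain ⟨x, hx, y, hy, hxy⟩ := hex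
  obtain ⟨z, hz, hz1⟩ := exists_unit_mem hF _ hx hy hxy
  exact ⟨z, hz1, (mem_vp' hF).1 hz⟩

/-- Transitivity on vectors of the same norm. -/
theorem exists_SU_single (hF : Fintype.card F = q ^ 2) (hn : 3 ≤ n) {a b : Fin n → F}
    (ha : a ≠ 0) (hb : b ≠ 0) (hab : ⟪a, a⟫ = ⟪b, b⟫) : ∃ g : SU n F q, act g a = b := by
  obtain ⟨z, hz, hbz⟩ := span_singleton_card hF hn hb
  obtain ⟨g, hg⟩ := exists_SU_of_family hF (x := ![a]) (y := ![b]) (by simpa using ha)
    (by simpa using hb) (by simpa using hab) hz (by simpa using hbz)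
  exact ⟨g, by simpa using hg 0⟩

theorem Hyp.li {u v : Fin n → F} (hF : Fintype.card F = q ^ 2) (h : Hyp q u v) :
    LinearIndependent F ![u, v] := by
  rw [LinearIndependent.pair_iff]
  intro a b hab
  have h1 : hermForm n F q (a • u + b • v) u = 0 := by rw [hab, hermForm_zero_left]
  have h2 : hermForm n F q (a • u + b • v) v = 0 := by rw [hab, hermForm_zero_left]
  rw [hermForm_add_left, hermForm_smul_left, hermForm_smul_left, h.1, (h.symm hF).2.2] at h1
  rw [hermForm_add_left, hermForm_smul_left, hermForm_smul_left, h.2.1, h.2.2] at h2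
  exact ⟨by simpa using h2, by simpa using h1⟩

/-- Transitivity on hyperbolic pairs. -/
theorem exists_SU_hyp (hF : Fintype.card F = q ^ 2) (hn : 3 ≤ n) {u v u' v' : Fin n → F}
    (h : Hyp q u v) (h' : Hyp q u' v') : ∃ g : SU n F q, act g u = u' ∧ act g v = v' := by
  have hnd := (h'.nd hF).perp hF
  obtain ⟨z, hz, hz1⟩ := hnd.exists_unit hF (by
    intro h0
    have h1 := h'.finrank_perp hF
    rw [h0, finrank_bot] at h1
    omega)
  rw [Uni.Hyp.mem_perp_iff hF] at hz
  have hvu := (h.symm hF).2.2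
  have hvu' := (h'.symm hF).2.2
  obtain ⟨g, hg⟩ := exists_SU_of_family hF (x := ![u, v]) (y := ![u', v']) (Hyp.li hF h)
    (Hyp.li hF h') (by
      intro i j
      fin_cases i <;> fin_cases j <;> simp [h.1, h.2.1, h.2.2, h'.1, h'.2.1, h'.2.2, hvu, hvu'])
    hz1 (by
      intro i
      fin_cases i
      · simpa using (hermForm_eq_zero_comm hF).1 hz.1
      · simpa using (hermForm_eq_zero_comm hF).1 hz.2)
  exact ⟨g, by simpa using hg 0, by simpa using hg 1⟩

/-- The action on vectors. -/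
@[reducible] def actM (n : ℕ) (F : Type*) [Field F] [Fintype F] (q : ℕ) :
    MulAction (SU n F q) (Fin n → F) where
  smul := act
  one_smul := act_one
  mul_smul := act_mul

theorem relIndex_fixs (H : Subgroup (SU n F q)) (a : Fin n → F) :
    (fixs a).relIndex H = Nat.card {v : Fin n → F // ∃ g ∈ H, act g a = v} := by
  letI := actM n F q
  have h1 : (fixs a).subgroupOf H = MulAction.stabilizer H a := rfl
  rw [Subgroup.relIndex, h1, MulAction.index_stabilizer, ← Nat.card_coe_set_eq]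
  refine Nat.card_congr (Equiv.subtypeEquivRight fun v => ?_)
  constructor
  · rintro ⟨g, rfl⟩
    exact ⟨g.1, g.2, rfl⟩
  · rintro ⟨g, hg, rfl⟩
    exact ⟨⟨g, hg⟩, rfl⟩

theorem index_fixs (hF : Fintype.card F = q ^ 2) (hn : 3 ≤ n) {a : Fin n → F} (ha : a ≠ 0) :
    (fixs (q := q) a).index = Nat.card {v : Fin n → F // v ≠ 0 ∧ ⟪v, v⟫ = ⟪a, a⟫} := by
  rw [← Subgroup.relIndex_top_right, relIndex_fixs]
  refine Nat.card_congr (Equiv.subtypeEquivRight fun v => ?_)
  constructor
  · rintro ⟨g, -, rfl⟩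
    exact ⟨act_ne_zero ha, act_form g a a⟩
  · rintro ⟨h1, h2⟩
    obtain ⟨g, hg⟩ := exists_SU_single hF hn ha h1 h2.symm
    exact ⟨g, Subgroup.mem_top g, hg⟩

theorem index_fixs_iso (hF : Fintype.card F = q ^ 2) (hn : 3 ≤ n) {a : Fin n → F} (ha : a ≠ 0)
    (ha' : ⟪a, a⟫ = 0) : (fixs (q := q) a).index = cnt n F q 0 - 1 := by
  classical
  rw [index_fixs hF hn ha, ha']
  unfold cnt
  have h1 : Nat.card {v : Fin n → F // ⟪v, v⟫ = 0} =
      Nat.card {v : Fin n → F // v ≠ 0 ∧ ⟪v, v⟫ = 0} + 1 := by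
    rw [Nat.card_eq_fintype_card, Nat.card_eq_fintype_card, Fintype.card_subtype,
      Fintype.card_subtype]
    have : (univ.filter fun v : Fin n → F => ⟪v, v⟫ = 0) =
        insert 0 (univ.filter fun v : Fin n → F => v ≠ 0 ∧ ⟪v, v⟫ = 0) := by
      ext v
      simp only [mem_filter, mem_univ, true_and, mem_insert]
      constructor
      · intro h
        by_cases hv : v = 0
        · exact Or.inl hv
        · exact Or.inr ⟨hv, h⟩
      · rintro (h | h)
        · rw [h]; exact hermForm_zero_left _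
        · exact h.2
    rw [this, card_insert_of_notMem (by simp)]
  omega

theorem index_fixs_ani (hF : Fintype.card F = q ^ 2) (hn : 3 ≤ n) {a : Fin n → F}
    (ha' : ⟪a, a⟫ ≠ 0) : (fixs (q := q) a).index = cnt n F q 1 := by
  have ha : a ≠ 0 := by rintro rfl; exact ha' (hermForm_zero_left _)
  rw [index_fixs hF hn ha, ← cnt_eq_one hF n (hermForm_self_pow_q hF a) ha']
  unfold cnt
  refine Nat.card_congr (Equiv.subtypeEquivRight fun v => ?_)
  constructor
  · exact fun h => h.2
  · intro h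
    refine ⟨?_, h⟩
    rintro rfl
    apply ha'
    rw [← h]
    exact hermForm_zero_left _

theorem inf_index (N K : Subgroup (SU n F q)) :
    N.relIndex K * K.index = K.relIndex N * N.index := by
  have h1 := Subgroup.relIndex_mul_index (inf_le_right : N ⊓ K ≤ K)
  have h2 := Subgroup.relIndex_mul_index (inf_le_left : N ⊓ K ≤ N)
  rw [Subgroup.inf_relIndex_right] at h1
  rw [Subgroup.inf_relIndex_left] at h2
  rw [h1, h2]

theorem card_eq_relIndex_mul (N K : Subgroup (SU n F q)) :
    Nat.card K = N.relIndex K * Nat.card ↥(N ⊓ K) := by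
  have h := Subgroup.relIndex_mul_relIndex ⊥ (N ⊓ K) K bot_le inf_le_right
  rw [Subgroup.relIndex_bot_left, Subgroup.relIndex_bot_left, Subgroup.inf_relIndex_right] at h
  rw [← h, mul_comm]

/-- The stabiliser of an additive subgroup. -/
def stabB (q : ℕ) (B : AddSubgroup (Fin n → F)) : Subgroup (SU n F q) where
  carrier := {g | ∀ b ∈ B, act g b ∈ B}
  mul_mem' := by
    intro g h hg hh b hb
    rw [act_mul]
    exact hg _ (hh b hb)
  one_mem' := by
    intro b hb
    rw [act_one]; exact hb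
  inv_mem' := by
    intro g hg b hb
    let f : B → B := fun x => ⟨act g x, hg x x.2⟩
    have hf : Function.Injective f := by
      intro x y hxy
      exact Subtype.ext (act_inj.1 (congrArg Subtype.val hxy))
    obtain ⟨⟨c, hc⟩, h⟩ := Finite.surjective_of_injective hf ⟨b, hb⟩
    have h1 : act g c = b := congrArg Subtype.val h
    rw [← h1, act_inv_act]
    exact hc

theorem mem_stabB {B : AddSubgroup (Fin n → F)} {g : SU n F q} :
    g ∈ stabB q B ↔ ∀ b ∈ B, act g b ∈ B := Iff.rfl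

theorem relIndex_fixs_le {B : AddSubgroup (Fin n → F)} {a : Fin n → F} (ha : a ∈ B)
    (ha0 : a ≠ 0) : (fixs (q := q) a).relIndex (stabB q B) + 1 ≤ Nat.card B := by
  classical
  rw [relIndex_fixs]
  have h1 : Nat.card B = Nat.card {b : B // b ≠ 0} + 1 := by
    have := Fintype.ofFinite B
    rw [Nat.card_eq_fintype_card, Nat.card_eq_fintype_card, Fintype.card_subtype_compl]
    have h2 : 0 < Fintype.card B := Fintype.card_pos
    simp
    omega
  rw [h1]
  apply Nat.add_le_add_right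
  refine Nat.card_le_card_of_injective
    (fun v : {v : Fin n → F // ∃ g ∈ stabB q B, act g a = v} =>
      (⟨⟨v.1, ?_⟩, ?_⟩ : {b : B // b ≠ 0})) ?_
  · obtain ⟨g, hg, h⟩ := v.2
    rw [← h]; exact hg a ha
  · intro h
    obtain ⟨g, hg, h'⟩ := v.2
    have h2 : v.1 = 0 := congrArg Subtype.val h
    rw [h2] at h'
    exact act_ne_zero ha0 h'
  · intro v w hvw
    exact Subtype.ext (congrArg (fun z => z.1.1) hvw)

/-- An isotropic vector of a nondegenerate subspace not orthogonal to a given vector. -/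
theorem exists_iso_ne (hF : Fintype.card F = q ^ 2) {W : Submodule F (Fin n → F)} (hW : ND q W)
    (hdim : 2 ≤ Module.finrank F W) {y : Fin n → F} (hy : y ∈ W) (hy0 : y ≠ 0) :
    ∃ r ∈ W, ⟪r, r⟫ = 0 ∧ ⟪y, r⟫ ≠ 0 := by
  by_cases h : ⟪y, y⟫ = 0
  · obtain ⟨x, hx, hyx⟩ : ∃ x ∈ W, ⟪y, x⟫ ≠ 0 := by
      by_contra hcon
      push Not at hcon
      exact hy0 (hW y hy hcon)
    obtain ⟨c, d, hc, h1, h2⟩ := exists_hyp hF h hyx
    exact ⟨_, W.add_mem (W.smul_mem c hx) (W.smul_mem d hy), h1, by rw [h2]; exact one_ne_zero⟩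
  · have hnd := nd_span_unit h
    have hle : Submodule.span F {y} ≤ W := by
      rw [Submodule.span_singleton_le_iff_mem]; exact hy
    have h3 := finrank_inf_perp hF hnd hle
    rw [finrank_span_singleton hy0] at h3
    obtain ⟨z, hz, hz1⟩ := (hW.inf_perp hF hnd hle).exists_unit hF (by
      intro hbot
      rw [hbot, finrank_bot] at h3
      omega)
    have hzy : ⟪z, y⟫ = 0 := hz.2 y (Submodule.mem_span_singleton_self y)
    have hyz : ⟪y, z⟫ = 0 := (hermForm_eq_zero_comm hF).1 hzy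
    obtain ⟨c, hc⟩ := exists_norm_eq hF (c := -⟪y, y⟫) (by
      rw [neg_pow_q hF, hermForm_self_pow_q hF])
    refine ⟨y + c • z, W.add_mem hy (W.smul_mem c hz.1), ?_, ?_⟩
    · rw [hermForm_add_left, hermForm_add_right hF, hermForm_add_right hF, hermForm_smul_left,
        hermForm_smul_left, hermForm_smul_right, hermForm_smul_right, hz1, hzy, hyz]
      rw [pow_succ'] at hc
      linear_combination hc
    · rw [hermForm_add_right hF, hermForm_smul_right, hyz, mul_zero, add_zero]
      exact h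

theorem nd_vp (hF : Fintype.card F = q ^ 2) {a : Fin n → F} (ha : ⟪a, a⟫ ≠ 0) : ND q (vp q a) :=
  (nd_span_unit ha).perp hF

end Cfsg.Agent.MinU
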