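import Cfsg.Agent.MinU.LemA
import Cfsg.Agent.Uni.Gen2

/-!
# The standard decomposition `F^(m+2) = F^2 ⊥ F^m`
-/

set_option autoImplicit false
set_option linter.unusedSectionVars false

namespace Cfsg.Agent.MinU

open Cfsg.Agent.Uni Finset

variable {F : Type*} [Field F] [Fintype F] {q n m : ℕ}

local notation "⟪" x ", " y "⟫" => hermForm _ _ q x y

/-- The vector with components `a` in `F^2` and `w` in `F^m`. -/
def kp (a : Fin 2 → F) (w : Fin m → F) : Fin (m + 2) → F := Fin.cons (a 0) (Fin.cons (a 1) w)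

theorem cons_add' {k : ℕ} (a b : F) (x y : Fin k → F) :
    (Fin.cons (a + b) (x + y) : Fin (k + 1) → F) = Fin.cons a x + Fin.cons b y := by
  funext i
  induction i using Fin.cases with
  | zero => simp
  | succ i => simp

theorem cons_smul' {k : ℕ} (c a : F) (x : Fin k → F) :
    (Fin.cons (c * a) (c • x) : Fin (k + 1) → F) = c • Fin.cons a x := by
  funext i
  induction i using Fin.cases with
  | zero => simp
  | succ i => simp

theorem kp_add (a b : Fin 2 → F) (w x : Fin m → F) : kp (a + b) (w + x) = kp a w + kp b x := by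
  unfold kp
  rw [Pi.add_apply, Pi.add_apply, cons_add', cons_add']

theorem kp_smul (c : F) (a : Fin 2 → F) (w : Fin m → F) : kp (c • a) (c • w) = c • kp a w := by
  unfold kp
  rw [Pi.smul_apply, Pi.smul_apply, smul_eq_mul, smul_eq_mul, cons_smul', cons_smul']

theorem kp_form (a b : Fin 2 → F) (w x : Fin m → F) :
    ⟪kp a w, kp b x⟫ = ⟪a, b⟫ + ⟪w, x⟫ := by
  unfold kp
  rw [hermForm_cons, hermForm_cons, ← add_assoc, hermForm_def a b, Fin.sum_univ_two]

theorem kp_inj {a b : Fin 2 → F} {w x : Fin m → F} (h : kp a w = kp b x) : a = b ∧ w = x := by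
  unfold kp at h
  obtain ⟨h1, h2⟩ := Fin.cons_inj.1 h
  obtain ⟨h3, h4⟩ := Fin.cons_inj.1 h2
  refine ⟨?_, h4⟩
  funext i
  fin_cases i
  · exact h1
  · exact h3

theorem kp_surj (x : Fin (m + 2) → F) : ∃ (a : Fin 2 → F) (w : Fin m → F), x = kp a w := by
  refine ⟨![x 0, x 1], Fin.tail (Fin.tail x), ?_⟩
  unfold kp
  funext i
  induction i using Fin.cases with
  | zero => simp
  | succ i =>
    rw [Fin.cons_succ]
    induction i using Fin.cases with
    | zero => simp
    | succ i => simp [Fin.tail]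

theorem kp_zero : kp (0 : Fin 2 → F) (0 : Fin m → F) = 0 := by
  have h := kp_smul (m := m) (0 : F) 0 0
  rw [zero_smul, zero_smul, zero_smul] at h
  exact h

theorem kp_eq_zero {a : Fin 2 → F} {w : Fin m → F} : kp a w = 0 ↔ a = 0 ∧ w = 0 := by
  rw [← kp_zero]
  exact ⟨fun h => kp_inj h, fun h => by rw [h.1, h.2]⟩

theorem kp_ne_zero_left {a : Fin 2 → F} (ha : a ≠ 0) (w : Fin m → F) : kp a w ≠ 0 :=
  fun h => ha (kp_eq_zero.1 h).1

theorem kp_ne_zero_right {w : Fin m → F} (hw : w ≠ 0) (a : Fin 2 → F) : kp a w ≠ 0 :=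
  fun h => hw (kp_eq_zero.1 h).2

/-- The embedding of `SU_m`. -/
def emb2 (m : ℕ) (F : Type*) [Field F] [Fintype F] (q : ℕ) : SU m F q →* SU (m + 2) F q :=
  (embHom (m + 1) F q).comp (embHom m F q)

theorem act_emb2 (g : SU m F q) (a : Fin 2 → F) (w : Fin m → F) :
    act (emb2 m F q g) (kp a w) = kp a (act g w) := by
  change act (emb (emb g)) _ = _
  unfold kp
  rw [act_emb, act_emb]

/-! ### Conjugation -/

theorem Xs_conj (hF : Fintype.card F = q ^ 2) {u : Fin n → F} (hu : ⟪u, u⟫ = 0) (k : SU n F q)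
    {g : SU n F q} (hg : g ∈ Xs hF u hu) {u' : Fin n → F} (hu' : ⟪u', u'⟫ = 0)
    (hk : act k u = u') : k * g * k⁻¹ ∈ Xs hF u' hu' := by
  obtain ⟨s, hs, h⟩ := hg
  have h1 := h.conj k
  rw [act_zero, hk] at h1
  exact ⟨s, hs, h1⟩

theorem Qs_conj (hF : Fintype.card F = q ^ 2) {u : Fin n → F} (hu : ⟪u, u⟫ = 0) (k : SU n F q)
    {g : SU n F q} (hg : g ∈ Qs hF u hu) {u' : Fin n → F} (hu' : ⟪u', u'⟫ = 0)
    (hk : act k u = u') : k * g * k⁻¹ ∈ Qs hF u' hu' := by
  obtain ⟨w, s, hw, hs, h⟩ := hg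
  have h1 := h.conj k
  rw [hk] at h1
  exact ⟨act k w, s, by rw [← hk, act_form, hw], by rw [act_form, hs], h1⟩

theorem Qs_le_fixs (hF : Fintype.card F = q ^ 2) {u : Fin n → F} (hu : ⟪u, u⟫ = 0) :
    Qs hF u hu ≤ fixs u := by
  rintro g ⟨w, s, hw, hs, h⟩
  exact eich_fix hF h hu hw

/-- `Xs` only depends on the point. -/
theorem Xs_smul (hF : Fintype.card F = q ^ 2) {u : Fin n → F} (hu : ⟪u, u⟫ = 0) {c : F}
    (hc : c ≠ 0) (hcu : ⟪c • u, c • u⟫ = 0) : Xs hF (c • u) hcu = Xs hF u hu := by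
  have hn : (c ^ (q + 1)) ≠ 0 := pow_ne_zero _ hc
  ext g
  constructor
  · rintro ⟨s, hs, h⟩
    rw [isEich_smul hF] at h
    exact ⟨_, by rw [mul_pow, hs, norm_pow_q hF]; ring, h⟩
  · rintro ⟨s, hs, h⟩
    refine ⟨s / c ^ (q + 1), by rw [div_pow, hs, norm_pow_q hF]; ring, ?_⟩
    rw [isEich_smul hF, div_mul_cancel₀ _ hn]
    exact h

/-- The group generated modulo `Q`. -/
def KK (hF : Fintype.card F = q ^ 2) (u : Fin n → F) (hu : ⟪u, u⟫ = 0)
    (M : Subgroup (SU n F q)) : Subgroup (SU n F q) where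
  carrier := {g | act g u = u ∧ ∃ y ∈ Qs hF u hu, g * y ∈ M}
  mul_mem' := by
    rintro g g' ⟨h1, y, hy, h2⟩ ⟨h1', y', hy', h2'⟩
    refine ⟨by rw [act_mul, h1', h1], (g'⁻¹ * y * g') * y', ?_, ?_⟩
    · apply (Qs hF u hu).mul_mem _ hy'
      have := Qs_conj hF hu g'⁻¹ hy hu ((fixs u).inv_mem h1')
      rwa [inv_inv] at this
    · have : g * g' * (g'⁻¹ * y * g' * y') = (g * y) * (g' * y') := by group
      rw [this]
      exact M.mul_mem h2 h2'
  one_mem' := ⟨act_one u, 1, (Qs hF u hu).one_mem, by rw [mul_one]; exact M.one_mem⟩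
  inv_mem' := by
    rintro g ⟨h1, y, hy, h2⟩
    refine ⟨(fixs u).inv_mem h1, g * y⁻¹ * g⁻¹, Qs_conj hF hu g ((Qs hF u hu).inv_mem hy) hu h1, ?_⟩
    have : g⁻¹ * (g * y⁻¹ * g⁻¹) = (g * y)⁻¹ := by group
    rw [this]
    exact M.inv_mem h2

theorem mem_KK {hF : Fintype.card F = q ^ 2} {u : Fin n → F} {hu : ⟪u, u⟫ = 0}
    {M : Subgroup (SU n F q)} {g : SU n F q} :
    g ∈ KK hF u hu M ↔ act g u = u ∧ ∃ y ∈ Qs hF u hu, g * y ∈ M := Iff.rfl

/-- The stabiliser of a point. -/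
def PP (u : Fin n → F) : Subgroup (SU n F q) where
  carrier := {g | ∃ c : F, c ≠ 0 ∧ act g u = c • u}
  mul_mem' := by
    rintro g g' ⟨c, hc, h⟩ ⟨c', hc', h'⟩
    exact ⟨c * c', mul_ne_zero hc hc', by rw [act_mul, h', act_smul, h, smul_smul, mul_comm]⟩
  one_mem' := ⟨1, one_ne_zero, by rw [act_one, one_smul]⟩
  inv_mem' := by
    rintro g ⟨c, hc, h⟩
    refine ⟨c⁻¹, inv_ne_zero hc, ?_⟩
    have : u = c⁻¹ • act g u := by rw [h, smul_smul, inv_mul_cancel₀ hc, one_smul]
    conv_lhs => rw [this]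
    rw [act_smul, act_inv_act]

theorem mem_PP {u : Fin n → F} {g : SU n F q} :
    g ∈ PP u ↔ ∃ c : F, c ≠ 0 ∧ act g u = c • u := Iff.rfl

theorem fixs_le_PP (u : Fin n → F) : fixs u ≤ PP (q := q) u := fun g hg =>
  ⟨1, one_ne_zero, by rw [one_smul]; exact hg⟩

/-- Index inequality, first part. -/
theorem index_ge_fix (hF : Fintype.card F = q ^ 2) {u : Fin n → F} (hu : ⟪u, u⟫ = 0)
    (M : Subgroup (SU n F q)) :
    M.relIndex (Qs hF u hu) * (KK hF u hu M).relIndex (fixs u) ≤ M.relIndex (fixs u) := by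
  have h1 : M ⊓ fixs u ≤ KK hF u hu M := fun g hg =>
    ⟨hg.2, 1, (Qs hF u hu).one_mem, by rw [mul_one]; exact hg.1⟩
  have h2 : KK hF u hu M ≤ fixs u := fun g hg => hg.1
  have h3 : Qs hF u hu ≤ KK hF u hu M := fun g hg =>
    ⟨Qs_le_fixs hF hu hg, g⁻¹, (Qs hF u hu).inv_mem hg, by rw [mul_inv_cancel]; exact M.one_mem⟩
  have h4 := Subgroup.relIndex_mul_relIndex _ _ _ h1 h2
  rw [Subgroup.inf_relIndex_right] at h4
  rw [← h4]
  apply Nat.mul_le_mul_right
  calc M.relIndex (Qs hF u hu) ≤ (M ⊓ fixs u).relIndex (Qs hF u hu) :=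
        Subgroup.relIndex_le_of_le_left inf_le_left (rel_ne_zero _ _)
    _ ≤ (M ⊓ fixs u).relIndex (KK hF u hu M) :=
        Subgroup.relIndex_le_of_le_right h3 (rel_ne_zero _ _)

/-- The normaliser of the transvection part. -/
def NX (hF : Fintype.card F = q ^ 2) (u : Fin n → F) (hu : ⟪u, u⟫ = 0)
    (M : Subgroup (SU n F q)) : Subgroup (SU n F q) :=
  Subgroup.normalizer ((M ⊓ Xs hF u hu : Subgroup (SU n F q)) : Set (SU n F q))

theorem mem_NX {hF : Fintype.card F = q ^ 2} {u : Fin n → F} {hu : ⟪u, u⟫ = 0}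
    {M : Subgroup (SU n F q)} {g : SU n F q} :
    g ∈ NX hF u hu M ↔ ∀ x, x ∈ M ⊓ Xs hF u hu ↔ g * x * g⁻¹ ∈ M ⊓ Xs hF u hu :=
  Subgroup.mem_normalizer_iff

/-- Index inequality, second part. -/
theorem index_ge_point (hF : Fintype.card F = q ^ 2) {u : Fin n → F} (hu : ⟪u, u⟫ = 0)
    (M : Subgroup (SU n F q)) :
    M.relIndex (fixs u) * (NX hF u hu M).relIndex (PP u) ≤ M.index := by
  set M1 := M ⊓ PP u with hM1
  have h1 : M1 ⊔ fixs u ≤ PP u := sup_le inf_le_right (fixs_le_PP u)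
  have h2 := Subgroup.relIndex_mul_relIndex _ _ _ (le_sup_left : M1 ≤ M1 ⊔ fixs u) h1
  have h3 : M1.relIndex (PP u) ≤ M.index := by
    rw [hM1, Subgroup.inf_relIndex_right, ← Subgroup.relIndex_top_right M]
    exact Subgroup.relIndex_le_of_le_right le_top (rel_ne_zero _ _)
  refine le_trans ?_ h3
  rw [← h2]
  apply Nat.mul_le_mul
  · calc M.relIndex (fixs u) ≤ M1.relIndex (fixs u) :=
        Subgroup.relIndex_le_of_le_left inf_le_left (rel_ne_zero _ _)
      _ ≤ _ := Subgroup.relIndex_le_of_le_right le_sup_right (rel_ne_zero _ _)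
  · apply Subgroup.relIndex_le_of_le_left _ (rel_ne_zero _ _)
    have key : ∀ g ∈ PP u, ∀ x ∈ Xs hF u hu, g * x * g⁻¹ ∈ Xs hF u hu := by
      rintro g ⟨c, hc, hg⟩ x hx
      have hcu : ⟪c • u, c • u⟫ = 0 := by
        rw [hermForm_smul_left, hermForm_smul_right, hu, mul_zero, mul_zero]
      have := Xs_conj hF hu g hx hcu hg
      rwa [Xs_smul hF hu hc hcu] at this
    refine sup_le ?_ ?_
    · intro g hg
      rw [mem_NX]
      intro x
      constructor
      · intro hx
        exact ⟨M.mul_mem (M.mul_mem hg.1 hx.1) (M.inv_mem hg.1), key g hg.2 x hx.2⟩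
      · intro hx
        have e : x = g⁻¹ * (g * x * g⁻¹) * (g⁻¹)⁻¹ := by group
        rw [e]
        exact ⟨M.mul_mem (M.mul_mem (M.inv_mem hg.1) hx.1) (M.inv_mem (M.inv_mem hg.1)),
          key _ ((PP u).inv_mem hg.2) _ hx.2⟩
    · intro g hg
      have hcomm : ∀ x ∈ Xs hF u hu, g * x * g⁻¹ = x := by
        rintro x ⟨s, hs, hx⟩
        have := hx.conj g
        rw [act_zero, (hg : act g u = u)] at this
        exact this.unique hx
      rw [mem_NX]
      intro x
      constructor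
      · intro hx
        rw [hcomm x hx.2]; exact hx
      · intro hx
        have e : x = g⁻¹ * (g * x * g⁻¹) * (g⁻¹)⁻¹ := by group
        have hcomm' : g⁻¹ * (g * x * g⁻¹) * (g⁻¹)⁻¹ = g * x * g⁻¹ := by
          obtain ⟨s, hs, hx'⟩ := hx.2
          have := hx'.conj g⁻¹
          rw [act_zero, ((fixs u).inv_mem hg : act g⁻¹ u = u)] at this
          exact this.unique hx'
        rw [e, hcomm']
        exact hx

/-- The torus count: `k > |X₀|` unless `X₀` is trivial or everything. -/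
theorem torus_count (hF : Fintype.card F = q ^ 2) (hn : 3 ≤ n) {u : Fin n → F} (hu0 : u ≠ 0)
    (hu : ⟪u, u⟫ = 0) (M : Subgroup (SU n F q)) (hX : ¬ Xs hF u hu ≤ M) :
    ∃ L : ℕ, q - 1 ≤ L * (NX hF u hu M).relIndex (PP u) ∧
      (L + 1) * Nat.card ↥(M ⊓ Xs hF u hu) ≤ q := by
  classical
  obtain ⟨s₀, hs₀, hs₀M⟩ := exists_skew_notMem hF hu hX
  set X := XB hF u hu M with hXdef
  let Λ := {d : F // d ^ q = d ∧ d ≠ 0 ∧ ∀ s ∈ X, d * s ∈ X}
  have hbij : ∀ d : F, d ≠ 0 → (∀ s ∈ X, d * s ∈ X) → ∀ t : F, d * t ∈ X → t ∈ X := by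
    intro d hd hdX t ht
    let f : X → X := fun s => ⟨d * s, hdX s s.2⟩
    have hf : Function.Injective f := by
      intro x y hxy
      exact Subtype.ext (mul_left_cancel₀ hd (congrArg Subtype.val hxy))
    obtain ⟨⟨t', ht'⟩, h⟩ := Finite.surjective_of_injective hf ⟨d * t, ht⟩
    have h1 : d * t' = d * t := congrArg Subtype.val h
    rw [← mul_left_cancel₀ hd h1]
    exact ht'
  refine ⟨Nat.card Λ, ?_, ?_⟩
  · -- torus elements
    obtain ⟨v, hv⟩ := exists_hyp' hF hu0 hu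
    have htor : ∀ c : {c : F // c ^ q = c ∧ c ≠ 0}, ∃ t ∈ PP (q := q) u, ∀ (x : SU n F q) (s : F),
        IsEich x u 0 s → IsEich (t * x * t⁻¹) u 0 (c.1 * s) := by
      rintro ⟨c, hc, hc0⟩
      obtain ⟨l, hl⟩ := exists_norm_eq hF hc
      have hl0 : l ≠ 0 := by
        rintro rfl
        rw [zero_pow (by omega)] at hl
        exact hc0 hl.symm
      have hH : Hyp q (l • u) ((l⁻¹) ^ q • v) := by
        refine ⟨?_, ?_, ?_⟩
        · rw [hermForm_smul_left, hermForm_smul_right, hu, mul_zero, mul_zero]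
        · rw [hermForm_smul_left, hermForm_smul_right, hv.2.1, mul_zero, mul_zero]
        · rw [hermForm_smul_left, hermForm_smul_right, hv.2.2, pow_q_pow_q hF, mul_one,
            mul_inv_cancel₀ hl0]
      obtain ⟨t, ht, -⟩ := exists_SU_hyp hF hn hv hH
      refine ⟨t, ⟨l, hl0, ht⟩, fun x s hx => ?_⟩
      have h1 := hx.conj t
      rw [act_zero, ht, isEich_smul hF, hl, mul_comm] at h1
      exact h1
    choose t ht htx using htor
    set Nm := (NX hF u hu M) with hNm
    let f : {c : F // c ^ q = c ∧ c ≠ 0} → (PP (q := q) u) ⧸ (Nm.subgroupOf (PP u)) :=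
      fun c => QuotientGroup.mk ⟨t c, ht c⟩
    have hfib : ∀ c c', f c = f c' → ∀ s ∈ X, (c'.1 / c.1) * s ∈ X := by
      intro c c' hcc s hs
      have h1 := QuotientGroup.eq.1 hcc
      rw [Subgroup.mem_subgroupOf] at h1
      change (t c)⁻¹ * t c' ∈ Nm at h1
      obtain ⟨hs1, x, hxM, hx⟩ := hs
      have h2 := (mem_NX.1 h1 x).1 ⟨hxM, s, hs1, hx⟩
      obtain ⟨h3, s', hs', h4⟩ := h2
      have h5 : IsEich (t c * ((t c)⁻¹ * t c' * x * ((t c)⁻¹ * t c')⁻¹) * (t c)⁻¹) u 0
          (c.1 * s') := htx c _ _ h4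
      have h6 : t c * ((t c)⁻¹ * t c' * x * ((t c)⁻¹ * t c')⁻¹) * (t c)⁻¹ =
          t c' * x * (t c')⁻¹ := by group
      rw [h6] at h5
      have h7 := eich_s_unique hF hu0 hu h5 (htx c' _ _ hx)
      have h8 : c'.1 / c.1 * s = s' := by
        have hc := c.2.2
        field_simp
        rw [← h7]
      rw [h8]
      exact ⟨hs', _, h3, h4⟩
    have hcardc : Fintype.card {c : F // c ^ q = c ∧ c ≠ 0} = q - 1 := by
      rw [← Nat.card_eq_fintype_card, card_fixed_ne_zero hF]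
    have := Fintype.ofFinite Λ
    have hfin : Finite ((PP (q := q) u) ⧸ (Nm.subgroupOf (PP u))) := inferInstance
    have := Fintype.ofFinite ((PP (q := q) u) ⧸ (Nm.subgroupOf (PP u)))
    have h9 := Finset.card_le_mul_card_image (s := (univ : Finset {c : F // c ^ q = c ∧ c ≠ 0}))
      (f := f) (Fintype.card Λ) (by
        intro a ha
        obtain ⟨c, -, rfl⟩ := Finset.mem_image.1 ha
        let h : {c' // c' ∈ univ.filter fun x => f x = f c} → Λ := fun c' =>
          ⟨c'.1.1 / c.1, by rw [div_pow, c'.1.2.1, c.2.1], div_ne_zero c'.1.2.2 c.2.2,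
            hfib c c'.1 (Finset.mem_filter.1 c'.2).2.symm⟩
        have hh : Function.Injective h := by
          intro x y hxy
          have h1 : x.1.1 / c.1 = y.1.1 / c.1 := congrArg Subtype.val hxy
          exact Subtype.ext (Subtype.ext ((div_left_inj' c.2.2).1 h1))
        have := Fintype.card_le_of_injective h hh
        rwa [Fintype.card_coe] at this)
    rw [Finset.card_univ, hcardc] at h9
    refine h9.trans ?_
    rw [← Nat.card_eq_fintype_card]
    apply Nat.mul_le_mul_left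
    have h10 : (PP (q := q) u ⧸ Nm.subgroupOf (PP u)) = (PP (q := q) u ⧸ Nm.subgroupOf (PP u)) := rfl
    calc (Finset.image f univ).card ≤ Fintype.card ((PP (q := q) u) ⧸ (Nm.subgroupOf (PP u))) :=
          Finset.card_le_univ _
      _ = Nm.relIndex (PP u) := by rw [← Nat.card_eq_fintype_card]; rfl
  · -- the dual count
    let g : Option Λ × X → {s : F // s ^ q = -s} := fun p =>
      match p with
      | (none, s) => ⟨s.1, s.2.1⟩
      | (some d, s) => ⟨d.1 * s₀ + s.1, by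
          rw [add_pow_q hF, mul_pow, d.2.1, hs₀, s.2.1]; ring⟩
    have hg : Function.Injective g := by
      rintro ⟨o, s⟩ ⟨o', s'⟩ hss
      rcases o with _ | d <;> rcases o' with _ | d'
      · have h1 : s.1 = s'.1 := congrArg (fun z : {s : F // s ^ q = -s} => z.1) hss
        rw [Subtype.ext h1]
      · exfalso
        have h1 : s.1 = d'.1 * s₀ + s'.1 := congrArg (fun z : {s : F // s ^ q = -s} => z.1) hss
        apply hs₀M
        apply hbij d'.1 d'.2.2.1 d'.2.2.2
        have : d'.1 * s₀ = s.1 - s'.1 := by rw [h1]; ring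
        rw [this]
        exact X.sub_mem s.2 s'.2
      · exfalso
        have h1 : d.1 * s₀ + s.1 = s'.1 := congrArg (fun z : {s : F // s ^ q = -s} => z.1) hss
        apply hs₀M
        apply hbij d.1 d.2.2.1 d.2.2.2
        have : d.1 * s₀ = s'.1 - s.1 := by rw [← h1]; ring
        rw [this]
        exact X.sub_mem s'.2 s.2
      · have h1 : d.1 * s₀ + s.1 = d'.1 * s₀ + s'.1 := congrArg (fun z : {s : F // s ^ q = -s} => z.1) hss
        by_cases hdd : d.1 = d'.1
        · have h2 : d = d' := Subtype.ext hdd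
          subst h2
          rw [add_right_inj] at h1
          rw [Subtype.ext h1]
        · exfalso
          apply hs₀M
          apply hbij (d.1 - d'.1) (sub_ne_zero.2 hdd)
          · intro t ht
            rw [sub_mul]
            exact X.sub_mem (d.2.2.2 t ht) (d'.2.2.2 t ht)
          · have : (d.1 - d'.1) * s₀ = s'.1 - s.1 := by linear_combination h1
            rw [this]
            exact X.sub_mem s'.2 s.2
    have h1 := Nat.card_le_card_of_injective g hg
    rw [Nat.card_prod, Finite.card_option, card_XB hF hu0 hu] at h1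
    exact h1.trans (card_skew hF).le

end Cfsg.Agent.MinU
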