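import Cfsg.Agent.MinU.Std

/-!
# Step 1: point stabilisers of subgroups of small index
-/

set_option autoImplicit false
set_option linter.unusedSectionVars false

namespace Cfsg.Agent.MinU

open Cfsg.Agent.Uni Finset

variable {F : Type*} [Field F] [Fintype F] {q n m : ℕ}

local notation "⟪" x ", " y "⟫" => hermForm _ _ q x y

theorem num1 (q P e : ℤ) (hq : 2 ≤ q) (hP : 2 ≤ P) (he : e = 1 ∨ e = -1) :
    (q ^ 2 * P - e) * (q * P + e) ≤ P ^ 2 * (q + 1) * (q ^ 2 - 1) := by
  obtain ⟨a, rfl⟩ : ∃ a, q = 2 + a := ⟨q - 2, by ring⟩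
  obtain ⟨b, rfl⟩ : ∃ b, P = 2 + b := ⟨P - 2, by ring⟩
  have ha : 0 ≤ a := by linarith
  have hb : 0 ≤ b := by linarith
  rw [← sub_nonneg]
  rcases he with rfl | rfl
  · ring_nf; positivity
  · ring_nf; positivity

theorem num2 (q P e : ℤ) (hq : 2 ≤ q) (hP : 2 ≤ P) (he : e = 1 ∨ e = -1) :
    (q ^ 2 * P - e) * (q * P + e) ≤ 2 * (q * P ^ 2) * (q ^ 2 - 1) := by
  obtain ⟨a, rfl⟩ : ∃ a, q = 2 + a := ⟨q - 2, by ring⟩
  obtain ⟨b, rfl⟩ : ∃ b, P = 2 + b := ⟨P - 2, by ring⟩
  have ha : 0 ≤ a := by linarith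
  have hb : 0 ≤ b := by linarith
  rw [← sub_nonneg]
  rcases he with rfl | rfl
  · ring_nf; positivity
  · ring_nf; positivity

theorem smul_mem_WB (hF : Fintype.card F = q ^ 2) {u : Fin n → F} (hu : ⟪u, u⟫ = 0)
    (M : Subgroup (SU n F q)) (c : F) : c • u ∈ WB hF u hu M := by
  refine ⟨by rw [hermForm_smul_right, hu, mul_zero], 1, M.one_mem, 0 - c + c ^ q, ?_, ?_⟩
  · rw [hermForm_smul_left, hermForm_smul_right, hu, mul_zero, mul_zero, neg_zero, add_pow_q hF,
      sub_pow_q hF, zero_pow_q hF, pow_q_pow_q hF]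
    ring
  · have := isEich_shift hF (isEich_one hF u) c
    rwa [zero_add] at this

theorem eq_smul_of_perp2 (hF : Fintype.card F = q ^ 2) {e a : Fin 2 → F} (he0 : e ≠ 0)
    (he : ⟪e, e⟫ = 0) (hea : ⟪e, a⟫ = 0) : ∃ c : F, a = c • e := by
  have h1 : Submodule.span F {e} ≤ vp q e := by
    rw [Submodule.span_singleton_le_iff_mem, mem_vp hF]; exact he
  have h2 : Submodule.span F {e} = vp q e := by
    apply Submodule.eq_of_le_of_finrank_eq h1
    rw [finrank_vp hF he0, finrank_span_singleton he0]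
  have h3 : a ∈ Submodule.span F {e} := by rw [h2, mem_vp' hF]; exact hea
  obtain ⟨c, hc⟩ := Submodule.mem_span_singleton.1 h3
  exact ⟨c, hc.symm⟩

/-- The inclusion of `F^m` as an additive map. -/
def kp0 (m : ℕ) (F : Type*) [Field F] [Fintype F] : (Fin m → F) →+ (Fin (m + 2) → F) where
  toFun w := kp 0 w
  map_zero' := kp_zero
  map_add' x y := by
    have := kp_add (0 : Fin 2 → F) 0 x y
    rwa [add_zero] at this

theorem kp0_apply (w : Fin m → F) : kp0 m F w = kp 0 w := rfl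

theorem kp_split (a : Fin 2 → F) (w : Fin m → F) : kp a w = kp a 0 + kp 0 w := by
  rw [← kp_add, add_zero, zero_add]

theorem kp_smul_left (c : F) (a : Fin 2 → F) : kp (c • a) (0 : Fin m → F) = c • kp a 0 := by
  rw [← kp_smul, smul_zero]

section
variable (hF : Fintype.card F = q ^ 2) {e : Fin 2 → F} (he0 : e ≠ 0) (he : hermForm 2 F q e e = 0)
include he0 he

theorem card_WB_std (M : Subgroup (SU (m + 2) F q)) (hu : ⟪kp e (0 : Fin m → F), kp e 0⟫ = 0) :
    Nat.card (WB hF (kp e 0) hu M) = q ^ 2 * Nat.card ((WB hF (kp e 0) hu M).comap (kp0 m F)) := by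
  classical
  set W := WB hF (kp e 0) hu M with hW
  have hmem : ∀ (c : F) (w : Fin m → F), kp (c • e) w ∈ W ↔ kp 0 w ∈ W := by
    intro c w
    have h1 : c • kp e (0 : Fin m → F) ∈ W := smul_mem_WB hF hu M c
    rw [kp_split, kp_smul_left]
    exact W.add_mem_cancel_left h1
  have hpm : ∀ p : F × W.comap (kp0 m F), kp (p.1 • e) (p.2 : Fin m → F) ∈ W :=
    fun p => (hmem p.1 (p.2 : Fin m → F)).2 p.2.2
  let f : F × W.comap (kp0 m F) → W := fun p => ⟨kp (p.1 • e) (p.2 : Fin m → F), hpm p⟩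
  have hf : Function.Bijective f := by
    constructor
    · intro p p' h
      have h1 := kp_inj (congrArg Subtype.val h)
      have h2 : p.1 = p'.1 := by
        have h3 : (p.1 - p'.1) • e = 0 := by
          rw [sub_smul, sub_eq_zero]; exact h1.1
        rcases smul_eq_zero.1 h3 with h4 | h4
        · exact sub_eq_zero.1 h4
        · exact absurd h4 he0
      exact Prod.ext h2 (Subtype.ext h1.2)
    · intro x
      obtain ⟨a, w, haw⟩ := kp_surj (x : Fin (m + 2) → F)
      have h1 : ⟪kp e (0 : Fin m → F), kp a w⟫ = 0 := by rw [← haw]; exact x.2.1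
      rw [kp_form, hermForm_zero_left, add_zero] at h1
      obtain ⟨c, rfl⟩ := eq_smul_of_perp2 hF he0 he h1
      have h2 : kp (c • e) w ∈ W := by rw [← haw]; exact x.2
      have h3 : w ∈ W.comap (kp0 m F) := (hmem c w).1 h2
      exact ⟨(c, ⟨w, h3⟩), Subtype.ext haw.symm⟩
  have e1 : F × W.comap (kp0 m F) ≃ W := Equiv.ofBijective f hf
  rw [← Nat.card_congr e1, Nat.card_prod, Nat.card_eq_fintype_card, hF]

omit he0 he in
/-- The image of `KK` stabilises the additive subgroup. -/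
theorem KK_le_stabB (M : Subgroup (SU (m + 2) F q)) (hu : ⟪kp e (0 : Fin m → F), kp e 0⟫ = 0) :
    (KK hF (kp e 0) hu M).comap (emb2 m F q) ≤
      stabB q ((WB hF (kp e 0) hu M).comap (kp0 m F)) := by
  intro g hg b hb
  obtain ⟨h1, y, ⟨w, s, hw, hs, hy⟩, h2⟩ := hg
  obtain ⟨h3, x, hx, t, ht, hxe⟩ := hb
  set u := kp e (0 : Fin m → F) with hudef
  have hyu : act y u = u := eich_fix hF hy hu hw
  have hgu : act (emb2 m F q g) u = u := by rw [hudef, act_emb2, act_zero]
  have h4 := hxe.conj (emb2 m F q g * y)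
  rw [act_mul, hyu, hgu, act_mul] at h4
  have h5 : act y (kp0 m F b) = kp0 m F b - ⟪kp0 m F b, w⟫ • u := by
    rw [hy (kp0 m F b), (hermForm_eq_zero_comm hF).1 h3]
    module
  have h6 : act (emb2 m F q g) (act y (kp0 m F b)) =
      kp0 m F (act g b) - ⟪kp0 m F b, w⟫ • u := by
    rw [h5, act_sub, act_smul, hgu, kp0_apply, act_emb2]; rfl
  have h7 : act (emb2 m F q g) (act y (kp0 m F b)) ∈ WB hF u hu M := by
    refine ⟨?_, _, M.mul_mem (M.mul_mem h2 hx) (M.inv_mem h2), t, ?_, h4⟩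
    · rw [← hgu, act_form, ← hyu, act_form, h3]
    · rw [act_form, act_form, ht]
  rw [h6] at h7
  have h8 := (WB hF u hu M).add_mem h7 (smul_mem_WB hF hu M ⟪kp0 m F b, w⟫)
  rw [sub_add_cancel] at h8
  exact h8

/-- Step 1 for the standard point. -/
theorem step1_std (hm : 4 ≤ m) (M : Subgroup (SU (m + 2) F q))
    (hM : (M.index : ℤ) * ((q : ℤ) ^ 2 - 1) <
      ((q : ℤ) ^ (m + 2) - (-1) ^ m) * ((q : ℤ) ^ (m + 1) + (-1) ^ m))
    (hu : ⟪kp e (0 : Fin m → F), kp e 0⟫ = 0) (hX : ¬ Xs hF (kp e 0) hu ≤ M) :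
    (∀ g ∈ M, g ∈ Qs hF (kp e 0) hu → g = 1) ∧
      ∀ t, act t (kp e 0) = kp e 0 → ∃ y ∈ Qs hF (kp e 0) hu, t * y ∈ M := by
  classical
  set u := kp e (0 : Fin m → F) with hudef
  have hu0 : u ≠ 0 := kp_ne_zero_left he0 _
  set W := WB hF u hu M with hWdef
  set B := W.comap (kp0 m F) with hBdef
  have hq := two_le_q hF
  have hqz : (2 : ℤ) ≤ q := by exact_mod_cast hq
  -- numbers
  have h1 := index_ge_fix hF hu M
  have h2 := index_ge_point hF hu M
  have h3 := card_eq_relIndex_mul M (Qs hF u hu)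
  have h4 := card_inf_Qs hF hu0 hu M
  have h5 := card_Qs hF hu0 hu
  rw [card_WB_std hF he0 he M hu] at h4
  obtain ⟨L, hL1, hL2⟩ := torus_count hF (by omega) hu0 hu M hX
  have h6 : (stabB q B).index ≤ (KK hF u hu M).relIndex (fixs u) := by
    calc (stabB q B).index ≤ ((KK hF u hu M).comap (emb2 m F q)).index := by
          apply Subgroup.index_antitone
          exact KK_le_stabB hF M hu
      _ = (KK hF u hu M).relIndex (emb2 m F q).range := Subgroup.index_comap _ _
      _ ≤ _ := by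
          apply Subgroup.relIndex_le_of_le_right _ (rel_ne_zero _ _)
          rintro _ ⟨g, rfl⟩
          change act _ u = u
          rw [hudef, act_emb2, act_zero]
  set z := Nat.card ↥(M ⊓ Xs hF u hu) with hz
  set b := Nat.card B with hb
  set k := (NX hF u hu M).relIndex (PP u) with hk
  set R := M.relIndex (Qs hF u hu) with hR
  set I' := (KK hF u hu M).relIndex (fixs u) with hI'
  set I := (stabB q B).index with hI
  have hzpos : 0 < z := Nat.card_pos
  have hbpos : 0 < b := Nat.card_pos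
  have hq2pos : 0 < q ^ 2 := pow_pos (by omega) _
  have h4' : Nat.card ↥(M ⊓ Qs hF u hu) = z * b := by
    apply Nat.eq_of_mul_eq_mul_right hq2pos
    rw [h4]; ring
  have h5' : Nat.card (Qs hF u hu) = q ^ (2 * m + 1) := by
    apply Nat.eq_of_mul_eq_mul_right hq2pos
    rw [h5, ← pow_succ', ← pow_add]
    congr 1
  have h7 : R * (z * b) = q ^ (2 * m + 1) := by rw [← h5', h3, h4']
  have h8 : R * I' * k ≤ M.index := (Nat.mul_le_mul_right _ h1).trans h2
  have hLpos : 1 ≤ L := by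
    rcases Nat.eq_zero_or_pos L with h | h
    · rw [h, zero_mul] at hL1
      omega
    · exact h
  -- `k ≥ z`, and `k > z` if `z ≥ 2`
  have hkz : z ≤ k ∧ (2 ≤ z → z + 1 ≤ k) := by
    have e1 : (L + 1) * z ≤ L * k + 1 := by omega
    constructor
    · by_contra hcon
      push Not at hcon
      have e2 : L * k + L ≤ L * z := by
        calc L * k + L = L * (k + 1) := by ring
          _ ≤ L * z := Nat.mul_le_mul_left _ hcon
      have e3 : (L + 1) * z = L * z + z := by ring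
      omega
    · intro hz2
      by_contra hcon
      push Not at hcon
      have e2 : L * k ≤ L * z := Nat.mul_le_mul_left _ (by omega)
      have e3 : (L + 1) * z = L * z + z := by ring
      omega
  set ε : ℤ := (-1) ^ m with hεdef
  have hε : ε = 1 ∨ ε = -1 := neg_one_pow_eq_or ℤ m
  set A : ℤ := ((q : ℤ) ^ (m + 2) - ε) * ((q : ℤ) ^ (m + 1) + ε) with hA
  have hMi : (0 : ℤ) ≤ M.index := by positivity
  have hq2z : (0 : ℤ) < (q : ℤ) ^ 2 - 1 := by nlinarith
  have hApos : 0 ≤ A := le_trans (mul_nonneg hMi hq2z.le) hM.le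
  have hzz : (0 : ℤ) < z := by exact_mod_cast hzpos
  have hbz : (0 : ℤ) < b := by exact_mod_cast hbpos
  -- `B` is trivial
  have hBbot : B = ⊥ := by
    by_contra hBne
    obtain ⟨s₀, hs₀, hs₀M⟩ := exists_skew_notMem hF hu hX
    have h9 := lemA hF hm hs₀ hs₀M hBne (by
      intro x hx y hy
      have := WB_comm hF hu hx hy
      rw [kp0_apply, kp0_apply, kp_form, kp_form, hermForm_zero_left, zero_add, zero_add] at this
      exact this)
    have h10 : (R : ℤ) * I * k ≤ M.index := by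
      have : R * I * k ≤ M.index :=
        (Nat.mul_le_mul_right _ (Nat.mul_le_mul_left _ h6)).trans h8
      exact_mod_cast this
    have h7z : (R : ℤ) * (z * b) = (q : ℤ) ^ (2 * m + 1) := by exact_mod_cast h7
    have h11 : (z : ℤ) ≤ k := by exact_mod_cast hkz.1
    have h12 : A * b * z ≤ (M.index : ℤ) * ((q : ℤ) ^ 2 - 1) * (z * b) := by
      calc A * b * z ≤ A * b * k := by
            apply mul_le_mul_of_nonneg_left h11
            exact mul_nonneg hApos hbz.le
        _ ≤ ((I : ℤ) * q ^ (2 * m + 1) * ((q : ℤ) ^ 2 - 1)) * k :=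
            mul_le_mul_of_nonneg_right h9 (by positivity)
        _ = ((R : ℤ) * I * k) * ((q : ℤ) ^ 2 - 1) * (z * b) := by rw [← h7z]; ring
        _ ≤ _ := by
            apply mul_le_mul_of_nonneg_right _ (by positivity)
            exact mul_le_mul_of_nonneg_right h10 hq2z.le
    have h13 : A * b * z = A * (z * b) := by ring
    rw [h13] at h12
    have h14 := le_of_mul_le_mul_right h12 (by positivity)
    exact absurd hM (not_lt.2 h14)
  have hb1 : b = 1 := by
    rw [hb, hBbot]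
    exact AddSubgroup.card_bot
  rw [hb1, mul_one] at h7
  -- the power
  set P : ℤ := (q : ℤ) ^ m with hP
  have hP2 : 2 ≤ P := by
    calc (2 : ℤ) ≤ q := hqz
      _ = (q : ℤ) ^ 1 := (pow_one _).symm
      _ ≤ (q : ℤ) ^ m := pow_le_pow_right₀ (by linarith) (by omega)
  have hAP : A = ((q : ℤ) ^ 2 * P - ε) * (q * P + ε) := by
    rw [hA, hP, pow_add, pow_add]; ring
  have hqP : ((q : ℤ) ^ (2 * m + 1)) = q * P ^ 2 := by
    rw [hP, ← pow_mul, pow_succ']; congr 2; ring
  have h7z : (R : ℤ) * z = q * P ^ 2 := by rw [← hqP]; exact_mod_cast h7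
  have h8z : (R : ℤ) * I' * k ≤ M.index := by exact_mod_cast h8
  have hI'pos : (1 : ℤ) ≤ I' := by
    have : 0 < I' := Nat.pos_of_ne_zero (rel_ne_zero _ _)
    exact_mod_cast this
  have hRpos : (0 : ℤ) < R := by
    have : 0 < R := Nat.pos_of_ne_zero (rel_ne_zero _ _)
    exact_mod_cast this
  -- `z = 1`
  have hz1 : z = 1 := by
    by_contra hz1
    have hz2 : 2 ≤ z := by omega
    have hk1 := hkz.2 hz2
    have hk1z : (z : ℤ) + 1 ≤ k := by exact_mod_cast hk1
    have hzq : z ≤ q := by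
      have : 1 * z ≤ (L + 1) * z := Nat.mul_le_mul_right _ (by omega)
      omega
    have hzqz : (z : ℤ) ≤ q := by exact_mod_cast hzq
    have e1 : P ^ 2 * (q + 1) * z ≤ (M.index : ℤ) * z := by
      have e2 : (R : ℤ) * k ≤ M.index := by
        refine le_trans ?_ h8z
        have : (R : ℤ) * 1 * k ≤ R * I' * k := by
          apply mul_le_mul_of_nonneg_right _ (by positivity)
          exact mul_le_mul_of_nonneg_left hI'pos hRpos.le
        linarith
      calc P ^ 2 * (q + 1) * z = P ^ 2 * (q * z + z) := by ring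
        _ ≤ P ^ 2 * (q * z + q) := by
            apply mul_le_mul_of_nonneg_left _ (by positivity)
            linarith
        _ = q * P ^ 2 * (z + 1) := by ring
        _ ≤ q * P ^ 2 * k := mul_le_mul_of_nonneg_left hk1z (by positivity)
        _ = ((R : ℤ) * k) * z := by rw [← h7z]; ring
        _ ≤ _ := mul_le_mul_of_nonneg_right e2 hzz.le
    have e3 : P ^ 2 * (q + 1) ≤ (M.index : ℤ) := le_of_mul_le_mul_right e1 hzz
    have e4 := num1 q P ε hqz hP2 hε
    rw [← hAP] at e4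
    have e5 : P ^ 2 * (q + 1) * ((q : ℤ) ^ 2 - 1) ≤ M.index * ((q : ℤ) ^ 2 - 1) :=
      mul_le_mul_of_nonneg_right e3 hq2z.le
    linarith
  have hk1 : (1 : ℤ) ≤ k := by
    have := hkz.1
    rw [hz1] at this
    exact_mod_cast this
  have hz1z : (z : ℤ) = 1 := by exact_mod_cast hz1
  rw [hz1z, mul_one] at h7z
  have hI'1 : I' = 1 := by
    by_contra hne
    have hI'2 : (2 : ℤ) ≤ I' := by
      have h0 : 0 < I' := Nat.pos_of_ne_zero (rel_ne_zero _ _)
      have : 2 ≤ I' := by omega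
      exact_mod_cast this
    have e1 : 2 * (q * P ^ 2) ≤ (M.index : ℤ) := by
      refine le_trans ?_ h8z
      rw [h7z]
      have hqP2 : 0 ≤ (q : ℤ) * P ^ 2 := by positivity
      calc 2 * ((q : ℤ) * P ^ 2) = (q * P ^ 2) * 2 * 1 := by ring
        _ ≤ (q * P ^ 2) * I' * k := by
            apply mul_le_mul _ hk1 (by norm_num) (by positivity)
            exact mul_le_mul_of_nonneg_left hI'2 hqP2
    have e4 := num2 q P ε hqz hP2 hε
    rw [← hAP] at e4
    have e5 : 2 * ((q : ℤ) * P ^ 2) * ((q : ℤ) ^ 2 - 1) ≤ M.index * ((q : ℤ) ^ 2 - 1) :=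
      mul_le_mul_of_nonneg_right e1 hq2z.le
    linarith
  constructor
  · intro g hg hgQ
    have h9 : Nat.card ↥(M ⊓ Qs hF u hu) = 1 := by rw [h4', hz1, hb1]
    have h10 := Subgroup.card_eq_one.1 h9
    have : g ∈ M ⊓ Qs hF u hu := ⟨hg, hgQ⟩
    rw [h10] at this
    exact Subgroup.mem_bot.1 this
  · intro t ht
    have h9 : fixs u ≤ KK hF u hu M := Subgroup.relIndex_eq_one.1 hI'1
    exact (h9 ht).2

end

/-- Existence of the standard isotropic vector. -/
theorem exists_e2 (hF : Fintype.card F = q ^ 2) : ∃ e e' : Fin 2 → F, Hyp q e e' := by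
  obtain ⟨u, hu0, hu⟩ := exists_isotropic hF (n := 2) le_rfl
  obtain ⟨v, hv⟩ := exists_hyp' hF hu0 hu
  exact ⟨u, v, hv⟩

/-- The conjugate subgroup `k⁻¹ M k`. -/
def cj (k : SU n F q) (M : Subgroup (SU n F q)) : Subgroup (SU n F q) :=
  M.comap (MulAut.conj k).toMonoidHom

theorem mem_cj {k g : SU n F q} {M : Subgroup (SU n F q)} : g ∈ cj k M ↔ k * g * k⁻¹ ∈ M :=
  Iff.rfl

theorem index_cj (k : SU n F q) (M : Subgroup (SU n F q)) : (cj k M).index = M.index :=
  Subgroup.index_comap_of_surjective M (MulAut.conj k).surjective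

theorem Xs_le_cj (hF : Fintype.card F = q ^ 2) {u u' : Fin n → F} (hu : ⟪u, u⟫ = 0)
    (hu' : ⟪u', u'⟫ = 0) {k : SU n F q} (hk : act k u = u') {M : Subgroup (SU n F q)} :
    Xs hF u hu ≤ cj k M ↔ Xs hF u' hu' ≤ M := by
  have hk' : act k⁻¹ u' = u := by rw [← hk, act_inv_act]
  constructor
  · intro h g hg
    have h1 := h (Xs_conj hF hu' k⁻¹ hg hu hk')
    rw [mem_cj] at h1
    have : k * (k⁻¹ * g * (k⁻¹)⁻¹) * k⁻¹ = g := by group
    rwa [this] at h1
  · intro h g hg
    exact h (Xs_conj hF hu k hg hu' hk)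

/-- Step 1. -/
theorem step1 (hF : Fintype.card F = q ^ 2) (hm : 4 ≤ m) (M : Subgroup (SU (m + 2) F q))
    (hM : (M.index : ℤ) * ((q : ℤ) ^ 2 - 1) <
      ((q : ℤ) ^ (m + 2) - (-1) ^ m) * ((q : ℤ) ^ (m + 1) + (-1) ^ m))
    {u : Fin (m + 2) → F} (hu0 : u ≠ 0) (hu : ⟪u, u⟫ = 0) (hX : ¬ Xs hF u hu ≤ M) :
    (∀ g ∈ M, g ∈ Qs hF u hu → g = 1) ∧
      ∀ t, act t u = u → ∃ y ∈ Qs hF u hu, t * y ∈ M := by
  obtain ⟨e, e', hee⟩ := exists_e2 hF
  have he0 : e ≠ 0 := hee.left_ne
  have hk0 : ⟪kp e (0 : Fin m → F), kp e 0⟫ = 0 := by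
    rw [kp_form, hee.1, hermForm_zero_left, add_zero]
  obtain ⟨k, hk⟩ := exists_SU_single hF (by omega) (kp_ne_zero_left he0 (0 : Fin m → F)) hu0
    (hk0.trans hu.symm)
  have hk' : act k⁻¹ u = kp e 0 := by rw [← hk, act_inv_act]
  obtain ⟨h1, h2⟩ := step1_std hF he0 hee.1 hm (cj k M) (by rw [index_cj]; exact hM) hk0
    (by rw [Xs_le_cj hF hk0 hu hk]; exact hX)
  constructor
  · intro g hg hgQ
    have h3 := h1 (k⁻¹ * g * (k⁻¹)⁻¹) (by
      rw [mem_cj]
      have : k * (k⁻¹ * g * (k⁻¹)⁻¹) * k⁻¹ = g := by group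
      rwa [this]) (Qs_conj hF hu k⁻¹ hgQ hk0 hk')
    have h4 : g = k * (k⁻¹ * g * (k⁻¹)⁻¹) * k⁻¹ := by group
    rw [h4, h3]; group
  · intro t ht
    obtain ⟨y, hy, h3⟩ := h2 (k⁻¹ * t * k) (by
      rw [act_mul, act_mul, hk, ht, hk'])
    refine ⟨k * y * k⁻¹, Qs_conj hF hk0 k hy hu hk, ?_⟩
    rw [mem_cj] at h3
    have : k * (k⁻¹ * t * k * y) * k⁻¹ = t * (k * y * k⁻¹) := by group
    rwa [this] at h3

end Cfsg.Agent.MinU
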