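import Cfsg.Agent.MinU.Wb

/-!
# Totally isotropic additive subgroups
-/

set_option autoImplicit false
set_option linter.unusedSectionVars false

namespace Cfsg.Agent.MinU

open Cfsg.Agent.Uni Finset

variable {F : Type*} [Field F] [Fintype F] {q n : ℕ}

local notation "⟪" x ", " y "⟫" => hermForm _ _ q x y

theorem add_card_sup_inf {V : Type*} [AddCommGroup V] (H K : AddSubgroup V) :
    Nat.card ↥(H ⊔ K) * Nat.card ↥(H ⊓ K) = Nat.card H * Nat.card K := by
  have h1 := AddSubgroup.relIndex_mul_relIndex (⊥ : AddSubgroup V) K (H ⊔ K) bot_le le_sup_right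
  have h2 := AddSubgroup.relIndex_mul_relIndex (⊥ : AddSubgroup V) (H ⊓ K) H bot_le inf_le_left
  rw [AddSubgroup.relIndex_bot_left, AddSubgroup.relIndex_bot_left,
    AddSubgroup.relIndex_sup_right] at h1
  rw [AddSubgroup.relIndex_bot_left, AddSubgroup.relIndex_bot_left,
    AddSubgroup.inf_relIndex_left] at h2
  rw [← h1, ← h2]; ring

theorem exists_char (hF : Fintype.card F = q ^ 2) (Y : AddSubgroup F) {s₀ : F}
    (hs₀ : s₀ ^ q = -s₀) (hY : s₀ ∉ Y) :
    ∃ ψ : AddChar F ℂ, ψ ≠ 1 ∧ ∀ t : F, t - t ^ q ∈ Y → ψ t = 1 := by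
  classical
  have hne : (QuotientAddGroup.mk' Y s₀) ≠ 0 := by
    intro h
    rw [QuotientAddGroup.mk'_apply, QuotientAddGroup.eq_zero_iff] at h
    exact hY h
  obtain ⟨χ, hχ⟩ := AddChar.exists_apply_ne_zero.2 hne
  let φ : F →+ F := AddMonoidHom.id F - (conjHom hF).toAddMonoidHom
  have hφ : ∀ t, φ t = t - t ^ q := fun t => rfl
  refine ⟨χ.compAddMonoidHom ((QuotientAddGroup.mk' Y).comp φ), ?_, ?_⟩
  · intro h
    obtain ⟨y, hy⟩ := exists_sub_eq hF hs₀
    have h1 := DFunLike.congr_fun h (-y)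
    rw [AddChar.one_apply] at h1
    apply hχ
    have h2 : φ (-y) = s₀ := by rw [hφ, neg_pow_q hF, ← hy]; ring
    rw [← h2]
    exact h1
  · intro t ht
    change χ (QuotientAddGroup.mk' Y (φ t)) = 1
    have h1 : QuotientAddGroup.mk' Y (φ t) = 0 := by
      rw [QuotientAddGroup.mk'_apply, QuotientAddGroup.eq_zero_iff, hφ]; exact ht
    rw [h1, AddChar.map_zero_eq_one]

/-- The coordinatewise Frobenius. -/
def frobV (hF : Fintype.card F = q ^ 2) : (Fin n → F) →+ (Fin n → F) where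
  toFun v i := v i ^ q
  map_zero' := by funext i; exact zero_pow_q hF
  map_add' x y := by funext i; exact add_pow_q hF _ _

theorem frobV_inj (hF : Fintype.card F = q ^ 2) : Function.Injective (frobV (n := n) hF) := by
  intro x y h
  funext i
  exact (pow_q_inj hF).1 (congrFun h i)

/-- The standard bilinear form. -/
def dotB (n : ℕ) (F : Type*) [Field F] : LinearMap.BilinForm F (Fin n → F) :=
  LinearMap.mk₂ F (fun x y => ∑ i, x i * y i)
    (fun x y z => by simp [add_mul, sum_add_distrib])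
    (fun c x y => by simp [mul_sum, mul_assoc])
    (fun x y z => by simp [mul_add, sum_add_distrib])
    (fun c x y => by simp only [Pi.smul_apply, smul_eq_mul, mul_sum]; exact sum_congr rfl fun i _ => by ring)

theorem dotB_frobV (hF : Fintype.card F = q ^ 2) (x y : Fin n → F) :
    dotB n F x (frobV hF y) = ⟪x, y⟫ := rfl

theorem dotB_nd (b : Fin n → F) (hb : b ≠ 0) : ∃ y, dotB n F y b ≠ 0 := by
  classical
  obtain ⟨i, hi⟩ := Function.ne_iff.1 hb
  refine ⟨Pi.single i 1, ?_⟩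
  change ∑ j, (Pi.single i 1 : Fin n → F) j * b j ≠ 0
  rw [sum_eq_single i]
  · simpa using hi
  · intro j _ hj
    rw [Pi.single_eq_of_ne hj, zero_mul]
  · intro h; exact absurd (mem_univ i) h

/-- Bound for additive subgroups on which the commutator form takes values in a proper subgroup. -/
theorem ti_bound (hF : Fintype.card F = q ^ 2) (Y : AddSubgroup F) {s₀ : F}
    (hs₀ : s₀ ^ q = -s₀) (hY : s₀ ∉ Y) (U : Submodule F (Fin n → F))
    (C : AddSubgroup (Fin n → F)) (hCU : ∀ x ∈ C, x ∈ U)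
    (hC : ∀ x ∈ C, ∀ y ∈ C, ⟪x, y⟫ - ⟪y, x⟫ ∈ Y) :
    Nat.card C * Nat.card C ≤ Nat.card U * Nat.card ↥(U ⊓ perp q U) := by
  classical
  obtain ⟨ψ, hψ, hψY⟩ := exists_char hF Y hs₀ hY
  let A : AddSubgroup (Fin n → F) := C.map (frobV hF)
  have hA : Nat.card A = Nat.card C :=
    Nat.card_congr (C.equivMapOfInjective (frobV hF) (frobV_inj hF)).symm.toEquiv
  have h1 := Mdx.card_mul_card_dp hψ (fun b hb => dotB_nd b hb) A
  let P : AddSubgroup (Fin n → F) := (perp q U).toAddSubgroup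
  have h2 : C ⊔ P ≤ Mdx.dp ψ (dotB n F) A := by
    refine sup_le ?_ ?_
    · intro x hx b hb
      obtain ⟨y, hy, rfl⟩ := hb
      rw [dotB_frobV]
      apply hψY
      rw [hermForm_symm hF]
      exact hC x hx y hy
    · intro x hx b hb
      obtain ⟨y, hy, rfl⟩ := hb
      rw [dotB_frobV]
      have : ⟪x, y⟫ = 0 := hx y (hCU y hy)
      rw [this, AddChar.map_zero_eq_one]
  have h3 : Nat.card ↥(C ⊔ P) ≤ Nat.card (Mdx.dp ψ (dotB n F) A) :=
    AddSubgroup.card_le_of_le h2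
  have h4 := add_card_sup_inf C P
  have h5 : Nat.card ↥(C ⊓ P) ≤ Nat.card ↥(U ⊓ perp q U) := by
    have : C ⊓ P ≤ (U ⊓ perp q U).toAddSubgroup := fun x hx => ⟨hCU x hx.1, hx.2⟩
    exact AddSubgroup.card_le_of_le this
  have h6 : Nat.card (Fin n → F) = Nat.card U * Nat.card P := by
    have e1 : Nat.card P = Nat.card ↥(perp q U) := rfl
    rw [e1, card_vec hF, card_submod hF, card_submod hF, ← pow_add]
    congr 1
    have := finrank_perp hF U
    omega
  have hP : 0 < Nat.card P := Nat.card_pos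
  have h7 : Nat.card C * Nat.card C * Nat.card P ≤
      Nat.card U * Nat.card ↥(U ⊓ perp q U) * Nat.card P := by
    calc Nat.card C * Nat.card C * Nat.card P = Nat.card C * (Nat.card C * Nat.card P) := by ring
      _ = Nat.card C * (Nat.card ↥(C ⊔ P) * Nat.card ↥(C ⊓ P)) := by rw [h4]
      _ = (Nat.card A * Nat.card ↥(C ⊔ P)) * Nat.card ↥(C ⊓ P) := by rw [hA]; ring
      _ ≤ (Nat.card A * Nat.card (Mdx.dp ψ (dotB n F) A)) * Nat.card ↥(U ⊓ perp q U) :=
          Nat.mul_le_mul (Nat.mul_le_mul_left _ h3) h5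
      _ = Nat.card U * Nat.card ↥(U ⊓ perp q U) * Nat.card P := by rw [h1, h6]; ring
  exact Nat.le_of_mul_le_mul_right h7 hP

/-! ### Cardinalities of the standard subgroups -/

theorem card_Xs (hF : Fintype.card F = q ^ 2) {u : Fin n → F} (hu0 : u ≠ 0) (hu : ⟪u, u⟫ = 0) :
    Nat.card (Xs hF u hu) = q := by
  have h1 := card_XB hF hu0 hu ⊤
  rw [top_inf_eq] at h1
  rw [← h1]
  refine Eq.trans ?_ (card_skew hF)
  refine Nat.card_congr (Equiv.subtypeEquivRight fun s => ?_)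
  rw [mem_XB]
  constructor
  · exact fun h => h.1
  · intro h
    obtain ⟨g, hg⟩ := exists_eich hF u 0 s hu (hermForm_zero_right hF u)
      (by rw [hermForm_zero_right hF, h]; ring)
    exact ⟨h, g, Subgroup.mem_top g, hg⟩

/-- The stabiliser of a vector. -/
def fixs (a : Fin n → F) : Subgroup (SU n F q) where
  carrier := {g | act g a = a}
  mul_mem' := by
    intro g h hg hh
    change act (g * h) a = a
    rw [act_mul, hh, hg]
  one_mem' := act_one a
  inv_mem' := by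
    intro g hg
    change act g⁻¹ a = a
    conv_lhs => rw [← (hg : act g a = a)]
    exact act_inv_act g a

theorem mem_fixs {a : Fin n → F} {g : SU n F q} : g ∈ fixs a ↔ act g a = a := Iff.rfl

theorem eich_fix (hF : Fintype.card F = q ^ 2) {u a w : Fin n → F} {s : F}
    {g : SU n F q} (h : IsEich g u w s) (hua : ⟪u, a⟫ = 0) (haw : ⟪a, w⟫ = 0) :
    act g a = a := by
  rw [h a, (hermForm_eq_zero_comm hF).1 hua, haw]
  module

theorem Xs_le_fixs (hF : Fintype.card F = q ^ 2) {u a : Fin n → F} (hu : ⟪u, u⟫ = 0)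
    (hua : ⟪u, a⟫ = 0) : Xs hF u hu ≤ fixs a := by
  rintro g ⟨s, hs, h⟩
  exact eich_fix hF h hua (hermForm_zero_right hF a)

theorem mem_WB_fixs (hF : Fintype.card F = q ^ 2) {u a w : Fin n → F} (hu0 : u ≠ 0)
    (hu : ⟪u, u⟫ = 0) (hua : ⟪u, a⟫ = 0) :
    w ∈ WB hF u hu (fixs a) ↔ ⟪u, w⟫ = 0 ∧ ⟪a, w⟫ = 0 := by
  rw [mem_WB]
  constructor
  · rintro ⟨h1, g, hg, s, hs, h⟩
    refine ⟨h1, ?_⟩
    have h2 : act g a = a := hg
    rw [h a, (hermForm_eq_zero_comm hF).1 hua] at h2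
    have h3 : ⟪a, w⟫ • u = 0 := by
      have h4 : ⟪a, w⟫ • u = a - (a + (0 : F) • w - ⟪a, w⟫ • u + (s * 0) • u) := by module
      rw [h4, h2, sub_self]
    rcases smul_eq_zero.1 h3 with h4 | h4
    · exact h4
    · exact absurd h4 hu0
  · rintro ⟨h1, h2⟩
    obtain ⟨s, g, hs, hg⟩ := exists_eich' hF u w hu h1
    exact ⟨h1, g, eich_fix hF hg hua h2, s, hs, hg⟩

/-- the subspace orthogonal to one vector -/
def vp (q : ℕ) (u : Fin n → F) : Submodule F (Fin n → F) := perp q (Submodule.span F {u})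

theorem mem_vp (hF : Fintype.card F = q ^ 2) {u x : Fin n → F} : x ∈ vp q u ↔ ⟪x, u⟫ = 0 := by
  rw [vp, mem_perp_span hF]; simp

theorem mem_vp' (hF : Fintype.card F = q ^ 2) {u x : Fin n → F} : x ∈ vp q u ↔ ⟪u, x⟫ = 0 := by
  rw [mem_vp hF, hermForm_eq_zero_comm hF]

theorem finrank_vp (hF : Fintype.card F = q ^ 2) {u : Fin n → F} (hu : u ≠ 0) :
    Module.finrank F (vp q u) = n - 1 := by
  have h1 := finrank_perp hF (Submodule.span F {u})
  rw [finrank_span_singleton hu] at h1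
  rw [vp]; omega

theorem card_vp (hF : Fintype.card F = q ^ 2) {u : Fin n → F} (hu : u ≠ 0) :
    Nat.card (vp q u) = q ^ (2 * (n - 1)) := by
  rw [card_submod hF, finrank_vp hF hu]

theorem card_span_one (hF : Fintype.card F = q ^ 2) {u : Fin n → F} (hu : u ≠ 0) :
    Nat.card (Submodule.span F {u}) = q ^ 2 := by
  rw [card_submod hF, finrank_span_singleton hu]

theorem perp_vp (hF : Fintype.card F = q ^ 2) (u : Fin n → F) :
    perp q (vp q u) = Submodule.span F {u} := perp_perp hF _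

theorem vp_inf_perp (hF : Fintype.card F = q ^ 2) {u : Fin n → F} (hu : ⟪u, u⟫ = 0) :
    vp q u ⊓ perp q (vp q u) = Submodule.span F {u} := by
  rw [perp_vp hF]
  apply inf_eq_right.2
  rw [Submodule.span_singleton_le_iff_mem, mem_vp hF]
  exact hu

theorem card_Qs (hF : Fintype.card F = q ^ 2) {u : Fin n → F} (hu0 : u ≠ 0) (hu : ⟪u, u⟫ = 0) :
    Nat.card (Qs hF u hu) * q ^ 2 = q * q ^ (2 * (n - 1)) := by
  have h1 := card_inf_Qs hF hu0 hu ⊤
  rw [top_inf_eq, top_inf_eq, card_Xs hF hu0 hu] at h1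
  rw [h1, ← card_vp hF hu0]
  congr 1
  refine Nat.card_congr (Equiv.subtypeEquivRight fun w => ?_)
  rw [mem_WB, mem_vp' hF]
  refine ⟨fun h => h.1, fun h => ?_⟩
  obtain ⟨s, g, hs, hg⟩ := exists_eich' hF u w hu h
  exact ⟨h, g, Subgroup.mem_top g, s, hs, hg⟩

/-- orthogonal to two vectors -/
theorem card_vp2 (hF : Fintype.card F = q ^ 2) {u a : Fin n → F} (hu0 : u ≠ 0)
    (hu : ⟪u, u⟫ = 0) (ha : ⟪a, a⟫ ≠ 0) :
    Nat.card ↥(vp q u ⊓ vp q a) = q ^ (2 * (n - 2)) ∧
    (⟪u, a⟫ = 0 → (vp q u ⊓ vp q a) ⊓ perp q (vp q u ⊓ vp q a) = Submodule.span F {u}) := by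
  have ha0 : a ≠ 0 := by rintro rfl; exact ha (hermForm_zero_left _)
  have hli : LinearIndependent F ![u, a] := by
    rw [LinearIndependent.pair_iff' hu0]
    intro c hc
    apply ha
    rw [← hc, hermForm_smul_left, hermForm_smul_right, hu, mul_zero, mul_zero]
  have hsp : vp q u ⊓ vp q a = perp q (Submodule.span F {u, a}) := by
    ext x
    rw [Submodule.mem_inf, mem_vp hF, mem_vp hF, mem_perp_span hF]
    simp
  have hrk : Module.finrank F (Submodule.span F {u, a}) = 2 := by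
    have := finrank_span_eq_card hli
    rw [Fintype.card_fin, Matrix.range_cons, Matrix.range_cons, Matrix.range_empty,
      Set.union_empty, Set.singleton_union] at this
    exact this
  constructor
  · rw [hsp, card_submod hF]
    have := finrank_perp hF (Submodule.span F {u, a})
    congr 1
    omega
  · intro hua
    rw [hsp, perp_perp hF]
    ext x
    constructor
    · rintro ⟨h1, h2⟩
      obtain ⟨c, d, rfl⟩ := Submodule.mem_span_pair.1 h2
      rw [SetLike.mem_coe, mem_perp_span hF] at h1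
      have h3 := h1 a (by simp)
      rw [hermForm_add_left, hermForm_smul_left, hermForm_smul_left, hua, mul_zero, zero_add] at h3
      rcases mul_eq_zero.1 h3 with h4 | h4
      · rw [h4, zero_smul, add_zero]
        exact Submodule.smul_mem _ _ (Submodule.mem_span_singleton_self u)
      · exact absurd h4 ha
    · intro h1
      obtain ⟨c, rfl⟩ := Submodule.mem_span_singleton.1 h1
      refine ⟨?_, Submodule.smul_mem _ _ (Submodule.subset_span (by simp))⟩
      rw [SetLike.mem_coe, mem_perp_span hF]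
      intro w hw
      rw [hermForm_smul_left]
      rcases hw with rfl | rfl
      · rw [hu, mul_zero]
      · rw [hua, mul_zero]

theorem card_Qs_fixs (hF : Fintype.card F = q ^ 2) {u a : Fin n → F} (hu0 : u ≠ 0)
    (hu : ⟪u, u⟫ = 0) (hua : ⟪u, a⟫ = 0) (ha : ⟪a, a⟫ ≠ 0) :
    Nat.card ↥(fixs a ⊓ Qs hF u hu) * q ^ 2 = q * q ^ (2 * (n - 2)) := by
  rw [card_inf_Qs hF hu0 hu]
  have h1 : fixs a ⊓ Xs hF u hu = Xs hF u hu := inf_eq_right.2 (Xs_le_fixs hF hu hua)
  rw [h1, card_Xs hF hu0 hu, ← (card_vp2 hF hu0 hu ha).1]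
  congr 1
  refine Nat.card_congr (Equiv.subtypeEquivRight fun w => ?_)
  rw [mem_WB_fixs hF hu0 hu hua, Submodule.mem_inf, mem_vp' hF, mem_vp' hF]

/-- The commutator form on `WB` takes values in `XB`. -/
theorem WB_comm (hF : Fintype.card F = q ^ 2) {u : Fin n → F} (hu : ⟪u, u⟫ = 0)
    {M : Subgroup (SU n F q)} {x y : Fin n → F} (hx : x ∈ WB hF u hu M)
    (hy : y ∈ WB hF u hu M) : ⟪x, y⟫ - ⟪y, x⟫ ∈ XB hF u hu M := by
  obtain ⟨h1, g, hg, s, hs, h⟩ := hx
  obtain ⟨h1', g', hg', s', hs', h'⟩ := hy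
  exact ⟨skew_diff hF x y, _, M.mul_mem (M.mul_mem (M.mul_mem hg hg') (M.inv_mem hg))
    (M.inv_mem hg'), h.commutator hF hu h1 h1' hs hs' h'⟩

/-- A skew element not in `XB`. -/
theorem exists_skew_notMem (hF : Fintype.card F = q ^ 2) {u : Fin n → F} (hu : ⟪u, u⟫ = 0)
    {M : Subgroup (SU n F q)} (hM : ¬ Xs hF u hu ≤ M) :
    ∃ s : F, s ^ q = -s ∧ s ∉ XB hF u hu M := by
  rw [SetLike.not_le_iff_exists] at hM
  obtain ⟨g, ⟨s, hs, h⟩, hg⟩ := hM
  refine ⟨s, hs, fun h1 => hg ?_⟩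
  obtain ⟨-, g', hg', h'⟩ := h1
  rw [h.unique h']
  exact hg'

theorem WB_bound (hF : Fintype.card F = q ^ 2) {u : Fin n → F} (hu : ⟪u, u⟫ = 0)
    {M : Subgroup (SU n F q)} (hM : ¬ Xs hF u hu ≤ M) (U : Submodule F (Fin n → F))
    (hU : ∀ w ∈ WB hF u hu M, w ∈ U) :
    Nat.card (WB hF u hu M) * Nat.card (WB hF u hu M) ≤
      Nat.card U * Nat.card ↥(U ⊓ perp q U) := by
  obtain ⟨s, hs, hs'⟩ := exists_skew_notMem hF hu hM
  exact ti_bound hF (XB hF u hu M) hs hs' U _ hU (fun x hx y hy => WB_comm hF hu hx hy)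

end Cfsg.Agent.MinU
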