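import Cfsg.Agent.Uni.Simple
import Cfsg.Agent.Uni.IsoCount
import Cfsg.Agent.Uni.Stab
import Cfsg.Agent.Mdx.Dual

/-!
# Unipotent radicals of point stabilisers in `SU` and their subgroups
-/

set_option autoImplicit false
set_option linter.unusedSectionVars false

namespace Cfsg.Agent.MinU

open Cfsg.Agent.Uni Finset

variable {F : Type*} [Field F] [Fintype F] {q n : ℕ}

local notation "⟪" x ", " y "⟫" => hermForm _ _ q x y

/-! ### counting -/

theorem card_of_fibers {α β : Type*} [Finite α] [Finite β] (f : α → β) (k : ℕ)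
    (h : ∀ b, Nat.card {a // f a = b} = k) : Nat.card α = Nat.card β * k := by
  classical
  have := Fintype.ofFinite β
  rw [← Nat.card_congr (Equiv.sigmaFiberEquiv f), Nat.card_sigma]
  simp [h, Nat.card_eq_fintype_card]

theorem card_submod (hF : Fintype.card F = q ^ 2) (U : Submodule F (Fin n → F)) :
    Nat.card U = q ^ (2 * Module.finrank F U) := by
  rw [Module.natCard_eq_pow_finrank (K := F), Nat.card_eq_fintype_card, hF, ← pow_mul]

theorem card_vec (hF : Fintype.card F = q ^ 2) : Nat.card (Fin n → F) = q ^ (2 * n) := by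
  rw [Nat.card_eq_fintype_card, Fintype.card_fun, Fintype.card_fin, hF, ← pow_mul]

/-! ### Skew elements -/

theorem card_skew (hF : Fintype.card F = q ^ 2) : Nat.card {s : F // s ^ q = -s} = q := by
  obtain ⟨k, hk0, hk⟩ := exists_skew hF
  have h1 : ∀ s : {s : F // s ^ q = -s}, (s.1 * k) ^ q = s.1 * k := by
    intro s; rw [mul_pow, s.2, hk]; ring
  have h2 : ∀ c : {c : F // c ^ q = c}, (c.1 / k) ^ q = -(c.1 / k) := by
    intro c; rw [div_pow, c.2, hk, div_neg]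
  refine Eq.trans ?_ (card_fixed hF)
  refine Nat.card_congr ⟨fun s => ⟨s.1 * k, h1 s⟩, fun c => ⟨c.1 / k, h2 c⟩, ?_, ?_⟩
  · intro s
    ext
    simp [mul_div_cancel_right₀ _ hk0]
  · intro c
    ext
    simp [div_mul_cancel₀ _ hk0]

theorem skew_diff (hF : Fintype.card F = q ^ 2) (x y : Fin n → F) :
    (⟪x, y⟫ - ⟪y, x⟫) ^ q = -(⟪x, y⟫ - ⟪y, x⟫) := by
  rw [sub_pow_q hF, hermForm_symm hF, hermForm_symm hF]; ring

/-! ### The subgroups -/

/-- The transvection group with centre `u`. -/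
def Xs (hF : Fintype.card F = q ^ 2) (u : Fin n → F) (_hu : ⟪u, u⟫ = 0) :
    Subgroup (SU n F q) where
  carrier := {g | ∃ s : F, s ^ q = -s ∧ IsEich g u 0 s}
  mul_mem' := by
    rintro g g' ⟨s, hs, h⟩ ⟨s', hs', h'⟩
    have h0 := hermForm_zero_right hF u
    have h1 := h.mul hF _hu h0 h0 h'
    rw [hermForm_zero_right hF, add_zero, sub_zero] at h1
    exact ⟨s + s', by rw [add_pow_q hF, hs, hs']; ring, h1⟩
  one_mem' := ⟨0, by rw [zero_pow_q hF, neg_zero], isEich_one hF u⟩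
  inv_mem' := by
    rintro g ⟨s, hs, h⟩
    have h0 := hermForm_zero_right hF u
    have h1 := h.inv hF _hu h0 (by rw [hermForm_zero_right hF, hs]; ring)
    rw [neg_zero] at h1
    exact ⟨s ^ q, by rw [hs, neg_pow_q hF, hs], h1⟩

theorem mem_Xs {hF : Fintype.card F = q ^ 2} {u : Fin n → F} {hu : ⟪u, u⟫ = 0}
    {g : SU n F q} : g ∈ Xs hF u hu ↔ ∃ s : F, s ^ q = -s ∧ IsEich g u 0 s := Iff.rfl

theorem mul_aux (hF : Fintype.card F = q ^ 2) {w w' : Fin n → F} {s s' : F}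
    (hs : s + s ^ q = -⟪w, w⟫) (hs' : s' + s' ^ q = -⟪w', w'⟫) :
    (s + s' - ⟪w', w⟫) + (s + s' - ⟪w', w⟫) ^ q = -⟪w + w', w + w'⟫ := by
  rw [sub_pow_q hF, add_pow_q hF, hermForm_symm hF, hermForm_add_left, hermForm_add_right hF,
    hermForm_add_right hF]
  linear_combination hs + hs'

theorem inv_aux (hF : Fintype.card F = q ^ 2) {w : Fin n → F} {s : F}
    (hs : s + s ^ q = -⟪w, w⟫) : s ^ q + (s ^ q) ^ q = -⟪-w, -w⟫ := by
  rw [pow_q_pow_q hF, hermForm_neg_left, hermForm_neg_right hF, neg_neg, ← hs, add_comm]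

/-- The unipotent radical of the stabiliser of `⟨u⟩`. -/
def Qs (hF : Fintype.card F = q ^ 2) (u : Fin n → F) (_hu : ⟪u, u⟫ = 0) :
    Subgroup (SU n F q) where
  carrier := {g | ∃ (w : Fin n → F) (s : F), ⟪u, w⟫ = 0 ∧ s + s ^ q = -⟪w, w⟫ ∧ IsEich g u w s}
  mul_mem' := by
    rintro g g' ⟨w, s, hw, hs, h⟩ ⟨w', s', hw', hs', h'⟩
    exact ⟨w + w', _, by rw [hermForm_add_right hF, hw, hw', add_zero], mul_aux hF hs hs',
      h.mul hF _hu hw hw' h'⟩
  one_mem' := ⟨0, 0, hermForm_zero_right hF u, by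
    rw [hermForm_zero_right hF, zero_pow_q hF]; ring, isEich_one hF u⟩
  inv_mem' := by
    rintro g ⟨w, s, hw, hs, h⟩
    exact ⟨-w, s ^ q, by rw [hermForm_neg_right hF, hw, neg_zero], inv_aux hF hs,
      h.inv hF _hu hw hs⟩

theorem mem_Qs {hF : Fintype.card F = q ^ 2} {u : Fin n → F} {hu : ⟪u, u⟫ = 0}
    {g : SU n F q} : g ∈ Qs hF u hu ↔ ∃ (w : Fin n → F) (s : F), ⟪u, w⟫ = 0 ∧
      s + s ^ q = -⟪w, w⟫ ∧ IsEich g u w s := Iff.rfl

theorem Xs_le_Qs (hF : Fintype.card F = q ^ 2) {u : Fin n → F} (hu : ⟪u, u⟫ = 0) :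
    Xs hF u hu ≤ Qs hF u hu := by
  rintro g ⟨s, hs, h⟩
  exact ⟨0, s, hermForm_zero_right hF u, by rw [hermForm_zero_right hF, hs]; ring, h⟩

/-- The vectors `w` of the Eichler elements in `M` with centre `u`. -/
def WB (hF : Fintype.card F = q ^ 2) (u : Fin n → F) (_hu : ⟪u, u⟫ = 0)
    (M : Subgroup (SU n F q)) : AddSubgroup (Fin n → F) where
  carrier := {w | ⟪u, w⟫ = 0 ∧ ∃ g ∈ M, ∃ s : F, s + s ^ q = -⟪w, w⟫ ∧ IsEich g u w s}
  add_mem' := by
    rintro w w' ⟨hw, g, hg, s, hs, h⟩ ⟨hw', g', hg', s', hs', h'⟩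
    exact ⟨by rw [hermForm_add_right hF, hw, hw', add_zero], g * g', M.mul_mem hg hg', _,
      mul_aux hF hs hs', h.mul hF _hu hw hw' h'⟩
  zero_mem' := ⟨hermForm_zero_right hF u, 1, M.one_mem, 0, by
    rw [hermForm_zero_right hF, zero_pow_q hF]; ring, isEich_one hF u⟩
  neg_mem' := by
    rintro w ⟨hw, g, hg, s, hs, h⟩
    exact ⟨by rw [hermForm_neg_right hF, hw, neg_zero], g⁻¹, M.inv_mem hg, s ^ q, inv_aux hF hs,
      h.inv hF _hu hw hs⟩

theorem mem_WB {hF : Fintype.card F = q ^ 2} {u : Fin n → F} {hu : ⟪u, u⟫ = 0}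
    {M : Subgroup (SU n F q)} {w : Fin n → F} : w ∈ WB hF u hu M ↔
      ⟪u, w⟫ = 0 ∧ ∃ g ∈ M, ∃ s : F, s + s ^ q = -⟪w, w⟫ ∧ IsEich g u w s := Iff.rfl

/-- The parameters of the transvections in `M` with centre `u`. -/
def XB (hF : Fintype.card F = q ^ 2) (u : Fin n → F) (_hu : ⟪u, u⟫ = 0)
    (M : Subgroup (SU n F q)) : AddSubgroup F where
  carrier := {s | s ^ q = -s ∧ ∃ g ∈ M, IsEich g u 0 s}
  add_mem' := by
    rintro s s' ⟨hs, g, hg, h⟩ ⟨hs', g', hg', h'⟩
    have h0 := hermForm_zero_right hF u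
    have h1 := h.mul hF _hu h0 h0 h'
    rw [hermForm_zero_right hF, add_zero, sub_zero] at h1
    exact ⟨by rw [add_pow_q hF, hs, hs']; ring, g * g', M.mul_mem hg hg', h1⟩
  zero_mem' := ⟨by rw [zero_pow_q hF, neg_zero], 1, M.one_mem, isEich_one hF u⟩
  neg_mem' := by
    rintro s ⟨hs, g, hg, h⟩
    have h0 := hermForm_zero_right hF u
    have h1 := h.inv hF _hu h0 (by rw [hermForm_zero_right hF, hs]; ring)
    rw [neg_zero, hs] at h1
    exact ⟨by rw [neg_pow_q hF, hs], g⁻¹, M.inv_mem hg, h1⟩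

theorem mem_XB {hF : Fintype.card F = q ^ 2} {u : Fin n → F} {hu : ⟪u, u⟫ = 0}
    {M : Subgroup (SU n F q)} {s : F} : s ∈ XB hF u hu M ↔
      s ^ q = -s ∧ ∃ g ∈ M, IsEich g u 0 s := Iff.rfl

/-! ### Uniqueness of parameters -/

/-- Change of parameters. -/
theorem isEich_shift (hF : Fintype.card F = q ^ 2) {u w : Fin n → F}
    {s : F} {g : SU n F q} (h : IsEich g u w s) (c : F) :
    IsEich g u (w + c • u) (s - c + c ^ q) := by
  intro x
  rw [h x, hermForm_add_right hF, hermForm_smul_right]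
  module

theorem eich_param (hF : Fintype.card F = q ^ 2) {u w w' : Fin n → F} (hu0 : u ≠ 0)
    (hu : ⟪u, u⟫ = 0) {s s' : F} {g : SU n F q} (h : IsEich g u w s) (h' : IsEich g u w' s') :
    ∃ c : F, w' = w + c • u := by
  obtain ⟨v, hv⟩ := exists_hyp' hF hu0 hu
  have hvu : ⟪v, u⟫ = 1 := (hv.symm hF).2.2
  have h1 := (h v).symm.trans (h' v)
  rw [hvu, one_smul, one_smul] at h1
  refine ⟨-⟪v, w⟫ + ⟪v, w'⟫ + s * 1 - s' * 1, ?_⟩
  have h2 : w' = w - ⟪v, w⟫ • u + ⟪v, w'⟫ • u + (s * 1) • u - (s' * 1) • u := by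
    have h3 : v + w - ⟪v, w⟫ • u + (s * 1) • u - (v + w' - ⟪v, w'⟫ • u + (s' * 1) • u) = 0 := by
      rw [h1, sub_self]
    rw [← sub_eq_zero]
    have h4 : w' - (w - ⟪v, w⟫ • u + ⟪v, w'⟫ • u + (s * 1) • u - (s' * 1) • u) =
      -(v + w - ⟪v, w⟫ • u + (s * 1) • u - (v + w' - ⟪v, w'⟫ • u + (s' * 1) • u)) := by module
    rw [h4, h3, neg_zero]
  conv_lhs => rw [h2]
  module

theorem eich_s_unique (hF : Fintype.card F = q ^ 2) {u w : Fin n → F} (hu0 : u ≠ 0)
    (hu : ⟪u, u⟫ = 0) {s s' : F} {g : SU n F q} (h : IsEich g u w s) (h' : IsEich g u w s') :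
    s = s' := by
  obtain ⟨v, hv⟩ := exists_hyp' hF hu0 hu
  have hvu : ⟪v, u⟫ = 1 := (hv.symm hF).2.2
  have h1 := (h v).symm.trans (h' v)
  rw [hvu, add_right_inj] at h1
  have h2 : (s * 1 - s' * 1) • u = 0 := by rw [sub_smul, h1, sub_self]
  rcases smul_eq_zero.1 h2 with h3 | h3
  · rw [mul_one, mul_one] at h3; exact sub_eq_zero.1 h3
  · exact absurd h3 hu0

/-- If the vector is zero, the element is a transvection. -/
theorem mem_Xs_of_shift (hF : Fintype.card F = q ^ 2) {u : Fin n → F} (hu : ⟪u, u⟫ = 0)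
    {g : SU n F q} {c s : F} (h : IsEich g u (c • u) s)
    (hs : s + s ^ q = -⟪c • u, c • u⟫) : g ∈ Xs hF u hu := by
  have h1 := isEich_shift hF h (-c)
  have e : c • u + -c • u = 0 := by module
  rw [e] at h1
  refine ⟨_, ?_, h1⟩
  rw [hermForm_smul_left, hermForm_smul_right, hu, mul_zero, mul_zero, neg_zero] at hs
  rw [sub_neg_eq_add, neg_pow_q hF, add_pow_q hF, add_pow_q hF, neg_pow_q hF, pow_q_pow_q hF]
  linear_combination hs

theorem card_XB (hF : Fintype.card F = q ^ 2) {u : Fin n → F} (hu0 : u ≠ 0) (hu : ⟪u, u⟫ = 0)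
    (M : Subgroup (SU n F q)) : Nat.card (XB hF u hu M) = Nat.card ↥(M ⊓ Xs hF u hu) := by
  classical
  have hex : ∀ s : XB hF u hu M, ∃ g : ↥(M ⊓ Xs hF u hu), IsEich (g : SU n F q) u 0 (s : F) := by
    rintro ⟨s, hs, g, hg, h⟩
    exact ⟨⟨g, hg, s, hs, h⟩, h⟩
  choose f hf using hex
  refine Nat.card_congr (Equiv.ofBijective f ⟨?_, ?_⟩)
  · intro s s' hss
    apply Subtype.ext
    have h1 := hf s
    rw [hss] at h1
    exact eich_s_unique hF hu0 hu h1 (hf s')
  · rintro ⟨g, hg, s, hs, h⟩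
    refine ⟨⟨s, hs, g, hg, h⟩, ?_⟩
    apply Subtype.ext
    exact (hf _).unique h

/-- The fundamental count. -/
theorem card_inf_Qs (hF : Fintype.card F = q ^ 2) {u : Fin n → F} (hu0 : u ≠ 0)
    (hu : ⟪u, u⟫ = 0) (M : Subgroup (SU n F q)) :
    Nat.card ↥(M ⊓ Qs hF u hu) * q ^ 2 = Nat.card ↥(M ⊓ Xs hF u hu) * Nat.card (WB hF u hu M) := by
  classical
  let T : Type _ := {p : SU n F q × (Fin n → F) // p.1 ∈ M ∧ ⟪u, p.2⟫ = 0 ∧
    ∃ s : F, s + s ^ q = -⟪p.2, p.2⟫ ∧ IsEich p.1 u p.2 s}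
  have hTf : Finite T := inferInstance
  let f1 : T → ↥(M ⊓ Qs hF u hu) := fun p => ⟨p.1.1, p.2.1, p.1.2, by
    obtain ⟨-, h2, s, hs, h⟩ := p.2
    exact ⟨s, h2, hs, h⟩⟩
  let f2 : T → WB hF u hu M := fun p => ⟨p.1.2, by
    obtain ⟨h1, h2, s, hs, h⟩ := p.2
    exact ⟨h2, p.1.1, h1, s, hs, h⟩⟩
  have c1 : Nat.card T = Nat.card ↥(M ⊓ Qs hF u hu) * q ^ 2 := by
    apply card_of_fibers f1
    rintro ⟨g, hgM, w, s, hw, hs, h⟩
    have e : F ≃ {a : T // f1 a = ⟨g, hgM, w, s, hw, hs, h⟩} := by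
      refine Equiv.ofBijective (fun c => ⟨⟨(g, w + c • u), hgM, ?_, s - c + c ^ q, ?_, ?_⟩, ?_⟩)
        ⟨?_, ?_⟩
      · change ⟪u, w + c • u⟫ = 0
        rw [hermForm_add_right hF, hermForm_smul_right, hw, hu]; ring
      · change _ = -⟪w + c • u, w + c • u⟫
        have hwu : ⟪w, u⟫ = 0 := (hermForm_eq_zero_comm hF).1 hw
        rw [hermForm_add_right hF, hermForm_add_left, hermForm_add_left, hermForm_smul_right,
          hermForm_smul_left, hermForm_smul_left, hermForm_smul_right, hw, hu, hwu,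
          add_pow_q hF, sub_pow_q hF, pow_q_pow_q hF]
        linear_combination hs
      · exact isEich_shift hF h c
      · rfl
      · intro c c' hcc
        have h1 := congrArg (fun z => z.1.1.2) hcc
        change w + c • u = w + c' • u at h1
        rw [add_right_inj] at h1
        have h2 : (c - c') • u = 0 := by rw [sub_smul, h1, sub_self]
        rcases smul_eq_zero.1 h2 with h3 | h3
        · exact sub_eq_zero.1 h3
        · exact absurd h3 hu0
      · rintro ⟨⟨⟨g', w'⟩, h1, h2, s', hs', h'⟩, hg⟩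
        have hgg : g' = g := congrArg Subtype.val hg
        subst hgg
        obtain ⟨c, hc⟩ := eich_param hF hu0 hu h h'
        refine ⟨c, ?_⟩
        apply Subtype.ext
        apply Subtype.ext
        change (g', w + c • u) = (g', w')
        exact Prod.ext rfl hc.symm
    rw [← Nat.card_congr e, Nat.card_eq_fintype_card, hF]
  have c2 : Nat.card T = Nat.card (WB hF u hu M) * Nat.card ↥(M ⊓ Xs hF u hu) := by
    apply card_of_fibers f2
    rintro ⟨w, hw, g, hgM, s, hs, h⟩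
    have huw1 : ⟪u, -w⟫ = 0 := by rw [hermForm_neg_right hF, hw, neg_zero]
    have e : ↥(M ⊓ Xs hF u hu) ≃ {a : T // f2 a = ⟨w, hw, g, hgM, s, hs, h⟩} := by
      refine Equiv.ofBijective (fun x => ⟨⟨((x : SU n F q) * g, w), ?_, hw, ?_⟩, rfl⟩) ⟨?_, ?_⟩
      · exact M.mul_mem x.2.1 hgM
      · obtain ⟨-, t, ht, hx⟩ := x.2
        have h1 := hx.mul hF hu (hermForm_zero_right hF u) hw h
        rw [zero_add, hermForm_zero_right hF, sub_zero] at h1
        exact ⟨t + s, by rw [add_pow_q hF, ht]; linear_combination hs, h1⟩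
      · intro x x' hxx
        have h1 := congrArg (fun z => z.1.1.1) hxx
        change (x : SU n F q) * g = (x' : SU n F q) * g at h1
        exact Subtype.ext (mul_right_cancel h1)
      · rintro ⟨⟨⟨g', w'⟩, h1, h2, s', hs', h'⟩, hg⟩
        have hww : w' = w := congrArg Subtype.val hg
        subst hww
        have h3 := h'.mul hF hu h2 huw1 (h.inv hF hu h2 hs)
        rw [add_neg_cancel] at h3
        refine ⟨⟨g' * g⁻¹, M.mul_mem h1 (M.inv_mem hgM), _, ?_, h3⟩, ?_⟩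
        · rw [sub_pow_q hF, add_pow_q hF, hermForm_symm hF, pow_q_pow_q hF, hermForm_neg_left,
            hermForm_neg_right hF]
          linear_combination hs + hs'
        · apply Subtype.ext
          apply Subtype.ext
          change (g' * g⁻¹ * g, w') = (g', w')
          rw [inv_mul_cancel_right]
    rw [← Nat.card_congr e]
  rw [← c1, c2, mul_comm]

end Cfsg.Agent.MinU
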